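import Cfsg.Prelude.Def_Sporadic_a

set_option autoImplicit false

namespace Cfsg.Agent.Lib.Helper28.Aff9

open Finset

/-- The points of the affine plane of order three. -/
abbrev P9 : Type := ZMod 3 × ZMod 3

/-- The lines: the three-point sets with zero sum. -/
def L9 : Set (Finset P9) := {b | b.card = 3 ∧ ∑ x ∈ b, x = 0}

/-- The quadrangle with centre `c` and half-diagonals `a`, `b`. -/
def Qd (c a b : P9) : Finset P9 := {c + a, c - a, c + b, c - b}

/-- The parallelogram with corner `c` and sides `a`, `b`. -/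
def Pg (c a b : P9) : Finset P9 := {c, c + a, c + b, c + a + b}

/-- Independence of two vectors. -/
def Indep (a b : P9) : Prop := a ≠ 0 ∧ b ≠ 0 ∧ b ≠ a ∧ b ≠ -a

instance (a b : P9) : Decidable (Indep a b) := by
  unfold Indep
  infer_instance

/-- The first half-diagonal of the reference quadrangles. -/
def av : P9 := (1, 1)

/-- The second half-diagonals of the reference quadrangles. -/
def bv : Fin 3 → P9 := ![(2, 1), (0, 1), (1, 0)]

/-- The three classes of quadrangles. -/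
def Cl (k : Fin 3) : Set (Finset P9) := {S | ∃ c, S = Qd c av (bv k) ∨ S = Pg c av (bv k)}

theorem d_third : ∀ c a b z : P9, (Indep a b ∧ z ≠ c + a ∧ z ≠ c + b ∧ z ≠ c + a + b ∧
    z ≠ c - a ∧ z ≠ c - b ∧ z + (c + a) + (c + a + b) ≠ 0 ∧ z + (c + b) + (c + a + b) ≠ 0 ∧
    z + (c + a) + (c + b) ≠ 0) → z = c := by decide +kernel

theorem d_trip : ∀ c a b : P9, Indep a b → c + a ≠ c + b ∧ c + a ≠ c + a + b ∧
    c + b ≠ c + a + b ∧ (c + a) + (c + b) + (c + a + b) ≠ 0 ∧ c + a ≠ c - a ∧ c + b ≠ c - a ∧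
    c + a ≠ c - b ∧ c + b ≠ c - b ∧ c + a + b ≠ c + a ∧ c + a + b ≠ c - a ∧ c + a + b ≠ c + b ∧
    c + a + b ≠ c - b := by decide +kernel

theorem d_id1 : ∀ c a b : P9, Pg c a b = Qd (c - a - b) (a + b) (b - a) := by decide +kernel

theorem d_id2 : ∀ c a b : P9, Pg (c - a - b) (a + b) (b - a) = Qd (c - a) a b := by
  decide +kernel

theorem d_id3 : ∀ c a b : P9, Qd c a b = Qd c b a := by decide +kernel

theorem d_ind1 : ∀ a b : P9, Indep a b → Indep (a + b) (b - a) ∧ Indep b a := by decide +kernel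

theorem d_span : ∀ a b d : P9, Indep a b → ∃ i j : Fin 3, d = (i : ℕ) • a + (j : ℕ) • b := by
  decide +kernel

theorem d_sub3 : ∀ c a : P9, c - a - a = c + a := by decide +kernel

theorem d_cover : ∀ k : Fin 3, ∀ p q r : P9, (p ≠ q ∧ p ≠ r ∧ q ≠ r ∧ p + q + r ≠ 0) →
    ∃ c, ({p, q, r} ⊆ Qd c av (bv k)) ∨ ({p, q, r} ⊆ Pg c av (bv k)) := by decide +kernel

theorem d_cand : ∀ z : P9, (z ≠ (0, 0) ∧ z ≠ (1, 0) ∧ z ≠ (0, 1) ∧ z + (0, 0) + (1, 0) ≠ 0 ∧
    z + (0, 0) + (0, 1) ≠ 0 ∧ z + (1, 0) + (0, 1) ≠ 0) → z = (1, 1) ∨ z = (2, 1) ∨ z = (1, 2) := by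
  decide +kernel

theorem d_q0 : ({(0, 0), (1, 0), (0, 1), (1, 1)} : Finset P9) = Qd (2, 2) av (bv 0) := by
  decide +kernel

theorem d_q1 : ({(0, 0), (1, 0), (0, 1), (2, 1)} : Finset P9) = Qd (0, 2) av (bv 1) := by
  decide +kernel

theorem d_q2 : ({(0, 0), (1, 0), (0, 1), (1, 2)} : Finset P9) = Qd (2, 0) av (bv 2) := by
  decide +kernel

theorem d_indk : ∀ k : Fin 3, Indep av (bv k) := by decide +kernel

theorem d_t0 : ((0, 0) : P9) ≠ (1, 0) ∧ ((0, 0) : P9) ≠ (0, 1) ∧ ((1, 0) : P9) ≠ (0, 1) ∧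
    ((0, 0) : P9) + (1, 0) + (0, 1) ≠ 0 := by decide +kernel

end Cfsg.Agent.Lib.Helper28.Aff9
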