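import Cfsg.Agent.S0410

set_option autoImplicit false
set_option linter.unusedSectionVars false

namespace Cfsg.Agent.Lib.Helper28
namespace Aut22

open Cfsg Finset
open scoped Pointwise
open Cfsg.Agent.Lib.Helper4 Cfsg.Agent.Lib.Helper28.Plane4 Cfsg.Agent.S0410

variable {α : Type*} [Fintype α] [DecidableEq α]

/-! ### Transport of set systems along bijections -/

theorem image_trans_set {β γ : Type*} [DecidableEq β] [DecidableEq γ] (e : α ≃ β) (e' : β ≃ γ)
    (B : Set (Finset α)) :
    (fun b : Finset α => b.image (e.trans e')) '' B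
      = (fun b : Finset β => b.image e') '' ((fun b : Finset α => b.image e) '' B) := by
  rw [Set.image_image]
  congr 1
  funext b
  rw [Finset.image_image]
  rfl

theorem image_symm_set {β : Type*} [DecidableEq β] (e : α ≃ β) (B : Set (Finset α)) :
    (fun b : Finset β => b.image e.symm) '' ((fun b : Finset α => b.image e) '' B) = B := by
  rw [Set.image_image]
  have h : (fun b : Finset α => (b.image e).image e.symm) = id := by
    funext b
    rw [Finset.image_image]
    have h' : e.symm ∘ e = id := by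
      funext x
      simp
    rw [h', Finset.image_id]
    rfl
  rw [h, Set.image_id]

theorem smul_eq_image (g : Equiv.Perm α) (B : Set (Finset α)) :
    g • B = (fun b : Finset α => b.image g) '' B := rfl

theorem mem_aut_iff {B : Set (Finset α)} {g : Equiv.Perm α} :
    g ∈ setSystemAut B ↔ (fun b : Finset α => b.image g) '' B = B := Iff.rfl

/-- Two bijections onto a common system differ by an automorphism. -/
theorem aut_of_two {β : Type*} [DecidableEq β] {B : Set (Finset α)} {C : Set (Finset β)}
    (E E' : α ≃ β) (hE : (fun b : Finset α => b.image E) '' B = C)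
    (hE' : (fun b : Finset α => b.image E') '' B = C) :
    E.trans E'.symm ∈ setSystemAut B := by
  rw [mem_aut_iff, image_trans_set, hE, ← hE', image_symm_set]

/-! ### Frames -/

/-- The isomorphism onto the standard system attached to a frame: a point, and a labelling of
a block missing the point. -/
theorem to_std_frame (hα : Fintype.card α = 22) {B : Set (Finset α)}
    (hB : IsSteinerSystem 3 6 B) (x : α) (h : Fin 6 → α) (hinj : Function.Injective h)
    (hb : univ.image h ∈ B) (hx : x ∉ univ.image h) :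
    ∃ E : α ≃ Option M, E x = none ∧ (∀ i, E (h i) = some (Sum.inl i)) ∧
      (fun b : Finset α => b.image E) '' B = Bstd := by
  have c21 : Fintype.card (Fin 21) = 21 := Fintype.card_fin 21
  have c22 : Fintype.card (Option (Fin 21)) = 22 := by rw [Fintype.card_option, c21]
  have e00 : α ≃ Option (Fin 21) := Fintype.equivOfCardEq (by rw [hα, c22])
  obtain ⟨e0, he0⟩ : ∃ e0 : α ≃ Option (Fin 21), e0 x = none :=
    ⟨e00.trans (Equiv.swap (e00 x) none), by simp⟩
  have hB1 : IsSteinerSystem 3 6 ((fun b => b.image e0) '' B) := steiner_image e0 hB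
  have hb0 : (univ.image h).image e0 ∈ (fun b : Finset α => b.image e0) '' B := ⟨_, hb, rfl⟩
  generalize hB1def : (fun b : Finset α => b.image e0) '' B = B1 at hB1 hb0
  have hL1 : IsSteinerSystem 2 5 (der B1) := der_steiner hB1
  have hne : ∀ i, e0 (h i) ≠ none := by
    intro i e
    rw [← he0] at e
    have e' := e0.injective e
    exact hx (e' ▸ Finset.mem_image_of_mem h (Finset.mem_univ i))
  have hn0 : none ∉ (univ.image h).image e0 := by
    intro hn
    obtain ⟨y, hy, e⟩ := Finset.mem_image.1 hn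
    obtain ⟨i, -, rfl⟩ := Finset.mem_image.1 hy
    exact hne i e
  have hs : ∀ i, ∃ y, e0 (h i) = some y := fun i => Option.ne_none_iff_exists'.1 (hne i)
  choose h' hh' using hs
  have hinj' : Function.Injective h' := by
    intro i j e
    apply hinj
    apply e0.injective
    rw [hh', hh', e]
  have hr' : ∀ y, y ∈ Finset.eraseNone ((univ.image h).image e0) ↔ ∃ i, h' i = y := by
    intro y
    rw [Finset.mem_eraseNone]
    constructor
    · intro hy
      obtain ⟨z, hz, e⟩ := Finset.mem_image.1 hy
      obtain ⟨i, -, rfl⟩ := Finset.mem_image.1 hz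
      rw [hh'] at e
      exact ⟨i, Option.some_injective _ e⟩
    · rintro ⟨i, rfl⟩
      rw [← hh']
      exact Finset.mem_image_of_mem _ (Finset.mem_image_of_mem _ (Finset.mem_univ i))
  generalize (univ.image h).image e0 = b0 at hb0 hn0 hr'
  obtain ⟨hH0, hmap0⟩ := blk_hyp c22 hB1 hb0 hn0
  obtain ⟨e1, he1, hLM⟩ := model_iso c21 hL1 hH0 h' hinj' hr'
  refine ⟨e0.trans (Equiv.optionCongr e1), ?_, ?_, ?_⟩
  · show Equiv.optionCongr e1 (e0 x) = none
    rw [he0]
    rfl
  · intro i
    show Equiv.optionCongr e1 (e0 (h i)) = some (Sum.inl i)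
    rw [hh']
    show some (e1 (h' i)) = some (Sum.inl i)
    rw [he1]
  have hB2 : IsSteinerSystem 3 6 ((fun b => b.image (Equiv.optionCongr e1)) '' B1) :=
    steiner_image _ hB1
  rw [image_trans_set, hB1def]
  apply std_eq hB2
  · rw [← hLM]
    ext ℓ
    constructor
    · rintro ⟨b, hb, e⟩
      refine ⟨ℓ.image e1.symm, ?_, ?_⟩
      · show Finset.insertNone (ℓ.image e1.symm) ∈ B1
        have h' : Finset.insertNone (ℓ.image e1.symm) = b := by
          rw [← image_insertNone e1.symm ℓ, ← e, image_oc_symm]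
        rw [h']
        exact hb
      · show (ℓ.image e1.symm).image e1 = ℓ
        rw [Finset.image_image]
        have h' : e1 ∘ e1.symm = id := by
          funext x
          simp
        rw [h', Finset.image_id]
    · rintro ⟨ℓ1, hℓ1, rfl⟩
      exact ⟨Finset.insertNone ℓ1, hℓ1, image_insertNone e1 ℓ1⟩
  · refine ⟨b0, hb0, ?_⟩
    show b0.image (Equiv.optionCongr e1) = Hstd.map Function.Embedding.some
    rw [← hmap0, image_map_some]
    congr 1
    ext z
    rw [Finset.mem_image, mem_Hstd]
    constructor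
    · rintro ⟨x, hx, rfl⟩
      obtain ⟨i, rfl⟩ := (hr' x).1 hx
      exact ⟨i, (he1 i).symm⟩
    · rintro ⟨i, rfl⟩
      exact ⟨h' i, (hr' _).2 ⟨i, rfl⟩, he1 i⟩

theorem two_sec : ∀ k : Fin 15, ∃ i : Fin 6, i ≠ 0 ∧ i ≠ synF k 0 := by decide +kernel

/-- An automorphism of the standard system fixing the extra point and the six base points is
trivial. -/
theorem rigid (hS : IsSteinerSystem 3 6 Bstd) (τ : Equiv.Perm (Option M))
    (hτ : ∀ b ∈ Bstd, b.image τ ∈ Bstd) (h0 : τ none = none)
    (h1 : ∀ i : Fin 6, τ (some (Sum.inl i)) = some (Sum.inl i)) : ∀ y, τ y = y := by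
  have sec : ∀ i j : Fin 6, i ≠ j →
      (Finset.insertNone (secSet i j)).image τ = Finset.insertNone (secSet i j) := by
    intro i j hij
    have hb : Finset.insertNone (secSet i j) ∈ Bstd :=
      Or.inl ⟨_, Or.inl ⟨i, j, hij, rfl⟩, rfl⟩
    have hb' := hτ _ hb
    apply Steiner.eq_of_le_inter hS hb' hb
    have mi : some (Sum.inl i) ∈ Finset.insertNone (secSet i j) :=
      Finset.some_mem_insertNone.2 (mem_secSet_inl.2 (Or.inl rfl))
    have mj : some (Sum.inl j) ∈ Finset.insertNone (secSet i j) :=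
      Finset.some_mem_insertNone.2 (mem_secSet_inl.2 (Or.inr rfl))
    have hsub : ({none, some (Sum.inl i), some (Sum.inl j)} : Finset (Option M)) ⊆
        (Finset.insertNone (secSet i j)).image τ ∩ Finset.insertNone (secSet i j) := by
      intro z hz
      simp only [Finset.mem_insert, Finset.mem_singleton] at hz
      rw [Finset.mem_inter]
      rcases hz with rfl | rfl | rfl
      · exact ⟨Finset.mem_image.2 ⟨none, Finset.none_mem_insertNone, h0⟩,
          Finset.none_mem_insertNone⟩
      · exact ⟨Finset.mem_image.2 ⟨_, mi, h1 i⟩, mi⟩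
      · exact ⟨Finset.mem_image.2 ⟨_, mj, h1 j⟩, mj⟩
    have hc := Finset.card_le_card hsub
    have h3 : ({none, some (Sum.inl i), some (Sum.inl j)} : Finset (Option M)).card = 3 :=
      Finset.card_eq_three.2 ⟨_, _, _, by simp, by simp,
        fun e => hij (Sum.inl_injective (Option.some_injective _ e)), rfl⟩
    rw [h3] at hc
    exact hc
  intro y
  rcases y with _ | (i | k)
  · exact h0
  · exact h1 i
  · obtain ⟨i', hi0, hi1⟩ := two_sec k
    by_contra hne
    have hb1 : Finset.insertNone (secSet 0 (synF k 0)) ∈ Bstd :=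
      Or.inl ⟨_, Or.inl ⟨0, _, (synF_ne k 0).symm, rfl⟩, rfl⟩
    have hb2 : Finset.insertNone (secSet i' (synF k i')) ∈ Bstd :=
      Or.inl ⟨_, Or.inl ⟨i', _, (synF_ne k i').symm, rfl⟩, rfl⟩
    have m1 : some (Sum.inr k) ∈ Finset.insertNone (secSet 0 (synF k 0)) :=
      Finset.some_mem_insertNone.2 (mem_secSet_inr.2 rfl)
    have m2 : some (Sum.inr k) ∈ Finset.insertNone (secSet i' (synF k i')) :=
      Finset.some_mem_insertNone.2 (mem_secSet_inr.2 rfl)
    have t1 : τ (some (Sum.inr k)) ∈ Finset.insertNone (secSet 0 (synF k 0)) := by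
      rw [← sec 0 _ (synF_ne k 0).symm]
      exact Finset.mem_image_of_mem _ m1
    have t2 : τ (some (Sum.inr k)) ∈ Finset.insertNone (secSet i' (synF k i')) := by
      rw [← sec i' _ (synF_ne k i').symm]
      exact Finset.mem_image_of_mem _ m2
    have tn : τ (some (Sum.inr k)) ≠ none := by
      intro e
      rw [← h0] at e
      exact absurd (τ.injective e) (by simp)
    have hsub : ({none, some (Sum.inr k), τ (some (Sum.inr k))} : Finset (Option M)) ⊆
        Finset.insertNone (secSet 0 (synF k 0)) ∩ Finset.insertNone (secSet i' (synF k i')) := by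
      intro z hz
      simp only [Finset.mem_insert, Finset.mem_singleton] at hz
      rw [Finset.mem_inter]
      rcases hz with rfl | rfl | rfl
      · exact ⟨Finset.none_mem_insertNone, Finset.none_mem_insertNone⟩
      · exact ⟨m1, m2⟩
      · exact ⟨t1, t2⟩
    have hc := Finset.card_le_card hsub
    have h3 : ({none, some (Sum.inr k), τ (some (Sum.inr k))} : Finset (Option M)).card = 3 :=
      Finset.card_eq_three.2 ⟨_, _, _, by simp, Ne.symm tn, Ne.symm hne, rfl⟩
    rw [h3] at hc
    have e := Steiner.eq_of_le_inter hS hb1 hb2 hc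
    have m3 : some (Sum.inl i') ∈ Finset.insertNone (secSet 0 (synF k 0)) := by
      rw [e]
      exact Finset.some_mem_insertNone.2 (mem_secSet_inl.2 (Or.inl rfl))
    rcases mem_secSet_inl.1 (Finset.some_mem_insertNone.1 m3) with e' | e'
    · exact hi0 e'
    · exact hi1 e'

/-- The isomorphism onto the standard system is determined by its frame. -/
theorem frame_unique {B : Set (Finset α)} (hB : IsSteinerSystem 3 6 B) (E E' : α ≃ Option M)
    (hE : (fun b : Finset α => b.image E) '' B = Bstd)
    (hE' : (fun b : Finset α => b.image E') '' B = Bstd) (x : α) (h : Fin 6 → α)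
    (e1 : E x = none) (e1' : E' x = none) (e2 : ∀ i, E (h i) = some (Sum.inl i))
    (e2' : ∀ i, E' (h i) = some (Sum.inl i)) : E = E' := by
  have hS : IsSteinerSystem 3 6 Bstd := hE ▸ steiner_image E hB
  have hτ : ∀ b ∈ Bstd, b.image (E.symm.trans E') ∈ Bstd := by
    intro b hb
    rw [← hE] at hb
    obtain ⟨b0, hb0, rfl⟩ := hb
    rw [← hE']
    refine ⟨b0, hb0, ?_⟩
    show b0.image E' = (b0.image E).image (E.symm.trans E')
    rw [Finset.image_image]
    congr 1
    funext z
    simp
  have k0 : (E.symm.trans E') none = none := by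
    show E' (E.symm none) = none
    rw [E.symm_apply_eq.2 e1.symm, e1']
  have k1 : ∀ i : Fin 6, (E.symm.trans E') (some (Sum.inl i)) = some (Sum.inl i) := by
    intro i
    show E' (E.symm (some (Sum.inl i))) = some (Sum.inl i)
    rw [E.symm_apply_eq.2 (e2 i).symm, e2']
  have key := rigid hS (E.symm.trans E') hτ k0 k1
  apply Equiv.ext
  intro z
  have h3 := key (E z)
  have h4 : (E.symm.trans E') (E z) = E' z := by
    show E' (E.symm (E z)) = E' z
    rw [Equiv.symm_apply_apply]
  rw [← h4, h3]

/-! ### Counting frames -/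

/-- The frames of a system: a point together with a labelling of a block missing it. -/
def Fr (B : Set (Finset α)) : Set (α × (Fin 6 → α)) :=
  {t | Function.Injective t.2 ∧ univ.image t.2 ∈ B ∧ t.1 ∉ univ.image t.2}

theorem lab_card (b : Finset α) (hb : b.card = 6) :
    (univ.filter (fun h : Fin 6 → α => Function.Injective h ∧ univ.image h = b)).card = 720 := by
  obtain ⟨h0, hinj0, hr0⟩ := exists_label b hb
  have key : univ.filter (fun h : Fin 6 → α => Function.Injective h ∧ univ.image h = b)
      = (univ : Finset (Equiv.Perm (Fin 6))).image (fun π : Equiv.Perm (Fin 6) => h0 ∘ ⇑π) := by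
    ext h
    rw [Finset.mem_filter, Finset.mem_image]
    constructor
    · rintro ⟨-, hinj, him⟩
      have hs : ∀ i, ∃ j, h0 j = h i := fun i =>
        (hr0 _).1 (by rw [← him]; exact Finset.mem_image_of_mem _ (Finset.mem_univ i))
      choose π0 hπ0 using hs
      have hπinj : Function.Injective π0 := by
        intro i j e
        apply hinj
        rw [← hπ0 i, ← hπ0 j, e]
      refine ⟨Equiv.ofBijective π0 (Finite.injective_iff_bijective.1 hπinj), Finset.mem_univ _, ?_⟩
      funext i
      exact hπ0 i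
    · rintro ⟨π, -, rfl⟩
      refine ⟨Finset.mem_univ _, hinj0.comp π.injective, ?_⟩
      ext y
      rw [hr0 y, Finset.mem_image]
      constructor
      · rintro ⟨i, -, rfl⟩
        exact ⟨π i, rfl⟩
      · rintro ⟨j, rfl⟩
        exact ⟨π.symm j, Finset.mem_univ _, by simp⟩
  rw [key, Finset.card_image_of_injective]
  · rw [Finset.card_univ, Fintype.card_perm, Fintype.card_fin]
    rfl
  · intro π π' e
    apply Equiv.ext
    intro i
    have h5 : h0 (π i) = h0 (π' i) := congrFun e i
    exact hinj0 h5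

theorem frames_card (hα : Fintype.card α = 22) {B : Set (Finset α)}
    (hB : IsSteinerSystem 3 6 B) : (Fr B).ncard = 887040 := by
  classical
  have e1 : Fr B = ↑(univ.filter (fun t : α × (Fin 6 → α) => t ∈ Fr B)) := by
    ext t
    simp
  rw [e1, Set.ncard_coe_finset]
  rw [Finset.card_eq_sum_card_fiberwise (f := fun t : α × (Fin 6 → α) => univ.image t.2)
    (t := Steiner.blocks B)]
  · have hf : ∀ b ∈ Steiner.blocks B,
        ((univ.filter (fun t : α × (Fin 6 → α) => t ∈ Fr B)).filter
          (fun t => univ.image t.2 = b)).card = 11520 := by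
      intro b hb
      have hbB := Steiner.mem_blocks.1 hb
      have e2 : (univ.filter (fun t : α × (Fin 6 → α) => t ∈ Fr B)).filter
          (fun t => univ.image t.2 = b)
          = bᶜ ×ˢ (univ.filter (fun h : Fin 6 → α => Function.Injective h ∧ univ.image h = b)) := by
        ext ⟨x, h⟩
        rw [Finset.mem_filter, Finset.mem_filter, Finset.mem_product, Finset.mem_compl,
          Finset.mem_filter]
        constructor
        · rintro ⟨⟨-, h1, h2, h3⟩, h4⟩
          have h4' : univ.image h = b := h4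
          have h3' : x ∉ univ.image h := h3
          rw [h4'] at h3'
          exact ⟨h3', Finset.mem_univ _, h1, h4'⟩
        · rintro ⟨h1, -, h2, h3⟩
          have h1' : x ∉ b := h1
          rw [← h3] at h1' hbB
          exact ⟨⟨Finset.mem_univ _, h2, hbB, h1'⟩, h3⟩
      rw [e2, Finset.card_product, Finset.card_compl, hα, hB.1 b hbB, lab_card b (hB.1 b hbB)]
    rw [Finset.sum_congr rfl hf, Finset.sum_const, smul_eq_mul, ← Steiner.ncard_eq,
      Steiner.s3622_card hα hB]
  · intro t ht
    rw [Finset.mem_coe, Finset.mem_filter] at ht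
    exact Finset.mem_coe.2 (Steiner.mem_blocks.2 ht.2.2.1)

/-- The automorphism group has order 887040. -/
theorem card_aut (hα : Fintype.card α = 22) {B : Set (Finset α)} (hB : IsSteinerSystem 3 6 B) :
    Nat.card (setSystemAut B) = 887040 := by
  have hne : (Fr B).Nonempty := by
    by_contra h
    rw [Set.not_nonempty_iff_eq_empty] at h
    have h' := frames_card hα hB
    rw [h, Set.ncard_empty] at h'
    omega
  obtain ⟨⟨x0, h0⟩, hinj0, hb0, hx0⟩ := hne
  obtain ⟨E0, a0, b0, c0⟩ := to_std_frame hα hB x0 h0 hinj0 hb0 hx0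
  rw [← frames_card hα hB, ← Nat.card_coe_set_eq]
  have hmem : ∀ g : setSystemAut B,
      ((g : Equiv.Perm α) x0, (g : Equiv.Perm α) ∘ h0) ∈ Fr B := by
    intro g
    have hg := mem_aut_iff.1 g.2
    refine ⟨(g : Equiv.Perm α).injective.comp hinj0, ?_, ?_⟩
    · show univ.image ((g : Equiv.Perm α) ∘ h0) ∈ B
      rw [← Finset.image_image]
      have h5 : (univ.image h0).image (g : Equiv.Perm α)
          ∈ (fun b : Finset α => b.image (g : Equiv.Perm α)) '' B := ⟨_, hb0, rfl⟩
      rw [hg] at h5
      exact h5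
    · intro hm
      obtain ⟨i, -, e⟩ := Finset.mem_image.1 hm
      have e' : h0 i = x0 := (g : Equiv.Perm α).injective e
      exact hx0 (e' ▸ Finset.mem_image_of_mem h0 (Finset.mem_univ i))
  apply Nat.card_eq_of_bijective (fun g : setSystemAut B => (⟨_, hmem g⟩ : Fr B))
  constructor
  · intro g g' e
    have e' := congrArg Subtype.val e
    have e1 : (g : Equiv.Perm α) x0 = (g' : Equiv.Perm α) x0 := congrArg Prod.fst e'
    have e2 : (g : Equiv.Perm α) ∘ h0 = (g' : Equiv.Perm α) ∘ h0 := congrArg Prod.snd e'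
    -- the automorphism `g⁻¹ g'` fixes the base frame
    have hτ : (g⁻¹ * g' : setSystemAut B).1 ∈ setSystemAut B := (g⁻¹ * g').2
    have hE' : (fun b : Finset α => b.image (((g⁻¹ * g' : setSystemAut B).1).trans E0)) '' B
        = Bstd := by
      rw [image_trans_set, mem_aut_iff.1 hτ, c0]
    have q1 : (((g⁻¹ * g' : setSystemAut B).1).trans E0) x0 = none := by
      show E0 ((g : Equiv.Perm α)⁻¹ ((g' : Equiv.Perm α) x0)) = none
      rw [← e1, Equiv.Perm.inv_def, Equiv.symm_apply_apply, a0]
    have q2 : ∀ i, (((g⁻¹ * g' : setSystemAut B).1).trans E0) (h0 i) = some (Sum.inl i) := by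
      intro i
      show E0 ((g : Equiv.Perm α)⁻¹ ((g' : Equiv.Perm α) (h0 i))) = some (Sum.inl i)
      have e3 : (g' : Equiv.Perm α) (h0 i) = (g : Equiv.Perm α) (h0 i) := (congrFun e2 i).symm
      rw [e3, Equiv.Perm.inv_def, Equiv.symm_apply_apply, b0]
    have hu := frame_unique hB E0 _ c0 hE' x0 h0 a0 q1 b0 q2
    have h1 : ∀ z, (g : Equiv.Perm α) z = (g' : Equiv.Perm α) z := by
      intro z
      have h2 := congrArg (fun F : α ≃ Option M => F z) hu
      have h3 : E0 z = E0 ((g : Equiv.Perm α)⁻¹ ((g' : Equiv.Perm α) z)) := h2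
      have h4 := E0.injective h3
      have h5 := congrArg (g : Equiv.Perm α) h4
      rw [Equiv.Perm.inv_def, Equiv.apply_symm_apply] at h5
      exact h5
    exact Subtype.ext (Equiv.ext h1)
  · rintro ⟨⟨x, h⟩, hinj, hb, hx⟩
    obtain ⟨E, a, b, c⟩ := to_std_frame hα hB x h hinj hb hx
    refine ⟨⟨E0.trans E.symm, aut_of_two E0 E c0 c⟩, ?_⟩
    apply Subtype.ext
    show ((E0.trans E.symm) x0, (E0.trans E.symm) ∘ h0) = (x, h)
    have p1 : (E0.trans E.symm) x0 = x := by
      show E.symm (E0 x0) = x
      rw [a0]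
      exact E.symm_apply_eq.2 a.symm
    have p2 : (E0.trans E.symm) ∘ h0 = h := by
      funext i
      show E.symm (E0 (h0 i)) = h i
      rw [b0]
      exact E.symm_apply_eq.2 (b i).symm
    rw [p1, p2]

/-! ### Transitivity on triples -/

theorem exists_label_two (b : Finset α) (hb : b.card = 6) {u v : α} (hu : u ∈ b) (hv : v ∈ b)
    (huv : u ≠ v) :
    ∃ h : Fin 6 → α, Function.Injective h ∧ univ.image h = b ∧ h 0 = u ∧ h 1 = v := by
  obtain ⟨h0, hinj0, hr0⟩ := exists_label b hb
  obtain ⟨i1, rfl⟩ := (hr0 u).1 hu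
  obtain ⟨i2, rfl⟩ := (hr0 v).1 hv
  have hi : i1 ≠ i2 := fun e => huv (by rw [e])
  have hj : Equiv.swap 0 i1 i2 ≠ 0 := by
    intro e
    have e' : Equiv.swap 0 i1 (Equiv.swap 0 i1 i2) = Equiv.swap 0 i1 0 := by rw [e]
    rw [Equiv.swap_apply_self, Equiv.swap_apply_left] at e'
    exact hi e'.symm
  obtain ⟨π, hπ0, hπ1⟩ : ∃ π : Equiv.Perm (Fin 6), π 0 = i1 ∧ π 1 = i2 := by
    refine ⟨Equiv.swap 0 i1 * Equiv.swap 1 (Equiv.swap 0 i1 i2), ?_, ?_⟩
    · show Equiv.swap 0 i1 (Equiv.swap 1 (Equiv.swap 0 i1 i2) 0) = i1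
      rw [Equiv.swap_apply_of_ne_of_ne (by decide) (Ne.symm hj), Equiv.swap_apply_left]
    · show Equiv.swap 0 i1 (Equiv.swap 1 (Equiv.swap 0 i1 i2) 1) = i2
      rw [Equiv.swap_apply_left, Equiv.swap_apply_self]
  refine ⟨h0 ∘ ⇑π, hinj0.comp π.injective, ?_, ?_, ?_⟩
  · ext y
    rw [hr0 y, Finset.mem_image]
    constructor
    · rintro ⟨i, -, rfl⟩
      exact ⟨_, rfl⟩
    · rintro ⟨j, rfl⟩
      exact ⟨π.symm j, Finset.mem_univ _, by simp⟩
  · show h0 (π 0) = h0 i1
    rw [hπ0]
  · show h0 (π 1) = h0 i2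
    rw [hπ1]

/-- An isomorphism onto the standard system sending three given points to three fixed points. -/
theorem to_std_triple (hα : Fintype.card α = 22) {B : Set (Finset α)}
    (hB : IsSteinerSystem 3 6 B) (x : Fin 3 ↪ α) :
    ∃ E : α ≃ Option M, (fun b : Finset α => b.image E) '' B = Bstd ∧ E (x 0) = none ∧
      E (x 1) = some (Sum.inl 0) ∧ E (x 2) = some (Sum.inl 1) := by
  have n01 : x 0 ≠ x 1 := fun e => absurd (x.injective e) (by decide)
  have n02 : x 0 ≠ x 2 := fun e => absurd (x.injective e) (by decide)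
  have n12 : x 1 ≠ x 2 := fun e => absurd (x.injective e) (by decide)
  obtain ⟨b1, ⟨hb1, hs1⟩, -⟩ := hB.2 {x 0, x 1, x 2}
    (Finset.card_eq_three.2 ⟨_, _, _, n01, n02, n12, rfl⟩)
  obtain ⟨w, -, hw⟩ : ∃ w ∈ (univ : Finset α), w ∉ b1 := by
    apply Finset.exists_mem_notMem_of_card_lt_card
    rw [hB.1 b1 hb1, Finset.card_univ, hα]
    norm_num
  have m1 : x 1 ∈ b1 := hs1 (by simp)
  have m2 : x 2 ∈ b1 := hs1 (by simp)
  have nw1 : x 1 ≠ w := fun e => hw (e ▸ m1)
  have nw2 : x 2 ≠ w := fun e => hw (e ▸ m2)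
  obtain ⟨b, ⟨hb, hs⟩, -⟩ := hB.2 {x 1, x 2, w}
    (Finset.card_eq_three.2 ⟨_, _, _, n12, nw1, nw2, rfl⟩)
  have k1 : x 1 ∈ b := hs (by simp)
  have k2 : x 2 ∈ b := hs (by simp)
  have kw : w ∈ b := hs (by simp)
  have k0 : x 0 ∉ b := by
    intro h0
    have hsub : ({x 0, x 1, x 2} : Finset α) ⊆ b ∩ b1 := by
      intro z hz
      simp only [Finset.mem_insert, Finset.mem_singleton] at hz
      rw [Finset.mem_inter]
      rcases hz with rfl | rfl | rfl
      · exact ⟨h0, hs1 (by simp)⟩
      · exact ⟨k1, m1⟩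
      · exact ⟨k2, m2⟩
    have hc := Finset.card_le_card hsub
    rw [Finset.card_eq_three.2 ⟨_, _, _, n01, n02, n12, rfl⟩] at hc
    have e := Steiner.eq_of_le_inter hB hb hb1 hc
    exact hw (e ▸ kw)
  obtain ⟨h, hinj, him, h0, h1⟩ := exists_label_two b (hB.1 b hb) k1 k2 n12
  obtain ⟨E, a, c, d⟩ := to_std_frame hα hB (x 0) h hinj (by rw [him]; exact hb)
    (by rw [him]; exact k0)
  refine ⟨E, d, a, ?_, ?_⟩
  · rw [← h0]
    exact c 0
  · rw [← h1]
    exact c 1

theorem three_trans (hα : Fintype.card α = 22) {B : Set (Finset α)}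
    (hB : IsSteinerSystem 3 6 B) : MulAction.IsMultiplyPretransitive (setSystemAut B) α 3 := by
  rw [MulAction.isMultiplyPretransitive_iff]
  intro x y
  obtain ⟨E, c, a0, a1, a2⟩ := to_std_triple hα hB x
  obtain ⟨E', c', b0, b1, b2⟩ := to_std_triple hα hB y
  refine ⟨⟨E.trans E'.symm, aut_of_two E E' c c'⟩, ?_⟩
  apply Function.Embedding.ext
  intro i
  show E'.symm (E (x i)) = y i
  rw [Equiv.symm_apply_eq]
  fin_cases i
  · exact a0.trans b0.symm
  · exact a1.trans b1.symm
  · exact a2.trans b2.symm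

/-! ### Transport of automorphisms -/

theorem conj_hom {γ : Type*} [Fintype γ] [DecidableEq γ] {B0 : Set (Finset γ)}
    {B : Set (Finset α)} (e : γ ≃ α) (he : (fun b : Finset γ => b.image e) '' B0 = B) :
    ∃ Θ : ↥(setSystemAut B0) →* ↥(setSystemAut B), Function.Injective Θ := by
  have hconj : ∀ g : Equiv.Perm γ, g ∈ setSystemAut B0 → e.permCongrHom g ∈ setSystemAut B := by
    intro g hg
    have h1 : e.permCongrHom g = e.symm.trans (g.trans e) := rfl
    rw [mem_aut_iff, h1, image_trans_set, image_trans_set, ← he, image_symm_set,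
      mem_aut_iff.1 hg]
  refine ⟨(e.permCongrHom.toMonoidHom.comp (Subgroup.subtype _)).codRestrict _
    (fun g => hconj g.1 g.2), ?_⟩
  intro a b hab
  have h3 : e.permCongrHom (a : Equiv.Perm γ) = e.permCongrHom (b : Equiv.Perm γ) :=
    congrArg Subtype.val hab
  exact Subtype.ext (e.permCongrHom.injective h3)

end Aut22
end Cfsg.Agent.Lib.Helper28
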