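import Cfsg.Agent.Lib.Helper28.Plane4Arc

set_option autoImplicit false
set_option linter.unusedSectionVars false

namespace Cfsg.Agent.Lib.Helper28
namespace Plane4

open Cfsg Finset
open Cfsg.Agent.Lib.Helper4

theorem image_trans_symm {α β γ : Type*} [DecidableEq α] [DecidableEq β] [DecidableEq γ]
    (e : α ≃ γ) (e' : β ≃ γ) (b : Finset α) (b' : Finset β) (h : b'.image e' = b.image e) :
    b.image (e.trans e'.symm) = b' := by
  have h1 : b.image (e.trans e'.symm) = (b.image e).image e'.symm := by
    rw [Finset.image_image]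
    rfl
  rw [h1, ← h, Finset.image_image]
  simp

/-- A labelling of a six-point set. -/
theorem exists_label {α : Type*} [DecidableEq α] (H : Finset α) (hH : H.card = 6) :
    ∃ h : Fin 6 → α, Function.Injective h ∧ ∀ x, x ∈ H ↔ ∃ i, h i = x := by
  refine ⟨fun i => ((Finset.equivFinOfCardEq hH).symm i : α),
    fun i j e => (Finset.equivFinOfCardEq hH).symm.injective (Subtype.ext e), ?_⟩
  intro x
  constructor
  · intro hx
    exact ⟨Finset.equivFinOfCardEq hH ⟨x, hx⟩, by simp⟩
  · rintro ⟨i, rfl⟩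
    exact ((Finset.equivFinOfCardEq hH).symm i).2

/-- Every plane of order four is isomorphic to the model. -/
theorem to_model {α : Type*} [Fintype α] [DecidableEq α] (hα : Fintype.card α = 21)
    {L : Set (Finset α)} (hL : IsSteinerSystem 2 5 L) :
    ∃ e : α ≃ M, (fun b => b.image e) '' L = LM := by
  obtain ⟨H, hH⟩ := exists_hyp hα hL
  obtain ⟨h, hinj, hr⟩ := exists_label H hH.1
  obtain ⟨e, -, he⟩ := model_iso hα hL hH h hinj hr
  exact ⟨e, he⟩

/-- Any two planes of order four are isomorphic. -/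
theorem plane_iso {α β : Type*} [Fintype α] [DecidableEq α] [Fintype β] [DecidableEq β]
    (hα : Fintype.card α = 21) (hβ : Fintype.card β = 21) {L : Set (Finset α)}
    {L' : Set (Finset β)} (hL : IsSteinerSystem 2 5 L) (hL' : IsSteinerSystem 2 5 L') :
    ∃ e : α ≃ β, (fun b => b.image e) '' L = L' := by
  obtain ⟨e, he⟩ := to_model hα hL
  obtain ⟨e', he'⟩ := to_model hβ hL'
  refine ⟨e.trans e'.symm, ?_⟩
  ext B
  constructor
  · rintro ⟨b, hb, rfl⟩
    have m1 : b.image e ∈ LM := by
      rw [← he]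
      exact ⟨b, hb, rfl⟩
    rw [← he'] at m1
    obtain ⟨b', hb', e1⟩ := m1
    show b.image (e.trans e'.symm) ∈ L'
    rw [image_trans_symm e e' b b' e1]
    exact hb'
  · intro hB
    have m1 : B.image e' ∈ LM := by
      rw [← he']
      exact ⟨B, hB, rfl⟩
    rw [← he] at m1
    obtain ⟨b, hb, e1⟩ := m1
    exact ⟨b, hb, image_trans_symm e e' b B e1.symm⟩

end Plane4
end Cfsg.Agent.Lib.Helper28
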