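import Cfsg.Agent.Lib.Helper28.Plane4Model

set_option autoImplicit false
set_option linter.unusedSectionVars false

namespace Cfsg.Agent.Lib.Helper28
namespace Plane4

open Cfsg Finset
open Cfsg.Agent.Lib.Helper4

variable {α : Type*} [Fintype α] [DecidableEq α]

/-! ### Lines of a Steiner system with blocks through pairs -/

theorem exists_line {L : Set (Finset α)} (hL : IsSteinerSystem 2 5 L) {x y : α} (hxy : x ≠ y) :
    ∃ ℓ ∈ L, x ∈ ℓ ∧ y ∈ ℓ := by
  obtain ⟨b, ⟨hb, hsub⟩, -⟩ := hL.2 {x, y} (Finset.card_pair hxy)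
  exact ⟨b, hb, hsub (by simp), hsub (by simp)⟩

theorem line_unique {L : Set (Finset α)} (hL : IsSteinerSystem 2 5 L) {ℓ ℓ' : Finset α}
    (h1 : ℓ ∈ L) (h2 : ℓ' ∈ L) {x y : α} (hxy : x ≠ y) (hx : x ∈ ℓ) (hy : y ∈ ℓ) (hx' : x ∈ ℓ')
    (hy' : y ∈ ℓ') : ℓ = ℓ' := by
  obtain ⟨b, -, huniq⟩ := hL.2 {x, y} (Finset.card_pair hxy)
  have e1 := huniq ℓ ⟨h1, by
    intro z hz
    rw [Finset.mem_insert, Finset.mem_singleton] at hz
    rcases hz with rfl | rfl
    · exact hx
    · exact hy⟩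
  have e2 := huniq ℓ' ⟨h2, by
    intro z hz
    rw [Finset.mem_insert, Finset.mem_singleton] at hz
    rcases hz with rfl | rfl
    · exact hx'
    · exact hy'⟩
  rw [e1, e2]

/-- The line through two points. -/
noncomputable def ln (L : Set (Finset α)) (x y : α) : Finset α :=
  haveI := Classical.dec (∃ ℓ ∈ L, x ∈ ℓ ∧ y ∈ ℓ)
  if h : ∃ ℓ ∈ L, x ∈ ℓ ∧ y ∈ ℓ then h.choose else ∅

theorem ln_spec {L : Set (Finset α)} (hL : IsSteinerSystem 2 5 L) {x y : α} (hxy : x ≠ y) :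
    ln L x y ∈ L ∧ x ∈ ln L x y ∧ y ∈ ln L x y := by
  have h := exists_line hL hxy
  rw [ln, dif_pos h]
  exact h.choose_spec

theorem ln_eq {L : Set (Finset α)} (hL : IsSteinerSystem 2 5 L) {ℓ : Finset α} (hℓ : ℓ ∈ L)
    {x y : α} (hxy : x ≠ y) (hx : x ∈ ℓ) (hy : y ∈ ℓ) : ln L x y = ℓ :=
  line_unique hL (ln_spec hL hxy).1 hℓ hxy (ln_spec hL hxy).2.1 (ln_spec hL hxy).2.2 hx hy

/-- There are five lines through a point. -/
theorem deg_point (hα : Fintype.card α = 21) {L : Set (Finset α)} (hL : IsSteinerSystem 2 5 L)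
    (p : α) : ((Steiner.blocks L).filter (fun ℓ => p ∈ ℓ)).card = 5 := by
  have h := Steiner.deg_mul hL {p} (by simp)
  rw [Finset.card_singleton, hα] at h
  norm_num [Nat.choose] at h
  have h5 : Steiner.deg L {p} = 5 := by omega
  rw [← h5, Steiner.deg]
  congr 1
  ext ℓ
  simp

/-- Two lines meet. -/
theorem lines_meet (hα : Fintype.card α = 21) {L : Set (Finset α)} (hL : IsSteinerSystem 2 5 L)
    {m s : Finset α} (hm : m ∈ L) (hs : s ∈ L) : ∃ z, z ∈ m ∧ z ∈ s := by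
  by_cases hms : m = s
  · have hc : 0 < m.card := by rw [hL.1 m hm]; norm_num
    obtain ⟨z, hz⟩ := Finset.card_pos.1 hc
    exact ⟨z, hz, hms ▸ hz⟩
  · -- a point of `s` off `m`
    have hex : ∃ p ∈ s, p ∉ m := by
      by_contra hcon
      push Not at hcon
      have hsub : s ⊆ m := hcon
      exact hms (Finset.eq_of_subset_of_card_le hsub (by rw [hL.1 m hm, hL.1 s hs])).symm
    obtain ⟨p, hps, hpm⟩ := hex
    have hF : ((Steiner.blocks L).filter (fun ℓ => p ∈ ℓ)).card = 5 := deg_point hα hL p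
    have hne : ∀ z ∈ m, p ≠ z := fun z hz e => hpm (e ▸ hz)
    have hsub : m.image (fun z => ln L p z) ⊆ (Steiner.blocks L).filter (fun ℓ => p ∈ ℓ) := by
      intro ℓ hℓ
      obtain ⟨z, hz, rfl⟩ := Finset.mem_image.1 hℓ
      obtain ⟨h1, h2, -⟩ := ln_spec hL (hne z hz)
      exact Finset.mem_filter.2 ⟨Steiner.mem_blocks.2 h1, h2⟩
    have hinj : Set.InjOn (fun z => ln L p z) (m : Set α) := by
      intro z hz z' hz' e
      by_contra hzz
      obtain ⟨h1, h2, h3⟩ := ln_spec hL (hne z hz)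
      obtain ⟨h1', h2', h3'⟩ := ln_spec hL (hne z' hz')
      have e' : ln L p z = ln L p z' := e
      rw [← e'] at h3'
      have e2 : ln L p z = m := line_unique hL h1 hm hzz h3 h3' hz hz'
      exact hpm (e2 ▸ h2)
    have heq : m.image (fun z => ln L p z) = (Steiner.blocks L).filter (fun ℓ => p ∈ ℓ) :=
      Finset.eq_of_subset_of_card_le hsub (by
        rw [Finset.card_image_of_injOn hinj, hL.1 m hm, hF])
    have hsm : s ∈ m.image (fun z => ln L p z) := by
      rw [heq]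
      exact Finset.mem_filter.2 ⟨Steiner.mem_blocks.2 hs, hps⟩
    obtain ⟨z, hz, e⟩ := Finset.mem_image.1 hsm
    exact ⟨z, hz, e ▸ (ln_spec hL (hne z hz)).2.2⟩

/-! ### Hyperovals -/

/-- The hyperoval condition: six points, no three of them on a line. -/
def IsHyp (L : Set (Finset α)) (H : Finset α) : Prop :=
  H.card = 6 ∧ ∀ l ∈ L, (l ∩ H).card ≤ 2

theorem no_three {L : Set (Finset α)} {H : Finset α} (hH : ∀ l ∈ L, (l ∩ H).card ≤ 2)
    {ℓ : Finset α} (hℓ : ℓ ∈ L) {a b c : α} (ha : a ∈ ℓ) (hb : b ∈ ℓ) (hc : c ∈ ℓ) (haH : a ∈ H)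
    (hbH : b ∈ H) (hcH : c ∈ H) (hab : a ≠ b) (hac : a ≠ c) (hbc : b ≠ c) : False := by
  have h1 : ({a, b, c} : Finset α) ⊆ ℓ ∩ H := by
    intro z hz
    rw [Finset.mem_insert, Finset.mem_insert, Finset.mem_singleton] at hz
    rcases hz with rfl | rfl | rfl
    · exact Finset.mem_inter.2 ⟨ha, haH⟩
    · exact Finset.mem_inter.2 ⟨hb, hbH⟩
    · exact Finset.mem_inter.2 ⟨hc, hcH⟩
  have h2 := Finset.card_le_card h1
  rw [Finset.card_eq_three.2 ⟨a, b, c, hab, hac, hbc, rfl⟩] at h2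
  have h3 := hH ℓ hℓ
  omega

/-- Every line through a point of a hyperoval contains a second point of it. -/
theorem hyp_other (hα : Fintype.card α = 21) {L : Set (Finset α)} (hL : IsSteinerSystem 2 5 L)
    {H : Finset α} (hH : IsHyp L H) {ℓ : Finset α} (hℓ : ℓ ∈ L) {p : α} (hp : p ∈ ℓ)
    (hpH : p ∈ H) : ∃ q ∈ ℓ, q ∈ H ∧ q ≠ p := by
  by_contra hcon
  push Not at hcon
  have hF : ((Steiner.blocks L).filter (fun m => p ∈ m)).card = 5 := deg_point hα hL p
  have hℓF : ℓ ∈ (Steiner.blocks L).filter (fun m => p ∈ m) :=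
    Finset.mem_filter.2 ⟨Steiner.mem_blocks.2 hℓ, hp⟩
  have hsub : (H.erase p).image (fun q => ln L p q)
      ⊆ ((Steiner.blocks L).filter (fun m => p ∈ m)).erase ℓ := by
    intro m hm
    obtain ⟨q, hq, rfl⟩ := Finset.mem_image.1 hm
    obtain ⟨hqp, hqH⟩ := Finset.mem_erase.1 hq
    obtain ⟨h1, h2, h3⟩ := ln_spec hL (Ne.symm hqp)
    refine Finset.mem_erase.2 ⟨?_, Finset.mem_filter.2 ⟨Steiner.mem_blocks.2 h1, h2⟩⟩
    intro e
    exact hqp (hcon q (e ▸ h3) hqH)
  have hinj : Set.InjOn (fun q => ln L p q) ((H.erase p : Finset α) : Set α) := by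
    intro q hq q' hq' e
    by_contra hne
    obtain ⟨hqp, hqH⟩ := Finset.mem_erase.1 (Finset.mem_coe.1 hq)
    obtain ⟨hqp', hqH'⟩ := Finset.mem_erase.1 (Finset.mem_coe.1 hq')
    obtain ⟨h1, h2, h3⟩ := ln_spec hL (Ne.symm hqp)
    obtain ⟨h1', h2', h3'⟩ := ln_spec hL (Ne.symm hqp')
    have e' : ln L p q = ln L p q' := e
    rw [← e'] at h3'
    exact no_three hH.2 h1 h2 h3 h3' hpH hqH hqH' (Ne.symm hqp) (Ne.symm hqp') hne
  have hc := Finset.card_le_card hsub
  rw [Finset.card_image_of_injOn hinj, Finset.card_erase_of_mem hpH, hH.1,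
    Finset.card_erase_of_mem hℓF, hF] at hc
  omega

/-- The other point of the hyperoval on the line joining an outside point to a point of the
hyperoval. -/
theorem partner (hα : Fintype.card α = 21) {L : Set (Finset α)} (hL : IsSteinerSystem 2 5 L)
    {H : Finset α} (hH : IsHyp L H) (h : Fin 6 → α) (hr : ∀ x, x ∈ H ↔ ∃ i, h i = x)
    {x : α} (hx : x ∉ H) (i : Fin 6) : ∃ j, j ≠ i ∧ h j ∈ ln L x (h i) := by
  have hi : h i ∈ H := (hr _).2 ⟨i, rfl⟩
  have hne : x ≠ h i := fun e => hx (e ▸ hi)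
  obtain ⟨h1, h2, h3⟩ := ln_spec hL hne
  obtain ⟨q, hq, hqH, hqp⟩ := hyp_other hα hL hH h1 h3 hi
  obtain ⟨j, rfl⟩ := (hr q).1 hqH
  exact ⟨j, fun e => hqp (by rw [e]), hq⟩

/-! ### The labelling of the points -/

/-- The relation between a point of the plane and its label in the model. -/
def Rel (L : Set (Finset α)) (H : Finset α) (h : Fin 6 → α) (x : α) : M → Prop
  | Sum.inl i => x = h i
  | Sum.inr k => x ∉ H ∧ ∀ i, h (synF k i) ∈ ln L x (h i)

theorem rel_total (hα : Fintype.card α = 21) {L : Set (Finset α)} (hL : IsSteinerSystem 2 5 L)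
    {H : Finset α} (hH : IsHyp L H) (h : Fin 6 → α) (hinj : Function.Injective h)
    (hr : ∀ x, x ∈ H ↔ ∃ i, h i = x) (x : α) : ∃ m, Rel L H h x m := by
  by_cases hx : x ∈ H
  · obtain ⟨i, rfl⟩ := (hr x).1 hx
    exact ⟨Sum.inl i, rfl⟩
  · choose π hπ using fun i => partner hα hL hH h hr hx i
    have hmem : ∀ i, h i ∈ H := fun i => (hr _).2 ⟨i, rfl⟩
    have hinv : ∀ i, π (π i) = i := by
      intro i
      have hne : x ≠ h i := fun e => hx (e ▸ hmem i)
      have hne' : x ≠ h (π i) := fun e => hx (e ▸ hmem (π i))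
      obtain ⟨h1, h2, h3⟩ := ln_spec hL hne
      have e : ln L x (h (π i)) = ln L x (h i) := ln_eq hL h1 hne' h2 (hπ i).2
      have h4 := (hπ (π i)).2
      rw [e] at h4
      by_contra hcon
      exact no_three hH.2 h1 h3 (hπ i).2 h4 (hmem _) (hmem _) (hmem _)
        (fun e' => (hπ i).1 (hinj e').symm) (fun e' => hcon (hinj e').symm)
        (fun e' => (hπ (π i)).1 (hinj e').symm)
    have hk := synF_complete (π 0) (π 1) (π 2) (π 3) (π 4) (π 5)
    rw [mk6_eq] at hk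
    obtain ⟨k, hk⟩ := hk (fun i => (hπ i).1) hinv
    exact ⟨Sum.inr k, hx, fun i => by rw [hk i]; exact (hπ i).2⟩

theorem rel_inj {L : Set (Finset α)} (hL : IsSteinerSystem 2 5 L)
    {H : Finset α} (hH : IsHyp L H) (h : Fin 6 → α) (hinj : Function.Injective h)
    (hr : ∀ x, x ∈ H ↔ ∃ i, h i = x) {x y : α} {m : M} (hx : Rel L H h x m)
    (hy : Rel L H h y m) : x = y := by
  rcases m with i | k
  · exact Eq.trans hx (Eq.symm hy)
  · obtain ⟨hxH, hxs⟩ := hx
    obtain ⟨hyH, hys⟩ := hy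
    by_contra hne
    have hmem : ∀ i, h i ∈ H := fun i => (hr _).2 ⟨i, rfl⟩
    have hall : ∀ i, h i ∈ ln L x y := by
      intro i
      have hnx : x ≠ h i := fun e => hxH (e ▸ hmem i)
      have hny : y ≠ h i := fun e => hyH (e ▸ hmem i)
      obtain ⟨a1, a2, a3⟩ := ln_spec hL hnx
      obtain ⟨b1, b2, b3⟩ := ln_spec hL hny
      have hd : h i ≠ h (synF k i) := fun e => synF_ne k i (hinj e).symm
      have e : ln L x (h i) = ln L y (h i) := line_unique hL a1 b1 hd a3 (hxs i) b3 (hys i)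
      have hy' : y ∈ ln L x (h i) := e ▸ b2
      rw [ln_eq hL a1 hne a2 hy']
      exact a3
    obtain ⟨c1, -, -⟩ := ln_spec hL hne
    exact no_three hH.2 c1 (hall 0) (hall 1) (hall 2) (hmem _) (hmem _) (hmem _)
      (fun e => absurd (hinj e) (by decide)) (fun e => absurd (hinj e) (by decide))
      (fun e => absurd (hinj e) (by decide))

theorem exists_labelling (hα : Fintype.card α = 21) {L : Set (Finset α)}
    (hL : IsSteinerSystem 2 5 L) {H : Finset α} (hH : IsHyp L H) (h : Fin 6 → α)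
    (hinj : Function.Injective h) (hr : ∀ x, x ∈ H ↔ ∃ i, h i = x) :
    ∃ e : α ≃ M, ∀ x, Rel L H h x (e x) := by
  choose lam hlam using fun x => rel_total hα hL hH h hinj hr x
  have hli : Function.Injective lam := fun x y e =>
    rel_inj hL hH h hinj hr (hlam x) (e ▸ hlam y)
  have hb : Function.Bijective lam := by
    rw [Fintype.bijective_iff_injective_and_card]
    exact ⟨hli, by rw [hα, card_M]⟩
  exact ⟨Equiv.ofBijective lam hb, hlam⟩

/-! ### The images of the lines -/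

theorem image_secant {L : Set (Finset α)} (hL : IsSteinerSystem 2 5 L)
    {H : Finset α} (hH : IsHyp L H) (h : Fin 6 → α) (hinj : Function.Injective h)
    (hr : ∀ x, x ∈ H ↔ ∃ i, h i = x) (e : α ≃ M) (he : ∀ x, Rel L H h x (e x))
    {i j : Fin 6} (hij : i ≠ j) : (ln L (h i) (h j)).image e = secSet i j := by
  have hmem : ∀ i, h i ∈ H := fun i => (hr _).2 ⟨i, rfl⟩
  have hne : h i ≠ h j := fun e' => hij (hinj e')
  obtain ⟨a1, a2, a3⟩ := ln_spec hL hne
  apply Finset.eq_of_subset_of_card_le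
  · intro m hm
    obtain ⟨z, hz, rfl⟩ := Finset.mem_image.1 hm
    have hz' := he z
    rcases hez : e z with i' | k
    · rw [hez] at hz'
      have hz'' : z = h i' := hz'
      rw [mem_secSet_inl]
      by_contra hcon
      push Not at hcon
      exact no_three hH.2 a1 a2 a3 (hz'' ▸ hz) (hmem _) (hmem _) (hmem _) hne
        (fun e' => hcon.1 (hinj e').symm) (fun e' => hcon.2 (hinj e').symm)
    · rw [hez] at hz'
      obtain ⟨hzH, hzs⟩ := hz'
      have hzi : z ≠ h i := fun e' => hzH (e' ▸ hmem i)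
      have e1 : ln L z (h i) = ln L (h i) (h j) := ln_eq hL a1 hzi hz a2
      have h5 := hzs i
      rw [e1] at h5
      rw [mem_secSet_inr]
      by_contra hcon
      exact no_three hH.2 a1 a2 a3 h5 (hmem _) (hmem _) (hmem _) hne
        (fun e' => synF_ne k i (hinj e').symm) (fun e' => hcon (hinj e').symm)
  · rw [Finset.card_image_of_injective _ e.injective, hL.1 _ a1, secSet_card i j hij]

theorem image_external {L : Set (Finset α)} (hL : IsSteinerSystem 2 5 L)
    {H : Finset α} (h : Fin 6 → α) (hinj : Function.Injective h)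
    (hr : ∀ x, x ∈ H ↔ ∃ i, h i = x) (e : α ≃ M) (he : ∀ x, Rel L H h x (e x))
    {ℓ : Finset α} (hℓ : ℓ ∈ L) (hext : ∀ z ∈ ℓ, z ∉ H) : ∃ t, ℓ.image e = totSet t := by
  have hmem : ∀ i, h i ∈ H := fun i => (hr _).2 ⟨i, rfl⟩
  have hk : ∀ z ∈ ℓ, ∃ k, e z = Sum.inr k ∧ ∀ i, h (synF k i) ∈ ln L z (h i) := by
    intro z hz
    have hz' := he z
    rcases hez : e z with i' | k
    · rw [hez] at hz'
      have hz'' : z = h i' := hz'
      exact absurd (hz'' ▸ hmem i') (hext z hz)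
    · rw [hez] at hz'
      exact ⟨k, rfl, hz'.2⟩
  have hdis : ∀ z ∈ ℓ, ∀ z' ∈ ℓ, z ≠ z' → ∀ k k', e z = Sum.inr k → e z' = Sum.inr k' →
      ∀ i, synF k i ≠ synF k' i := by
    intro z hz z' hz' hne k k' ek ek' i heq
    obtain ⟨k1, e1, s1⟩ := hk z hz
    obtain ⟨k2, e2, s2⟩ := hk z' hz'
    have hk1 : k1 = k := Sum.inr_injective (e1.symm.trans ek)
    have hk2 : k2 = k' := Sum.inr_injective (e2.symm.trans ek')
    subst hk1
    subst hk2
    have hzi : z ≠ h i := fun e' => hext z hz (e' ▸ hmem i)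
    have hzi' : z' ≠ h i := fun e' => hext z' hz' (e' ▸ hmem i)
    obtain ⟨a1, a2, a3⟩ := ln_spec hL hzi
    obtain ⟨b1, b2, b3⟩ := ln_spec hL hzi'
    have hd : h i ≠ h (synF k1 i) := fun e' => synF_ne k1 i (hinj e').symm
    have h6 := s2 i
    rw [← heq] at h6
    have e3 : ln L z (h i) = ln L z' (h i) := line_unique hL a1 b1 hd a3 (s1 i) b3 h6
    have hz2 : z' ∈ ln L z (h i) := e3 ▸ b2
    have e4 : ln L z (h i) = ℓ := line_unique hL a1 hℓ hne a2 hz2 hz hz'
    exact hext (h i) (e4 ▸ a3) (hmem i)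
  have hcard : ℓ.card = 5 := hL.1 ℓ hℓ
  obtain ⟨z1, hz1, z2, hz2, h12⟩ : ∃ z1 ∈ ℓ, ∃ z2 ∈ ℓ, z1 ≠ z2 :=
    Finset.one_lt_card.1 (by rw [hcard]; norm_num)
  obtain ⟨k1, e1, -⟩ := hk z1 hz1
  obtain ⟨k2, e2, -⟩ := hk z2 hz2
  obtain ⟨t, t1, t2⟩ := tot_exists k1 k2 (hdis z1 hz1 z2 hz2 h12 k1 k2 e1 e2)
  refine ⟨t, Finset.eq_of_subset_of_card_le ?_ ?_⟩
  · intro m hm
    obtain ⟨z, hz, rfl⟩ := Finset.mem_image.1 hm
    obtain ⟨k, ek, -⟩ := hk z hz
    rw [ek, mem_totSet_inr]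
    by_cases c1 : z = z1
    · have hkk : k = k1 := Sum.inr_injective (ek.symm.trans (c1 ▸ e1))
      rw [hkk]
      exact t1
    by_cases c2 : z = z2
    · have hkk : k = k2 := Sum.inr_injective (ek.symm.trans (c2 ▸ e2))
      rw [hkk]
      exact t2
    obtain ⟨w, hw, hw1, hw2, hw3⟩ : ∃ w ∈ ℓ, w ≠ z1 ∧ w ≠ z2 ∧ w ≠ z := by
      by_contra hcon
      push Not at hcon
      have hsub : ℓ ⊆ {z1, z2, z} := by
        intro w hw
        rw [Finset.mem_insert, Finset.mem_insert, Finset.mem_singleton]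
        by_cases d1 : w = z1
        · exact Or.inl d1
        by_cases d2 : w = z2
        · exact Or.inr (Or.inl d2)
        exact Or.inr (Or.inr (hcon w hw d1 d2))
      have h3 := Finset.card_le_card hsub
      have h4 : ({z1, z2, z} : Finset α).card ≤ 3 := Finset.card_le_three
      omega
    obtain ⟨k4, e4, -⟩ := hk w hw
    exact tot_four k1 k2 k k4 (hdis z1 hz1 z2 hz2 h12 k1 k2 e1 e2)
      (hdis z1 hz1 z hz (Ne.symm c1) k1 k e1 ek) (hdis z2 hz2 z hz (Ne.symm c2) k2 k e2 ek)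
      (hdis z1 hz1 w hw (Ne.symm hw1) k1 k4 e1 e4) (hdis z2 hz2 w hw (Ne.symm hw2) k2 k4 e2 e4)
      (hdis z hz w hw (Ne.symm hw3) k k4 ek e4) t t1 t2
  · rw [Finset.card_image_of_injective _ e.injective, hcard, totSet_card t]

/-- The plane is isomorphic to the model, by an isomorphism that labels the points of the
hyperoval in the prescribed way. -/
theorem model_iso (hα : Fintype.card α = 21) {L : Set (Finset α)}
    (hL : IsSteinerSystem 2 5 L) {H : Finset α} (hH : IsHyp L H) (h : Fin 6 → α)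
    (hinj : Function.Injective h) (hr : ∀ x, x ∈ H ↔ ∃ i, h i = x) :
    ∃ e : α ≃ M, (∀ i, e (h i) = Sum.inl i) ∧ (fun b => b.image e) '' L = LM := by
  obtain ⟨e, he⟩ := exists_labelling hα hL hH h hinj hr
  have hmem : ∀ i, h i ∈ H := fun i => (hr _).2 ⟨i, rfl⟩
  have hei : ∀ i, e (h i) = Sum.inl i := by
    intro i
    have hz' := he (h i)
    rcases hez : e (h i) with i' | k
    · rw [hez] at hz'
      have hz'' : h i = h i' := hz'
      rw [hinj hz'']
    · rw [hez] at hz'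
      exact absurd (hmem i) hz'.1
  refine ⟨e, hei, ?_⟩
  ext B
  constructor
  · rintro ⟨ℓ, hℓ, rfl⟩
    show ℓ.image e ∈ LM
    by_cases hext : ∀ z ∈ ℓ, z ∉ H
    · obtain ⟨t, ht⟩ := image_external hL h hinj hr e he hℓ hext
      exact Or.inr ⟨t, ht⟩
    · push Not at hext
      obtain ⟨p, hp, hpH⟩ := hext
      obtain ⟨q, hq, hqH, hqp⟩ := hyp_other hα hL hH hℓ hp hpH
      obtain ⟨i, rfl⟩ := (hr p).1 hpH
      obtain ⟨j, rfl⟩ := (hr q).1 hqH
      have hij : i ≠ j := fun e' => hqp (by rw [e'])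
      have him := image_secant hL hH h hinj hr e he hij
      rw [ln_eq hL hℓ (fun e' => hij (hinj e')) hp hq] at him
      exact Or.inl ⟨i, j, hij, him⟩
  · rintro (⟨i, j, hij, rfl⟩ | ⟨t, rfl⟩)
    · exact ⟨ln L (h i) (h j), (ln_spec hL (fun e' => hij (hinj e'))).1,
        image_secant hL hH h hinj hr e he hij⟩
    · obtain ⟨k1, k2, hk12, t1, t2⟩ := tot_two t
      have hx12 : e.symm (Sum.inr k1) ≠ e.symm (Sum.inr k2) := by
        intro e'
        exact hk12 (Sum.inr_injective (e.symm.injective e'))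
      obtain ⟨a1, a2, a3⟩ := ln_spec hL hx12
      refine ⟨ln L (e.symm (Sum.inr k1)) (e.symm (Sum.inr k2)), a1, ?_⟩
      have m1 : Sum.inr k1 ∈ (ln L (e.symm (Sum.inr k1)) (e.symm (Sum.inr k2))).image e :=
        Finset.mem_image.2 ⟨_, a2, e.apply_symm_apply _⟩
      have m2 : Sum.inr k2 ∈ (ln L (e.symm (Sum.inr k1)) (e.symm (Sum.inr k2))).image e :=
        Finset.mem_image.2 ⟨_, a3, e.apply_symm_apply _⟩
      by_cases hext : ∀ z ∈ ln L (e.symm (Sum.inr k1)) (e.symm (Sum.inr k2)), z ∉ H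
      · obtain ⟨t', ht'⟩ := image_external hL h hinj hr e he a1 hext
        rw [ht', mem_totSet_inr] at m1 m2
        have htt : t' = t := tot_unique t' t k1 k2 hk12 m1 m2 t1 t2
        show (ln L (e.symm (Sum.inr k1)) (e.symm (Sum.inr k2))).image e = totSet t
        rw [ht', htt]
      · exfalso
        push Not at hext
        obtain ⟨p, hp, hpH⟩ := hext
        obtain ⟨q, hq, hqH, hqp⟩ := hyp_other hα hL hH a1 hp hpH
        obtain ⟨i, rfl⟩ := (hr p).1 hpH
        obtain ⟨j, rfl⟩ := (hr q).1 hqH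
        have hij : i ≠ j := fun e' => hqp (by rw [e'])
        have him := image_secant hL hH h hinj hr e he hij
        rw [ln_eq hL a1 (fun e' => hij (hinj e')) hp hq] at him
        rw [him, mem_secSet_inr] at m1 m2
        exact tot_disj t k1 k2 t1 t2 hk12 i (m1.trans m2.symm)

end Plane4
end Cfsg.Agent.Lib.Helper28
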