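import Cfsg.Agent.S5627
import Cfsg.Agent.S5628
import Cfsg.Agent.Lib.Helper28.Plane4Iso

set_option autoImplicit false

namespace Cfsg.Agent.Lib.Helper28
namespace AutPlane

open Cfsg
open scoped Pointwise

/-- A finite simple group embeds in the symmetric group on the cosets of any proper
subgroup. -/
theorem card_le_factorial_index {S : Type*} [Group S] [Finite S] [IsSimpleGroup S]
    (D : Subgroup S) (hD : D ≠ ⊤) : Nat.card S ≤ (D.index).factorial := by
  have hcore : D.normalCore = ⊥ := by
    rcases (Subgroup.normalCore_normal D).eq_bot_or_eq_top with h | h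
    · exact h
    · exfalso
      apply hD
      rw [eq_top_iff, ← h]
      exact Subgroup.normalCore_le D
  rw [Subgroup.normalCore_eq_ker] at hcore
  have hinj : Function.Injective (MulAction.toPermHom S (S ⧸ D)) :=
    (MonoidHom.ker_eq_bot_iff _).1 hcore
  have h := Nat.card_le_card_of_injective _ hinj
  rw [Nat.card_perm, ← Subgroup.index_eq_card] at h
  exact h

/-- In a group of order at most 120960, two subgroups of order 20160 one of which is simple
coincide. -/
theorem eq_of_simple_sub {G : Type*} [Group G] [Finite G] (hG : Nat.card G ≤ 120960)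
    (S1 S2 : Subgroup G) (h1 : Nat.card ↥S1 = 20160) (h2 : Nat.card ↥S2 = 20160)
    [hs : IsSimpleGroup ↥S1] : S1 = S2 := by
  have hfac : ∀ n : ℕ, n ≤ 6 → n.factorial ≤ 720 := by
    intro n hn
    exact (Nat.factorial_le hn).trans (by decide)
  have hidx : S1.index ≤ 6 := by
    have h := Subgroup.card_mul_index S1
    rw [h1] at h
    by_contra hc
    push Not at hc
    have h7 : 20160 * 7 ≤ 20160 * S1.index := Nat.mul_le_mul_left _ hc
    omega
  have hcore_card : 28 ≤ Nat.card ↥S1.normalCore := by
    have hk := Subgroup.normalCore_eq_ker (H := S1)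
    have hr : Nat.card ↥(MulAction.toPermHom G (G ⧸ S1)).range ≤ (S1.index).factorial := by
      have h := Nat.card_le_card_of_injective
        (Subtype.val : ↥(MulAction.toPermHom G (G ⧸ S1)).range → Equiv.Perm (G ⧸ S1))
        Subtype.val_injective
      rwa [Nat.card_perm, ← Subgroup.index_eq_card] at h
    have hi := Subgroup.index_ker (MulAction.toPermHom G (G ⧸ S1))
    rw [← hk] at hi
    have hm := Subgroup.card_mul_index S1.normalCore
    have hG20 : 20160 ≤ Nat.card G := by
      have h := Subgroup.card_mul_index S1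
      rw [h1] at h
      have hpos : 0 < S1.index := Nat.pos_of_ne_zero Subgroup.index_ne_zero_of_finite
      nlinarith
    have hf := hfac _ hidx
    by_contra hc
    push Not at hc
    have h27 : Nat.card ↥S1.normalCore * S1.normalCore.index ≤ 27 * 720 :=
      Nat.mul_le_mul (by omega) (by omega)
    omega
  have hnorm : S1.normalCore = S1 := by
    have hn : (S1.normalCore.subgroupOf S1).Normal := Subgroup.normal_subgroupOf
    rcases hn.eq_bot_or_eq_top with h | h
    · exfalso
      rw [Subgroup.subgroupOf_eq_bot, disjoint_iff,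
        inf_of_le_left (Subgroup.normalCore_le S1)] at h
      rw [h, Subgroup.card_bot] at hcore_card
      omega
    · rw [Subgroup.subgroupOf_eq_top] at h
      exact le_antisymm (Subgroup.normalCore_le S1) h
  have hS1n : S1.Normal := by
    rw [← hnorm]
    infer_instance
  have hrel1 : S1.relIndex S2 ≤ 6 := by
    have hi := Subgroup.index_ker ((QuotientGroup.mk' S1).comp S2.subtype)
    have hk : ((QuotientGroup.mk' S1).comp S2.subtype).ker = S1.subgroupOf S2 := by
      ext x
      rw [MonoidHom.mem_ker, MonoidHom.comp_apply, QuotientGroup.mk'_apply,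
        QuotientGroup.eq_one_iff, Subgroup.mem_subgroupOf]
      rfl
    rw [hk] at hi
    have hr : Nat.card ↥((QuotientGroup.mk' S1).comp S2.subtype).range ≤ S1.index := by
      have h := Nat.card_le_card_of_injective
        (Subtype.val : ↥((QuotientGroup.mk' S1).comp S2.subtype).range → G ⧸ S1)
        Subtype.val_injective
      rwa [← Subgroup.index_eq_card] at h
    show (S1.subgroupOf S2).index ≤ 6
    omega
  have e1 := Subgroup.relIndex_mul_relIndex ⊥ (S1 ⊓ S2) S2 bot_le inf_le_right
  have e2 := Subgroup.relIndex_mul_relIndex ⊥ (S1 ⊓ S2) S1 bot_le inf_le_left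
  rw [Subgroup.relIndex_bot_left, Subgroup.relIndex_bot_left, Subgroup.inf_relIndex_right,
    h2] at e1
  rw [Subgroup.relIndex_bot_left, Subgroup.relIndex_bot_left, Subgroup.inf_relIndex_left,
    h1] at e2
  have hrel2 : S2.relIndex S1 ≤ 6 := by
    have hpos : 0 < Nat.card ↥(S1 ⊓ S2) := Nat.card_pos
    have : Nat.card ↥(S1 ⊓ S2) * S2.relIndex S1 = Nat.card ↥(S1 ⊓ S2) * S1.relIndex S2 := by
      rw [e1, e2]
    have := Nat.eq_of_mul_eq_mul_left hpos this
    omega
  have hD : S2.subgroupOf S1 = ⊤ := by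
    by_contra hne
    have hle := card_le_factorial_index (S2.subgroupOf S1) hne
    have hf : ((S2.subgroupOf S1).index).factorial ≤ 720 := hfac _ hrel2
    rw [h1] at hle
    omega
  rw [Subgroup.subgroupOf_eq_top] at hD
  exact Subgroup.eq_of_le_of_card_ge hD (by rw [h1, h2])

section Plane

variable {α : Type*} [Fintype α] [DecidableEq α]

theorem mem_aut_of_forall (L : Set (Finset α)) (g : Equiv.Perm α) (h1 : ∀ b ∈ L, g • b ∈ L)
    (h2 : ∀ b ∈ L, g⁻¹ • b ∈ L) : g ∈ setSystemAut L := by
  show g • L = L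
  ext b
  rw [Set.mem_smul_set_iff_inv_smul_mem]
  constructor
  · intro h
    have h3 := h1 _ h
    rwa [smul_inv_smul] at h3
  · exact h2 b

theorem aut_smul_mem {L : Set (Finset α)} {g : Equiv.Perm α} (hg : g ∈ setSystemAut L)
    {b : Finset α} (hb : b ∈ L) : g • b ∈ L := by
  have h : g • L = L := hg
  rw [← h]
  exact Set.smul_mem_smul_set hb

/-- The automorphism group of a plane of order four has at most 120960 elements. -/
theorem card_aut_le (hα : Fintype.card α = 21) (L : Set (Finset α))
    (hL : IsSteinerSystem 2 5 L) : Nat.card ↥(setSystemAut L) ≤ 120960 := by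
  obtain ⟨c1, c2, c3⟩ := Cfsg.Agent.S5627.result hα L hL
  obtain ⟨H0, hH0⟩ := Set.nonempty_of_ncard_ne_zero
    (by rw [c2]; norm_num : {H : Finset α | (H.card = 6 ∧ ∀ l ∈ L, (l ∩ H).card ≤ 2)}.ncard ≠ 0)
  have hH0' : H0.card = 6 ∧ ∀ l ∈ L, (l ∩ H0).card ≤ 2 := hH0
  have hos := Subgroup.card_mul_index (MulAction.stabilizer ↥(setSystemAut L) H0)
  rw [MulAction.index_stabilizer] at hos
  have hfin : {H : Finset α | (H.card = 6 ∧ ∀ l ∈ L, (l ∩ H).card ≤ 2)}.Finite :=
    Set.toFinite _
  have horb : (MulAction.orbit ↥(setSystemAut L) H0).ncard ≤ 168 := by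
    rw [← c2]
    apply Set.ncard_le_ncard _ hfin
    rintro H ⟨g, rfl⟩
    have hg : (g : Equiv.Perm α) ∈ setSystemAut L := g.2
    refine ⟨?_, ?_⟩
    · show ((g : Equiv.Perm α) • H0).card = 6
      rw [Finset.card_smul_finset]
      exact hH0'.1
    · intro l hl
      have hl' : (g : Equiv.Perm α)⁻¹ • l ∈ L := aut_smul_mem (Subgroup.inv_mem _ hg) hl
      have e : l ∩ (g : Equiv.Perm α) • H0 =
          (g : Equiv.Perm α) • (((g : Equiv.Perm α)⁻¹ • l) ∩ H0) := by
        rw [Finset.smul_finset_inter, smul_inv_smul]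
      show (l ∩ (g : Equiv.Perm α) • H0).card ≤ 2
      rw [e, Finset.card_smul_finset]
      exact hH0'.2 _ hl'
  have hstab : Nat.card ↥(MulAction.stabilizer ↥(setSystemAut L) H0) ≤ 720 := by
    have hmem : ∀ (s : ↥(MulAction.stabilizer ↥(setSystemAut L) H0)) (x : α),
        ((s : ↥(setSystemAut L)) : Equiv.Perm α) x ∈ H0 ↔ x ∈ H0 := by
      intro s x
      have hs : ((s : ↥(setSystemAut L)) : Equiv.Perm α) • H0 = H0 := s.2
      constructor
      · intro h
        have h' : ((s : ↥(setSystemAut L)) : Equiv.Perm α) • x ∈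
            ((s : ↥(setSystemAut L)) : Equiv.Perm α) • H0 := by
          rw [hs]
          exact h
        exact (Finset.smul_mem_smul_finset_iff _).1 h'
      · intro h
        have h' : ((s : ↥(setSystemAut L)) : Equiv.Perm α) • x ∈
            ((s : ↥(setSystemAut L)) : Equiv.Perm α) • H0 := Finset.smul_mem_smul_finset h
        rw [hs] at h'
        exact h'
    have hinj : Function.Injective (fun s : ↥(MulAction.stabilizer ↥(setSystemAut L) H0) =>
        Equiv.Perm.subtypePerm ((s : ↥(setSystemAut L)) : Equiv.Perm α) (hmem s)) := by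
      intro s1 s2 e
      have e' : ∀ p : ↥H0, ((s1 : ↥(setSystemAut L)) : Equiv.Perm α) p =
          ((s2 : ↥(setSystemAut L)) : Equiv.Perm α) p := by
        intro p
        exact congrArg (fun σ : Equiv.Perm ↥H0 => ((σ p : ↥H0) : α)) e
      obtain ⟨g0, -, huniq⟩ := Cfsg.Agent.S5628.result hα L hL H0 hH0'
        (Equiv.Perm.subtypePerm ((s2 : ↥(setSystemAut L)) : Equiv.Perm α) (hmem s2))
      have u1 := huniq _ ⟨(s1 : ↥(setSystemAut L)).2, fun p => e' p⟩
      have u2 := huniq _ ⟨(s2 : ↥(setSystemAut L)).2, fun p => rfl⟩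
      apply Subtype.ext
      apply Subtype.ext
      rw [u1, u2]
    have h := Nat.card_le_card_of_injective _ hinj
    have hc6 : Nat.card ↥H0 = 6 := by
      rw [Nat.card_eq_fintype_card, Fintype.card_coe]
      exact hH0'.1
    rw [Nat.card_perm, hc6] at h
    exact h
  calc Nat.card ↥(setSystemAut L)
      = Nat.card ↥(MulAction.stabilizer ↥(setSystemAut L) H0) *
        (MulAction.orbit ↥(setSystemAut L) H0).ncard := hos.symm
    _ ≤ 720 * 168 := Nat.mul_le_mul hstab horb
    _ = 120960 := by norm_num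

end Plane

/-- Two groups of order 20160, one of them simple, acting faithfully on planes of order four
by automorphisms are isomorphic. -/
theorem iso_of_planes {α β : Type} [Fintype α] [DecidableEq α] [Fintype β] [DecidableEq β]
    (hα : Fintype.card α = 21) (hβ : Fintype.card β = 21) {L : Set (Finset α)}
    {L' : Set (Finset β)} (hL : IsSteinerSystem 2 5 L) (hL' : IsSteinerSystem 2 5 L')
    {G1 G2 : Type} [Group G1] [Group G2] [IsSimpleGroup G1] (h1 : Nat.card G1 = 20160)
    (h2 : Nat.card G2 = 20160)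
    (φ : G1 →* ↥(setSystemAut L)) (hφ : Function.Injective φ)
    (ψ : G2 →* ↥(setSystemAut L')) (hψ : Function.Injective ψ) : Nonempty (G1 ≃* G2) := by
  obtain ⟨e, he⟩ := Plane4.plane_iso hα hβ hL hL'
  have happ : ∀ (g : Equiv.Perm α) (x : β), e.permCongrHom g x = e (g (e.symm x)) :=
    fun _ _ => rfl
  have key : ∀ g : Equiv.Perm α, g ∈ setSystemAut L → ∀ b ∈ L', e.permCongrHom g • b ∈ L' := by
    intro g hg b hb
    rw [← he] at hb ⊢
    obtain ⟨b0, hb0, rfl⟩ := hb
    refine ⟨g • b0, aut_smul_mem hg hb0, ?_⟩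
    ext y
    constructor
    · intro hy
      obtain ⟨u, hu, rfl⟩ := Finset.mem_image.1 hy
      obtain ⟨w, hw, rfl⟩ := Finset.mem_smul_finset.1 hu
      refine Finset.mem_smul_finset.2 ⟨e w, Finset.mem_image_of_mem _ hw, ?_⟩
      rw [Equiv.Perm.smul_def, happ, Equiv.symm_apply_apply]
      rfl
    · intro hy
      obtain ⟨z, hz, rfl⟩ := Finset.mem_smul_finset.1 hy
      obtain ⟨w, hw, rfl⟩ := Finset.mem_image.1 hz
      rw [Equiv.Perm.smul_def, happ, Equiv.symm_apply_apply]
      exact Finset.mem_image_of_mem _ (Finset.smul_mem_smul_finset hw)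
  have hconj : ∀ g : Equiv.Perm α, g ∈ setSystemAut L → e.permCongrHom g ∈ setSystemAut L' := by
    intro g hg
    apply mem_aut_of_forall L' _ (key g hg)
    have h3 := key g⁻¹ (Subgroup.inv_mem _ hg)
    rwa [map_inv] at h3
  let Θ : ↥(setSystemAut L) →* ↥(setSystemAut L') :=
    (e.permCongrHom.toMonoidHom.comp (Subgroup.subtype _)).codRestrict _
      (fun g => hconj g.1 g.2)
  have hΘ : Function.Injective Θ := by
    intro a b hab
    have h3 : e.permCongrHom (a : Equiv.Perm α) = e.permCongrHom (b : Equiv.Perm α) :=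
      congrArg Subtype.val hab
    exact Subtype.ext (e.permCongrHom.injective h3)
  have hA := card_aut_le hβ L' hL'
  let E1 : G1 ≃* ↥(Θ.comp φ).range := MonoidHom.ofInjective (hΘ.comp hφ)
  let E2 : G2 ≃* ↥ψ.range := MonoidHom.ofInjective hψ
  have c1 : Nat.card ↥(Θ.comp φ).range = 20160 := by
    rw [← Nat.card_congr E1.toEquiv, h1]
  have c2 : Nat.card ↥ψ.range = 20160 := by
    rw [← Nat.card_congr E2.toEquiv, h2]
  have hsim : IsSimpleGroup ↥(Θ.comp φ).range := E1.symm.isSimpleGroup
  have hEq : (Θ.comp φ).range = ψ.range := eq_of_simple_sub hA _ _ c1 c2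
  exact ⟨E1.trans ((MulEquiv.subgroupCongr hEq).trans E2.symm)⟩

end AutPlane
end Cfsg.Agent.Lib.Helper28
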