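import Mathlib

set_option autoImplicit false

namespace Cfsg.Agent.Lib.Helper28
namespace Rank4

open MulAction

variable {H L : Type*} [Group H] [MulAction H L]

/-- The orbits of a normal subgroup inside an orbit of the whole group have size dividing the
size of that orbit. -/
theorem orbit_normal_dvd (x : L) (N : Subgroup H) [N.Normal] :
    (orbit N x).ncard ∣ (orbit H x).ncard := by
  have hB : IsBlock H (orbit N (⟨x, mem_orbit_self x⟩ : orbit H x)) := IsBlock.orbit_of_normal _
  have hd := hB.ncard_dvd_card ⟨_, mem_orbit_self _⟩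
  rw [Nat.card_coe_set_eq] at hd
  have e : (orbit N (⟨x, mem_orbit_self x⟩ : orbit H x)).ncard = (orbit N x).ncard := by
    rw [← Set.ncard_image_of_injective _ Subtype.val_injective]
    congr 1
    ext z
    constructor
    · rintro ⟨z', ⟨n, rfl⟩, rfl⟩
      exact ⟨n, rfl⟩
    · rintro ⟨n, rfl⟩
      exact ⟨n • (⟨x, mem_orbit_self x⟩ : orbit H x), ⟨n, rfl⟩, rfl⟩
  rw [e] at hd
  exact hd

/-- The hypotheses: an orbit of size 2025 on which the group acts faithfully and on which the
point stabiliser has orbits of sizes 330, 462 and 1232. -/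
structure Hyp (H L : Type*) [Group H] [MulAction H L] (x : L) : Prop where
  card : (orbit H x).ncard = 2025
  faith : ∀ h : H, (∀ y ∈ orbit H x, h • y = y) → h = 1
  orbs : ∃ y1 y2 y3 : L, y1 ∈ orbit H x ∧ y2 ∈ orbit H x ∧ y3 ∈ orbit H x ∧
    (orbit (stabilizer H x) y1).ncard = 330 ∧ (orbit (stabilizer H x) y2).ncard = 462 ∧
    (orbit (stabilizer H x) y3).ncard = 1232

/-- A nontrivial normal subgroup is transitive on the orbit. -/
theorem normal_trans4 (x : L) (hyp : Hyp H L x) (N : Subgroup H) [hNn : N.Normal]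
    (hN : N ≠ ⊥) : ∀ y ∈ orbit H x, ∃ n ∈ N, n • x = y := by
  classical
  obtain ⟨hΩ, hf, y1, y2, y3, m1, m2, m3, n1, n2, n3⟩ := hyp
  have hfin : (orbit H x).Finite := Set.finite_of_ncard_ne_zero (by rw [hΩ]; norm_num)
  have sub : ∀ y ∈ orbit H x, orbit (stabilizer H x) y ⊆ orbit H x := by
    rintro y ⟨g, rfl⟩ z ⟨h, rfl⟩
    exact ⟨h.1 * g, mul_smul h.1 g x⟩
  have hx : ∀ y, (orbit (stabilizer H x) y).ncard ≠ 1 → x ∉ orbit (stabilizer H x) y := by
    intro y hne hxy
    apply hne
    have e : orbit (stabilizer H x) y = {x} := by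
      rw [← orbit_eq_iff.2 hxy]
      ext z
      constructor
      · rintro ⟨h, rfl⟩
        exact h.2
      · intro hz
        rw [Set.mem_singleton_iff] at hz
        rw [hz]
        exact mem_orbit_self _
    rw [e, Set.ncard_singleton]
  have x1 := hx y1 (by rw [n1]; norm_num)
  have x2 := hx y2 (by rw [n2]; norm_num)
  have x3 := hx y3 (by rw [n3]; norm_num)
  have d12 : Disjoint (orbit (stabilizer H x) y1) (orbit (stabilizer H x) y2) :=
    (orbit.eq_or_disjoint y1 y2).resolve_left (fun e => by rw [e] at n1; omega)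
  have d13 : Disjoint (orbit (stabilizer H x) y1) (orbit (stabilizer H x) y3) :=
    (orbit.eq_or_disjoint y1 y3).resolve_left (fun e => by rw [e] at n1; omega)
  have d23 : Disjoint (orbit (stabilizer H x) y2) (orbit (stabilizer H x) y3) :=
    (orbit.eq_or_disjoint y2 y3).resolve_left (fun e => by rw [e] at n2; omega)
  have f1 := hfin.subset (sub y1 m1)
  have f2 := hfin.subset (sub y2 m2)
  have f3 := hfin.subset (sub y3 m3)
  have cover : insert x (orbit (stabilizer H x) y1 ∪ orbit (stabilizer H x) y2 ∪
      orbit (stabilizer H x) y3) = orbit H x := by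
    apply Set.eq_of_subset_of_ncard_le _ _ hfin
    · exact Set.insert_subset (mem_orbit_self x)
        (Set.union_subset (Set.union_subset (sub y1 m1) (sub y2 m2)) (sub y3 m3))
    · rw [hΩ, Set.ncard_insert_of_notMem (by
          rintro ((h | h) | h)
          · exact x1 h
          · exact x2 h
          · exact x3 h) ((f1.union f2).union f3),
        Set.ncard_union_eq (Set.disjoint_union_left.2 ⟨d13, d23⟩) (f1.union f2) f3,
        Set.ncard_union_eq d12 f1 f2, n1, n2, n3]
  -- some element of N moves x
  have hmove : ∃ n ∈ N, n • x ≠ x := by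
    by_contra hcon
    push Not at hcon
    apply hN
    rw [Subgroup.eq_bot_iff_forall]
    intro n hn
    apply hf
    rintro y ⟨g, rfl⟩
    have h1 := hcon (g⁻¹ * n * g) (hNn.conj_mem' n hn g)
    have h2 : n • g • x = g • ((g⁻¹ * n * g) • x) := by
      rw [← mul_smul, ← mul_smul]
      congr 1
      group
    show n • g • x = g • x
    rw [h2, h1]
  obtain ⟨n0, hn0, hn0x⟩ := hmove
  have hdvd : (orbit N x).ncard ∣ 2025 := by
    rw [← hΩ]
    exact orbit_normal_dvd x N
  have hmem : ∀ y : L, y ∈ orbit N x ↔ ∃ n ∈ N, n • x = y := by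
    intro y
    rw [mem_orbit_iff]
    constructor
    · rintro ⟨n, hn⟩
      exact ⟨n.1, n.2, hn⟩
    · rintro ⟨n, hn, e⟩
      exact ⟨⟨n, hn⟩, e⟩
  have hBsub : orbit N x ⊆ orbit H x := by
    rintro y ⟨n, rfl⟩
    exact ⟨n.1, rfl⟩
  have hinv : ∀ h : H, h • x = x → ∀ y ∈ orbit N x, h • y ∈ orbit N x := by
    intro h hhx y hy
    rw [hmem] at hy ⊢
    obtain ⟨n, hn, rfl⟩ := hy
    refine ⟨h * n * h⁻¹, hNn.conj_mem n hn h, ?_⟩
    have h2 : (h * n * h⁻¹) • x = h • n • (h⁻¹ • x) := by
      rw [← mul_smul, ← mul_smul]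
    rw [h2]
    have h3 : h⁻¹ • x = x := by
      rw [inv_smul_eq_iff, hhx]
    rw [h3]
  have hOB : ∀ y, (orbit (stabilizer H x) y ∩ orbit N x).Nonempty →
      orbit (stabilizer H x) y ⊆ orbit N x := by
    rintro y ⟨z, ⟨k, rfl⟩, hz⟩ w ⟨k', rfl⟩
    have hz' : k • y ∈ orbit ↥N x := hz
    have e : k' • y = (k' * k⁻¹).1 • (k • y) := by
      show k' • y = (k' * k⁻¹) • (k • y)
      rw [mul_smul, inv_smul_smul]
    show k' • y ∈ orbit ↥N x
    rw [e]
    exact hinv _ (k' * k⁻¹).2 _ hz'
  have hxB : x ∈ orbit N x := mem_orbit_self x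
  have hy0 : n0 • x ∈ orbit N x := (hmem _).2 ⟨n0, hn0, rfl⟩
  intro y hyΩ
  rw [← hmem]
  by_contra hy1
  have hcase : ∀ y' : L, ((orbit N x ∩ orbit (stabilizer H x) y') = ∅) ∨
      (orbit (stabilizer H x) y' ⊆ orbit N x) := by
    intro y'
    by_cases hne : (orbit (stabilizer H x) y' ∩ orbit N x).Nonempty
    · exact Or.inr (hOB y' hne)
    · left
      rw [Set.not_nonempty_iff_eq_empty] at hne
      rw [Set.inter_comm]
      exact hne
  have hdec : orbit N x = insert x ((orbit N x ∩ orbit (stabilizer H x) y1) ∪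
      (orbit N x ∩ orbit (stabilizer H x) y2) ∪ (orbit N x ∩ orbit (stabilizer H x) y3)) := by
    ext z
    constructor
    · intro hz
      have hzΩ := hBsub hz
      rw [← cover] at hzΩ
      rcases hzΩ with h | (h | h) | h
      · exact Or.inl h
      · exact Or.inr (Or.inl (Or.inl ⟨hz, h⟩))
      · exact Or.inr (Or.inl (Or.inr ⟨hz, h⟩))
      · exact Or.inr (Or.inr ⟨hz, h⟩)
    · rintro (h | (h | h) | h)
      · rw [h]
        exact hxB
      · exact h.1
      · exact h.1
      · exact h.1
  have g1 : (orbit N x ∩ orbit (stabilizer H x) y1).Finite := f1.subset Set.inter_subset_right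
  have g2 : (orbit N x ∩ orbit (stabilizer H x) y2).Finite := f2.subset Set.inter_subset_right
  have g3 : (orbit N x ∩ orbit (stabilizer H x) y3).Finite := f3.subset Set.inter_subset_right
  have hnc : (orbit N x).ncard = (orbit N x ∩ orbit (stabilizer H x) y1).ncard +
      (orbit N x ∩ orbit (stabilizer H x) y2).ncard +
      (orbit N x ∩ orbit (stabilizer H x) y3).ncard + 1 := by
    conv_lhs => rw [hdec]
    rw [Set.ncard_insert_of_notMem (by
          rintro ((h | h) | h)
          · exact x1 h.2
          · exact x2 h.2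
          · exact x3 h.2) ((g1.union g2).union g3),
      Set.ncard_union_eq (Set.disjoint_union_left.2
        ⟨d13.mono Set.inter_subset_right Set.inter_subset_right,
          d23.mono Set.inter_subset_right Set.inter_subset_right⟩) (g1.union g2) g3,
      Set.ncard_union_eq (d12.mono Set.inter_subset_right Set.inter_subset_right) g1 g2]
  have k1 : ((orbit N x ∩ orbit (stabilizer H x) y1).ncard = 0 ∧
      (orbit N x ∩ orbit (stabilizer H x) y1) = ∅) ∨
      ((orbit N x ∩ orbit (stabilizer H x) y1).ncard = 330 ∧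
      orbit (stabilizer H x) y1 ⊆ orbit N x) := by
    rcases hcase y1 with h | h
    · exact Or.inl ⟨by rw [h, Set.ncard_empty], h⟩
    · exact Or.inr ⟨by rw [Set.inter_eq_right.2 h, n1], h⟩
  have k2 : ((orbit N x ∩ orbit (stabilizer H x) y2).ncard = 0 ∧
      (orbit N x ∩ orbit (stabilizer H x) y2) = ∅) ∨
      ((orbit N x ∩ orbit (stabilizer H x) y2).ncard = 462 ∧
      orbit (stabilizer H x) y2 ⊆ orbit N x) := by
    rcases hcase y2 with h | h
    · exact Or.inl ⟨by rw [h, Set.ncard_empty], h⟩
    · exact Or.inr ⟨by rw [Set.inter_eq_right.2 h, n2], h⟩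
  have k3 : ((orbit N x ∩ orbit (stabilizer H x) y3).ncard = 0 ∧
      (orbit N x ∩ orbit (stabilizer H x) y3) = ∅) ∨
      ((orbit N x ∩ orbit (stabilizer H x) y3).ncard = 1232 ∧
      orbit (stabilizer H x) y3 ⊆ orbit N x) := by
    rcases hcase y3 with h | h
    · exact Or.inl ⟨by rw [h, Set.ncard_empty], h⟩
    · exact Or.inr ⟨by rw [Set.inter_eq_right.2 h, n3], h⟩
  rcases k1 with ⟨c1, e1⟩ | ⟨c1, e1⟩ <;> rcases k2 with ⟨c2, e2⟩ | ⟨c2, e2⟩ <;>
    rcases k3 with ⟨c3, e3⟩ | ⟨c3, e3⟩
  · -- the orbit is a single point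
    rw [hdec, e1, e2, e3] at hy0
    simp only [Set.union_empty, Set.mem_insert_iff, Set.mem_empty_iff_false, or_false] at hy0
    exact hn0x hy0
  · rw [hnc, c1, c2, c3] at hdvd
    norm_num at hdvd
  · rw [hnc, c1, c2, c3] at hdvd
    norm_num at hdvd
  · rw [hnc, c1, c2, c3] at hdvd
    norm_num at hdvd
  · rw [hnc, c1, c2, c3] at hdvd
    norm_num at hdvd
  · rw [hnc, c1, c2, c3] at hdvd
    norm_num at hdvd
  · rw [hnc, c1, c2, c3] at hdvd
    norm_num at hdvd
  · -- everything
    rw [← cover] at hyΩ
    rcases hyΩ with h | (h | h) | h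
    · rw [h] at hy1
      exact hy1 hxB
    · exact hy1 (e1 h)
    · exact hy1 (e2 h)
    · exact hy1 (e3 h)

/-- Simplicity criterion: a group acting faithfully on an orbit of size 2025 with point
stabiliser a homomorphic image of a simple group and suborbits 1, 330, 462, 1232 is simple. -/
theorem simple_abs4 {M : Type*} [Group M] [IsSimpleGroup M] (x : L) (hyp : Hyp H L x)
    (φ : M →* H) (hφ2 : ∀ h : H, h • x = x → ∃ m, φ m = h) :
    IsSimpleGroup H := by
  classical
  have hΩ := hyp.card
  have hfin : (orbit H x).Finite := Set.finite_of_ncard_ne_zero (by rw [hΩ]; norm_num)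
  have : Nontrivial H := by
    by_contra hcon
    rw [not_nontrivial_iff_subsingleton] at hcon
    have e : orbit H x = {x} := by
      ext z
      constructor
      · rintro ⟨g, rfl⟩
        show g • x ∈ ({x} : Set L)
        rw [Subsingleton.elim g 1, one_smul]
        rfl
      · intro hz
        rw [Set.mem_singleton_iff] at hz
        rw [hz]
        exact mem_orbit_self _
    rw [e, Set.ncard_singleton] at hΩ
    omega
  refine ⟨fun N hNn => ?_⟩
  by_cases hN : N = ⊥
  · exact Or.inl hN
  right
  have htrN := normal_trans4 x hyp N hN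
  have hbig : ∀ (Q : Subgroup H), Q.Normal → Q ≠ ⊥ → Finite ↥Q → 2025 ≤ Nat.card ↥Q := by
    intro Q hQn hQ hQf
    have htrQ := normal_trans4 x hyp Q hQ
    have hle : Nat.card ↥(orbit H x) ≤ Nat.card ↥Q := by
      apply Nat.card_le_card_of_surjective
        (fun q : ↥Q => (⟨(q : H) • x, ⟨(q : H), rfl⟩⟩ : ↥(orbit H x)))
      rintro ⟨y, hy⟩
      obtain ⟨q, hq, e⟩ := htrQ y hy
      exact ⟨⟨q, hq⟩, Subtype.ext e⟩
    rw [Nat.card_coe_set_eq, hΩ] at hle
    exact hle
  rcases (hNn.comap φ).eq_bot_or_eq_top with hK | hK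
  · -- regular normal subgroup of order 2025: impossible
    exfalso
    have hreg : ∀ n ∈ N, n • x = x → n = 1 := by
      intro n hn hx
      obtain ⟨m, hm⟩ := hφ2 n hx
      have : m ∈ N.comap φ := by
        rw [Subgroup.mem_comap, hm]
        exact hn
      rw [hK, Subgroup.mem_bot] at this
      rw [← hm, this, map_one]
    have hcard : Nat.card ↥N = 2025 := by
      rw [← hΩ, ← Nat.card_coe_set_eq]
      apply Nat.card_eq_of_bijective
        (fun n : ↥N => (⟨(n : H) • x, ⟨(n : H), rfl⟩⟩ : ↥(orbit H x)))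
      constructor
      · intro n1 n2 e
        have e' : (n1 : H) • x = (n2 : H) • x := congrArg Subtype.val e
        have h1 : ((n1 : H)⁻¹ * (n2 : H)) • x = x := by
          rw [mul_smul, ← e', inv_smul_smul]
        have h2 := hreg _ (N.mul_mem (N.inv_mem n1.2) n2.2) h1
        apply Subtype.ext
        rw [inv_mul_eq_one] at h2
        exact h2
      · rintro ⟨y, hy⟩
        obtain ⟨n, hn, e⟩ := htrN y hy
        exact ⟨⟨n, hn⟩, Subtype.ext e⟩
    have : Finite ↥N := Nat.finite_of_card_ne_zero (by rw [hcard]; norm_num)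
    have : Fact (Nat.Prime 5) := ⟨by norm_num⟩
    have : Fact (Nat.Prime 3) := ⟨by norm_num⟩
    have hf5 : (2025 : ℕ).factorization 5 = 2 := by
      rw [Nat.factorization_def _ (by norm_num : Nat.Prime 5)]
      have e : (2025 : ℕ) = 5 ^ 2 * 81 := by norm_num
      rw [e, padicValNat.mul (by norm_num) (by norm_num), padicValNat.prime_pow,
        padicValNat.eq_zero_of_not_dvd (by norm_num)]
    have hf3 : (2025 : ℕ).factorization 3 = 4 := by
      rw [Nat.factorization_def _ (by norm_num : Nat.Prime 3)]
      have e : (2025 : ℕ) = 3 ^ 4 * 25 := by norm_num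
      rw [e, padicValNat.mul (by norm_num) (by norm_num), padicValNat.prime_pow,
        padicValNat.eq_zero_of_not_dvd (by norm_num)]
    -- a proper nontrivial characteristic subgroup of N is impossible
    have hchar : ∀ (K : Subgroup ↥N), K.Characteristic → Nat.card ↥K ≠ 1 →
        Nat.card ↥K < 2025 → False := by
      intro K hKc h1 h2
      have hQn : (K.map N.subtype).Normal := ConjAct.normal_of_characteristic_of_normal
      have hQc : Nat.card ↥(K.map N.subtype) = Nat.card ↥K :=
        (Nat.card_congr (K.equivMapOfInjective N.subtype N.subtype_injective).toEquiv).symm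
      have hQ : K.map N.subtype ≠ ⊥ := by
        intro h
        rw [h, Subgroup.card_bot] at hQc
        exact h1 hQc.symm
      have hQf : Finite ↥(K.map N.subtype) :=
        Nat.finite_of_card_ne_zero (by rw [hQc]; exact Nat.card_pos.ne')
      have := hbig _ hQn hQ hQf
      omega
    let S : Sylow 5 ↥N := default
    have hS : Nat.card ↥(S : Subgroup ↥N) = 25 := by
      rw [Sylow.card_eq_multiplicity, hcard, hf5]
      norm_num
    have hidx : (S : Subgroup ↥N).index = 81 := by
      have := Subgroup.card_mul_index (S : Subgroup ↥N)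
      rw [hS, hcard] at this
      omega
    have hn5 : Nat.card (Sylow 5 ↥N) = 1 ∨ Nat.card (Sylow 5 ↥N) = 81 := by
      have hd := Sylow.card_dvd_index S
      rw [hidx] at hd
      have hm := card_sylow_modEq_one 5 ↥N
      unfold Nat.ModEq at hm
      have h81 : (81 : ℕ) = 3 ^ 4 := by norm_num
      rw [h81] at hd
      obtain ⟨k, hk, e⟩ := (Nat.dvd_prime_pow (by norm_num : Nat.Prime 3)).1 hd
      rw [e] at hm ⊢
      interval_cases k <;> first
        | (left; norm_num; done)
        | (right; norm_num; done)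
        | (exfalso; revert hm; norm_num; done)
    rcases hn5 with h1 | h81
    · have : Subsingleton (Sylow 5 ↥N) := by
        rw [← Finite.card_le_one_iff_subsingleton, h1]
      exact hchar _ (Sylow.characteristic_of_subsingleton S) (by rw [hS]; norm_num)
        (by rw [hS]; norm_num)
    · have hnidx : (Subgroup.normalizer ((S : Subgroup ↥N) : Set ↥N)).index = 81 := by
        have := Sylow.card_eq_index_normalizer S
        rw [h81] at this
        exact this.symm
      have hncard : Nat.card ↥(Subgroup.normalizer ((S : Subgroup ↥N) : Set ↥N)) = 25 := by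
        have := Subgroup.card_mul_index (Subgroup.normalizer ((S : Subgroup ↥N) : Set ↥N))
        rw [hnidx, hcard] at this
        omega
      have hnS : (S : Subgroup ↥N) = Subgroup.normalizer ((S : Subgroup ↥N) : Set ↥N) := by
        apply Subgroup.eq_of_le_of_card_ge Subgroup.le_normalizer
        rw [hncard, hS]
      have hcomm : IsMulCommutative ↥(S : Subgroup ↥N) :=
        IsPGroup.isMulCommutative_of_card_eq_prime_sq (p := 5) (by rw [hS]; norm_num)
      have hP : Subgroup.normalizer ((S : Subgroup ↥N) : Set ↥N) ≤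
          Subgroup.centralizer ((S : Subgroup ↥N) : Set ↥N) := by
        rw [← hnS]
        intro g hg
        rw [Subgroup.mem_centralizer_iff]
        intro h hh
        have := (isMulCommutative_iff.1 hcomm) (⟨h, hh⟩ : ↥(S : Subgroup ↥N)) ⟨g, hg⟩
        exact congrArg Subtype.val this
      have hcompl := MonoidHom.ker_transferSylow_isComplement' S hP
      have hKcard : Nat.card ↥(MonoidHom.transferSylow S hP).ker = 81 := by
        have := hcompl.card_mul_card
        rw [hS, hcard] at this
        omega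
      let T : Sylow 3 ↥N := Sylow.ofCard (MonoidHom.transferSylow S hP).ker
        (by rw [hKcard, hcard, hf3]; norm_num)
      have hTn : (T : Subgroup ↥N).Normal := by
        show ((MonoidHom.transferSylow S hP).ker).Normal
        infer_instance
      refine hchar _ (Sylow.characteristic_of_normal T hTn) ?_ ?_
      · show Nat.card ↥(MonoidHom.transferSylow S hP).ker ≠ 1
        rw [hKcard]
        norm_num
      · show Nat.card ↥(MonoidHom.transferSylow S hP).ker < 2025
        rw [hKcard]
        norm_num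
  · -- the point stabiliser lies in N
    rw [Subgroup.eq_top_iff']
    intro h
    obtain ⟨n, hn, e⟩ := htrN (h • x) ⟨h, rfl⟩
    have h1 : (n⁻¹ * h) • x = x := by
      rw [mul_smul, ← e, inv_smul_smul]
    obtain ⟨m, hm⟩ := hφ2 _ h1
    have hmN : φ m ∈ N := by
      have : m ∈ N.comap φ := by
        rw [hK]
        exact Subgroup.mem_top m
      exact this
    rw [hm] at hmN
    have := N.mul_mem hn hmN
    rwa [mul_inv_cancel_left] at this

/-- The order of the group when the point stabiliser is the bijective image of `M`. -/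
theorem card_abs4 {M : Type*} [Group M] (x : L)
    (φ : M →* H) (hφi : Function.Injective φ) (hφ1 : ∀ m, φ m • x = x)
    (hφ2 : ∀ h : H, h • x = x → ∃ m, φ m = h) :
    Nat.card H = Nat.card M * (orbit H x).ncard := by
  rw [← Subgroup.card_mul_index (stabilizer H x), index_stabilizer]
  congr 1
  apply Nat.card_eq_of_bijective (fun h : ↥(stabilizer H x) => (hφ2 h.1 h.2).choose)
  constructor
  · intro h1 h2 e
    apply Subtype.ext
    have e1 := (hφ2 h1.1 h1.2).choose_spec
    have e2 := (hφ2 h2.1 h2.2).choose_spec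
    have e' : (hφ2 h1.1 h1.2).choose = (hφ2 h2.1 h2.2).choose := e
    rw [← e1, ← e2, e']
  · intro m
    refine ⟨⟨φ m, hφ1 m⟩, ?_⟩
    apply hφi
    exact (hφ2 (φ m) (hφ1 m)).choose_spec

/-- Faithfulness on the orbit, when the point stabiliser is a homomorphic image of a simple group
and moves some point of the orbit. -/
theorem faith_of_simple {M : Type*} [Group M] [IsSimpleGroup M] (x : L) (φ : M →* H)
    (hφ2 : ∀ h : H, h • x = x → ∃ m, φ m = h)
    (y : L) (hy : y ∈ orbit H x) (hy1 : (orbit (stabilizer H x) y).ncard ≠ 1) :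
    ∀ h : H, (∀ z ∈ orbit H x, h • z = z) → h = 1 := by
  have hK : ∀ h : H, h ∈ (MulAction.toPermHom H ↥(orbit H x)).ker ↔
      ∀ z ∈ orbit H x, h • z = z := by
    intro h
    rw [MonoidHom.mem_ker]
    constructor
    · intro e z hz
      have e2 := congrArg (fun p : Equiv.Perm ↥(orbit H x) => ((p ⟨z, hz⟩ : ↥(orbit H x)) : L)) e
      exact e2
    · intro e
      ext ⟨z, hz⟩
      exact e z hz
  have hKn : ((MulAction.toPermHom H ↥(orbit H x)).ker).Normal := MonoidHom.normal_ker _
  intro h hh
  rcases (hKn.comap φ).eq_bot_or_eq_top with hc | hc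
  · obtain ⟨m, hm⟩ := hφ2 h (hh x (mem_orbit_self x))
    have hmem : m ∈ ((MulAction.toPermHom H ↥(orbit H x)).ker).comap φ := by
      rw [Subgroup.mem_comap, hm, hK]
      exact hh
    rw [hc, Subgroup.mem_bot] at hmem
    rw [← hm, hmem, map_one]
  · exfalso
    apply hy1
    have e : orbit (stabilizer H x) y = {y} := by
      ext z
      constructor
      · rintro ⟨s, rfl⟩
        obtain ⟨m, hm⟩ := hφ2 s.1 s.2
        have hmem : m ∈ ((MulAction.toPermHom H ↥(orbit H x)).ker).comap φ := by
          rw [hc]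
          exact Subgroup.mem_top m
        rw [Subgroup.mem_comap, hm, hK] at hmem
        exact hmem y hy
      · intro hz
        rw [Set.mem_singleton_iff] at hz
        rw [hz]
        exact mem_orbit_self _
    rw [e, Set.ncard_singleton]

end Rank4
end Cfsg.Agent.Lib.Helper28
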