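import Mathlib
import Cfsg.Agent.Lib.Helper28.Rank4

set_option autoImplicit false

namespace Cfsg.Agent.Lib.Helper28
namespace Co1Abs

open MulAction

/-- A normal subgroup with at most two elements is central. -/
theorem central_of_card_le_two {G : Type*} [Group G] (N : Subgroup G) [hNn : N.Normal]
    [Finite ↥N] (h : Nat.card ↥N ≤ 2) : N ≤ Subgroup.center G := by
  intro n hn
  rw [Subgroup.mem_center_iff]
  intro g
  by_contra hne
  have hc : g * n * g⁻¹ ∈ N := hNn.conj_mem n hn g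
  have h1 : n ≠ 1 := by
    rintro rfl
    simp at hne
  have h2 : g * n * g⁻¹ ≠ 1 := by
    intro e
    apply h1
    have e2 : n = g⁻¹ * (g * n * g⁻¹) * g := by group
    rw [e2, e]
    group
  have h3 : g * n * g⁻¹ ≠ n := by
    intro e
    exact hne (mul_inv_eq_iff_eq_mul.1 e)
  have hcard : ({(1 : ↥N), ⟨n, hn⟩, ⟨g * n * g⁻¹, hc⟩} : Set ↥N).ncard = 3 := by
    rw [Set.ncard_eq_three]
    refine ⟨1, ⟨n, hn⟩, ⟨g * n * g⁻¹, hc⟩, ?_, ?_, ?_, rfl⟩
    · intro e
      exact h1 (congrArg Subtype.val e).symm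
    · intro e
      exact h2 (congrArg Subtype.val e).symm
    · intro e
      exact h3 (congrArg Subtype.val e).symm
  have hle := Set.ncard_le_card ({(1 : ↥N), ⟨n, hn⟩, ⟨g * n * g⁻¹, hc⟩} : Set ↥N)
  omega

/-- The size of a finite set is the sum of the sizes of the fibres of an integer function. -/
theorem ncard_fibers {L : Type*} (I : Set L) (hI : I.Finite) (f : L → ℤ) (K : Finset ℤ)
    (hK : ∀ u ∈ I, f u ∈ K) : I.ncard = ∑ k ∈ K, {u | u ∈ I ∧ f u = k}.ncard := by
  classical
  have h := Finset.card_eq_sum_card_fiberwise (s := hI.toFinset) (t := K) (f := f)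
    (fun u hu => hK u (hI.mem_toFinset.1 hu))
  rw [Set.ncard_eq_toFinset_card I hI, h]
  apply Finset.sum_congr rfl
  intro k _
  rw [← Set.ncard_coe_finset]
  congr 1
  ext u
  simp [Set.Finite.mem_toFinset]

theorem arith196 : ∀ a b c a' b' e : Fin 2,
    (1 + 4600 * (a : ℕ) + 47104 * (b : ℕ) + 93150 * (c : ℕ) + 47104 * (b' : ℕ) +
      4600 * (a' : ℕ) + (e : ℕ)) ∣ 196560 →
    1 + 4600 * (a : ℕ) + 47104 * (b : ℕ) + 93150 * (c : ℕ) + 47104 * (b' : ℕ) +
      4600 * (a' : ℕ) + (e : ℕ) ≠ 196560 →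
    1 + 4600 * (a : ℕ) + 47104 * (b : ℕ) + 93150 * (c : ℕ) + 47104 * (b' : ℕ) +
      4600 * (a' : ℕ) + (e : ℕ) ≤ 2 := by decide

/-- A simple group with trivial centre quotient criterion: if every normal subgroup is central
or everything, the quotient by the centre is simple. -/
theorem simple_quot {G : Type*} [Group G] (hnt : Subgroup.center G ≠ ⊤)
    (h : ∀ N : Subgroup G, N.Normal → N ≤ Subgroup.center G ∨ N = ⊤) :
    IsSimpleGroup (G ⧸ Subgroup.center G) := by
  have hntr : Nontrivial (G ⧸ Subgroup.center G) := by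
    obtain ⟨g, hg⟩ : ∃ g : G, g ∉ Subgroup.center G := by
      by_contra hcon
      push Not at hcon
      exact hnt ((Subgroup.eq_top_iff' _).2 hcon)
    refine ⟨⟨(g : G ⧸ Subgroup.center G), 1, ?_⟩⟩
    intro e
    exact hg ((QuotientGroup.eq_one_iff g).1 e)
  refine ⟨fun Nb hNb => ?_⟩
  have hN : (Nb.comap (QuotientGroup.mk' (Subgroup.center G))).Normal := hNb.comap _
  rcases h _ hN with hle | htop
  · left
    rw [Subgroup.eq_bot_iff_forall]
    intro q hq
    obtain ⟨g, rfl⟩ := QuotientGroup.mk_surjective q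
    have hg : g ∈ Nb.comap (QuotientGroup.mk' (Subgroup.center G)) := hq
    exact (QuotientGroup.eq_one_iff g).2 (hle hg)
  · right
    rw [Subgroup.eq_top_iff']
    intro q
    obtain ⟨g, rfl⟩ := QuotientGroup.mk_surjective q
    have hg : g ∈ Nb.comap (QuotientGroup.mk' (Subgroup.center G)) := by
      rw [htop]
      exact Subgroup.mem_top g
    exact hg

variable {H L : Type*} [Group H] [MulAction H L]

/-- The order of a normal subgroup acting freely is the size of its orbit. -/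
theorem card_semireg (x : L) (N : Subgroup H) (hreg : ∀ n ∈ N, n • x = x → n = 1) :
    Nat.card ↥N = (orbit N x).ncard := by
  rw [← Nat.card_coe_set_eq]
  apply Nat.card_eq_of_bijective
    (fun n : ↥N => (⟨n • x, ⟨n, rfl⟩⟩ : ↥(orbit N x)))
  constructor
  · intro n1 n2 e
    have e' : (n1 : H) • x = (n2 : H) • x := congrArg Subtype.val e
    have h1 : ((n1 : H)⁻¹ * (n2 : H)) • x = x := by
      rw [mul_smul, ← e', inv_smul_smul]
    have h2 := hreg _ (N.mul_mem (N.inv_mem n1.2) n2.2) h1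
    apply Subtype.ext
    rw [inv_mul_eq_one] at h2
    exact h2
  · rintro ⟨y, ⟨n, rfl⟩⟩
    exact ⟨n, rfl⟩

/-- A normal subgroup containing the point stabiliser whose orbit contains two large sets is
everything. -/
theorem top_of_stab_le196 (x : L) (hcard : (orbit H x).ncard = 196560)
    (N : Subgroup H) [hNn : N.Normal] (hN : ∀ h : H, h • x = x → h ∈ N)
    (S1 S2 : Set L)
    (h1 : ∀ u ∈ S1, ∃ w ∈ orbit H x, ∃ m : H, m • w = w ∧ m • x = u)
    (h2 : ∀ u ∈ S2, ∃ w ∈ orbit H x, ∃ m : H, m • w = w ∧ m • x = u)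
    (hc : 98280 < (S1 ∪ S2).ncard) : N = ⊤ := by
  have hfin : (orbit H x).Finite := Set.finite_of_ncard_ne_zero (by rw [hcard]; norm_num)
  have hsub : orbit N x ⊆ orbit H x := by
    rintro z ⟨n, rfl⟩
    exact ⟨n.1, rfl⟩
  have hstab : ∀ w ∈ orbit H x, ∀ m : H, m • w = w → m ∈ N := by
    rintro w ⟨g, rfl⟩ m hm
    have h1 : (g⁻¹ * m * g) • x = x := by
      rw [mul_smul, mul_smul, hm, inv_smul_smul]
    have h3 := hNn.conj_mem _ (hN _ h1) g
    have e : g * (g⁻¹ * m * g) * g⁻¹ = m := by group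
    rw [e] at h3
    exact h3
  have hS : ∀ (S : Set L), (∀ u ∈ S, ∃ w ∈ orbit H x, ∃ m : H, m • w = w ∧ m • x = u) →
      S ⊆ orbit N x := by
    intro S hS u hu
    obtain ⟨w, hw, m, m1, m2⟩ := hS u hu
    exact ⟨⟨m, hstab w hw m m1⟩, m2⟩
  have hd := Rank4.orbit_normal_dvd x N
  rw [hcard] at hd
  have hle : (S1 ∪ S2).ncard ≤ (orbit N x).ncard :=
    Set.ncard_le_ncard (Set.union_subset (hS S1 h1) (hS S2 h2)) (hfin.subset hsub)
  have hIc : (orbit N x).ncard = 196560 := by
    obtain ⟨t, ht⟩ := hd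
    rcases t with _ | _ | t
    · omega
    · omega
    · have h3 : (orbit N x).ncard * 2 ≤ (orbit N x).ncard * (t + 1 + 1) :=
        Nat.mul_le_mul_left _ (by omega)
      omega
  have heq : orbit N x = orbit H x :=
    Set.eq_of_subset_of_ncard_le hsub (by rw [hIc, hcard]) hfin
  rw [Subgroup.eq_top_iff']
  intro h
  have hm : h • x ∈ orbit N x := by
    rw [heq]
    exact ⟨h, rfl⟩
  obtain ⟨n, hn⟩ := hm
  have hn' : (n : H) • x = h • x := hn
  have e : ((n : H)⁻¹ * h) • x = x := by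
    rw [mul_smul, ← hn', inv_smul_smul]
  have := N.mul_mem n.2 (hN _ e)
  rwa [mul_inv_cancel_left] at this

/-- A normal subgroup acting freely has at most two elements or acts regularly. -/
theorem card_le_two_of_semireg (x : L) (d : L → L → ℤ)
    (hcard : (orbit H x).ncard = 196560)
    (hxx : d x x = 32)
    (hK : ∀ y ∈ orbit H x, d x y ∈ ({32, 16, 8, 0, -8, -16, -32} : Finset ℤ))
    (htr : ∀ y ∈ orbit H x, ∀ y' ∈ orbit H x, d x y = d x y' →
      ∃ m : H, m • x = x ∧ m • y = y')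
    (hc32 : {y | y ∈ orbit H x ∧ d x y = 32}.ncard = 1)
    (hc16 : {y | y ∈ orbit H x ∧ d x y = 16}.ncard = 4600)
    (hc8 : {y | y ∈ orbit H x ∧ d x y = 8}.ncard = 47104)
    (hc0 : {y | y ∈ orbit H x ∧ d x y = 0}.ncard = 93150)
    (hcm8 : {y | y ∈ orbit H x ∧ d x y = -8}.ncard = 47104)
    (hcm16 : {y | y ∈ orbit H x ∧ d x y = -16}.ncard = 4600)
    (hcm32 : {y | y ∈ orbit H x ∧ d x y = -32}.ncard = 1)
    (N : Subgroup H) [hNn : N.Normal] (hreg : ∀ n ∈ N, n • x = x → n = 1)
    (hne : Nat.card ↥N ≠ 196560) : Nat.card ↥N ≤ 2 := by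
  classical
  have hfin : (orbit H x).Finite := Set.finite_of_ncard_ne_zero (by rw [hcard]; norm_num)
  have hsub : orbit N x ⊆ orbit H x := by
    rintro z ⟨n, rfl⟩
    exact ⟨n.1, rfl⟩
  have hIfin : (orbit N x).Finite := hfin.subset hsub
  have hNcard := card_semireg x N hreg
  have hd := Rank4.orbit_normal_dvd x N
  rw [hcard, ← hNcard] at hd
  -- each fibre of the orbit is empty or a full class
  have hfib : ∀ k : ℤ, {u | u ∈ orbit N x ∧ d x u = k}.ncard = 0 ∨
      {u | u ∈ orbit N x ∧ d x u = k}.ncard = {y | y ∈ orbit H x ∧ d x y = k}.ncard := by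
    intro k
    by_cases hemp : {u | u ∈ orbit N x ∧ d x u = k} = ∅
    · left
      rw [hemp, Set.ncard_empty]
    · right
      obtain ⟨u, hu, hk⟩ := Set.nonempty_iff_ne_empty.2 hemp
      congr 1
      ext y
      constructor
      · rintro ⟨hy, hy2⟩
        exact ⟨hsub hy, hy2⟩
      · rintro ⟨hy, hy2⟩
        refine ⟨?_, hy2⟩
        obtain ⟨m, m1, m2⟩ := htr u (hsub hu) y hy (by rw [hk, hy2])
        obtain ⟨n, rfl⟩ := hu
        have hn : m * (n : H) * m⁻¹ ∈ N := hNn.conj_mem _ n.2 m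
        refine ⟨⟨m * (n : H) * m⁻¹, hn⟩, ?_⟩
        show (m * (n : H) * m⁻¹) • x = y
        have e : m⁻¹ • x = x := by
          rw [inv_smul_eq_iff, m1]
        rw [mul_smul, e, mul_smul]
        exact m2
  have hsum := ncard_fibers (orbit N x) hIfin (d x) {32, 16, 8, 0, -8, -16, -32}
    (fun u hu => hK u (hsub hu))
  rw [Finset.sum_insert (by decide), Finset.sum_insert (by decide), Finset.sum_insert (by decide),
    Finset.sum_insert (by decide), Finset.sum_insert (by decide), Finset.sum_insert (by decide),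
    Finset.sum_singleton] at hsum
  have h32 : {u | u ∈ orbit N x ∧ d x u = 32}.ncard = 1 := by
    rcases hfib 32 with h | h
    · exfalso
      have hx : x ∈ {u | u ∈ orbit N x ∧ d x u = 32} := ⟨mem_orbit_self x, hxx⟩
      have hf : {u | u ∈ orbit N x ∧ d x u = 32}.Finite := hIfin.subset (fun u hu => hu.1)
      rw [Set.ncard_eq_zero hf] at h
      rw [h] at hx
      exact hx
    · rw [h, hc32]
  have key : ∀ (k : ℤ) (c : ℕ), {y | y ∈ orbit H x ∧ d x y = k}.ncard = c →
      ∃ a < 2, {u | u ∈ orbit N x ∧ d x u = k}.ncard = c * a := by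
    intro k c hc
    rcases hfib k with h | h
    · exact ⟨0, by norm_num, by rw [h, mul_zero]⟩
    · exact ⟨1, by norm_num, by rw [h, hc, mul_one]⟩
  obtain ⟨a, ha, e16⟩ := key 16 4600 hc16
  obtain ⟨b, hb, e8⟩ := key 8 47104 hc8
  obtain ⟨c, hc, e0⟩ := key 0 93150 hc0
  obtain ⟨b', hb', em8⟩ := key (-8) 47104 hcm8
  obtain ⟨a', ha', em16⟩ := key (-16) 4600 hcm16
  obtain ⟨e, he, em32⟩ := key (-32) 1 hcm32
  rw [h32, e16, e8, e0, em8, em16, em32, ← hNcard] at hsum
  have hform : Nat.card ↥N =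
      1 + 4600 * a + 47104 * b + 93150 * c + 47104 * b' + 4600 * a' + e := by
    rw [hsum]
    ring
  rw [hform] at hd hne ⊢
  exact arith196 ⟨a, ha⟩ ⟨b, hb⟩ ⟨c, hc⟩ ⟨a', ha'⟩ ⟨b', hb'⟩ ⟨e, he⟩ hd hne

/-- A simple subgroup of large order bounds the order of a normal subgroup away from the
regular case. -/
theorem card_ne_of_simple {S : Type*} [Group S] [IsSimpleGroup S] (ψ : S →* H)
    (hψ : Function.Injective ψ) (hSc : Nat.card S = 495766656000)
    (hHc : Nat.card H = 8315553613086720000)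
    (N : Subgroup H) [hNn : N.Normal] : Nat.card ↥N ≠ 196560 := by
  intro hNc
  have hHf : Finite H := Nat.finite_of_card_ne_zero (by rw [hHc]; norm_num)
  have hSf : Finite S := Nat.finite_of_card_ne_zero (by rw [hSc]; norm_num)
  have hψN : N.comap ψ = ⊥ := by
    rcases (hNn.comap ψ).eq_bot_or_eq_top with h | h
    · exact h
    · exfalso
      have hle : Nat.card S ≤ Nat.card ↥N := by
        apply Nat.card_le_card_of_injective
          (fun s : S => (⟨ψ s, by
            have : s ∈ N.comap ψ := by rw [h]; exact Subgroup.mem_top s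
            exact this⟩ : ↥N))
        intro s1 s2 e
        exact hψ (congrArg Subtype.val e)
      rw [hSc, hNc] at hle
      omega
  have hinj : Function.Injective ((QuotientGroup.mk' N).comp ψ) := by
    rw [injective_iff_map_eq_one]
    intro s hs
    have h1 : ψ s ∈ N := by
      rw [MonoidHom.comp_apply, QuotientGroup.mk'_apply, QuotientGroup.eq_one_iff] at hs
      exact hs
    have h2 : s ∈ N.comap ψ := h1
    rw [hψN, Subgroup.mem_bot] at h2
    exact h2
  have h3 := Subgroup.card_dvd_of_injective _ hinj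
  have h4 := Subgroup.card_eq_card_quotient_mul_card_subgroup N
  rw [hSc] at h3
  obtain ⟨t, ht⟩ := h3
  rw [hHc, ht, hNc] at h4
  omega

end Co1Abs
end Cfsg.Agent.Lib.Helper28
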