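import Mathlib
import Cfsg.Agent.Lib.Helper28.Rank4

set_option autoImplicit false

namespace Cfsg.Agent.Lib.Helper28
namespace Co2Abs

open MulAction

/-- An element of prime order `p` centralises a finite normal subgroup none of whose proper
subgroup orders is congruent to its order modulo `p`. -/
theorem cent_of_card {G : Type*} [Group G] (N : Subgroup G) [hNn : N.Normal] [Finite ↥N] (g : G)
    (p : ℕ) [hp : Fact p.Prime] (hg : g ^ p = 1)
    (hN : ∀ d : ℕ, d ∣ Nat.card ↥N → d % p = Nat.card ↥N % p → d = Nat.card ↥N) :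
    ∀ n ∈ N, g * n * g⁻¹ = n := by
  classical
  have hZ : IsPGroup p ↥(Subgroup.zpowers g) := by
    rintro ⟨z, hz⟩
    obtain ⟨k, rfl⟩ := Subgroup.mem_zpowers_iff.1 hz
    refine ⟨1, ?_⟩
    apply Subtype.ext
    show (g ^ k) ^ p ^ 1 = 1
    rw [pow_one, ← zpow_natCast, ← zpow_mul, mul_comm, zpow_mul, zpow_natCast, hg, one_zpow]
  let act : MulAction ↥(Subgroup.zpowers g) ↥N := MulAction.compHom ↥N
    ((MulAut.conjNormal : G →* MulAut ↥N).comp (Subgroup.zpowers g).subtype)
  have hsm : ∀ (z : ↥(Subgroup.zpowers g)) (n : ↥N),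
      ((z • n : ↥N) : G) = (z : G) * (n : G) * (z : G)⁻¹ := by
    intro z n
    rfl
  let C : Subgroup ↥N :=
    { carrier := {n | ∀ z : ↥(Subgroup.zpowers g), z • n = n}
      mul_mem' := by
        intro a b ha hb z
        apply Subtype.ext
        rw [hsm, Subgroup.coe_mul]
        have ea := congrArg Subtype.val (ha z)
        have eb := congrArg Subtype.val (hb z)
        rw [hsm] at ea eb
        calc (z : G) * ((a : G) * (b : G)) * (z : G)⁻¹
            = ((z : G) * (a : G) * (z : G)⁻¹) * ((z : G) * (b : G) * (z : G)⁻¹) := by group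
          _ = (a : G) * (b : G) := by rw [ea, eb]
      one_mem' := by
        intro z
        apply Subtype.ext
        rw [hsm]
        simp
      inv_mem' := by
        intro a ha z
        apply Subtype.ext
        rw [hsm, Subgroup.coe_inv]
        have ea := congrArg Subtype.val (ha z)
        rw [hsm] at ea
        calc (z : G) * (a : G)⁻¹ * (z : G)⁻¹ = ((z : G) * (a : G) * (z : G)⁻¹)⁻¹ := by group
          _ = (a : G)⁻¹ := by rw [ea] }
  have hfix : Nat.card ↥(MulAction.fixedPoints ↥(Subgroup.zpowers g) ↥N) = Nat.card ↥C := by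
    apply Nat.card_congr
    exact Equiv.setCongr (by ext n; rfl)
  have hmod := hZ.card_modEq_card_fixedPoints ↥N
  rw [hfix] at hmod
  have hC := hN (Nat.card ↥C) (Subgroup.card_subgroup_dvd_card C) hmod.symm
  have hCtop : C = ⊤ := Subgroup.eq_top_of_card_eq C hC
  intro n hn
  have hmem : (⟨n, hn⟩ : ↥N) ∈ C := by
    rw [hCtop]
    exact Subgroup.mem_top _
  have e := congrArg Subtype.val (hmem ⟨g, Subgroup.mem_zpowers g⟩)
  rw [hsm] at e
  exact e

theorem pow2_mod11 : ∀ i < 10, ∀ j < 10, 2 ^ i % 11 = 2 ^ j % 11 → 2 ^ i = 2 ^ j := by decide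

theorem pow2_mod23 : ∀ i < 10, 2 ^ i % 23 = 1 → i = 0 := by decide

variable {H L : Type*} [Group H] [MulAction H L]

/-- A normal subgroup containing the point stabiliser is everything. -/
theorem top_of_stab_le47 (x : L) (d : L → L → ℤ)
    (hcard : (orbit H x).ncard = 47104)
    (hinv : ∀ (h : H) (p q : L), d (h • p) (h • q) = d p q)
    (hsymm : ∀ p q : L, d p q = d q p)
    (hxx : d x x = 32)
    (ht0 : ∀ y ∈ orbit H x, ∀ y' ∈ orbit H x, d x y = 0 → d x y' = 0 →
      ∃ m : H, m • x = x ∧ m • y = y')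
    (ht2 : ∀ y ∈ orbit H x, ∀ y' ∈ orbit H x, d x y = 16 → d x y' = 16 →
      ∃ m : H, m • x = x ∧ m • y = y')
    (hn0 : {y | y ∈ orbit H x ∧ d x y = 0}.ncard = 22275)
    (hn2 : {y | y ∈ orbit H x ∧ d x y = 16}.ncard = 2025)
    (htri : ∃ y ∈ orbit H x, ∃ z ∈ orbit H x, d x y = 0 ∧ d x z = 0 ∧ d y z = 0)
    (htri2 : ∃ y ∈ orbit H x, ∃ z ∈ orbit H x, d x y = 16 ∧ d x z = 0 ∧ d y z = 0)
    (N : Subgroup H) [hNn : N.Normal] (hN : ∀ h : H, h • x = x → h ∈ N) : N = ⊤ := by
  classical
  have hfin : (orbit H x).Finite := Set.finite_of_ncard_ne_zero (by rw [hcard]; norm_num)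
  have hstab : ∀ w ∈ orbit H x, ∀ m : H, m • w = w → m ∈ N := by
    rintro w ⟨g, rfl⟩ m hm
    have h1 : (g⁻¹ * m * g) • x = x := by
      rw [mul_smul, mul_smul, hm, inv_smul_smul]
    have h3 := hNn.conj_mem _ (hN _ h1) g
    have e : g * (g⁻¹ * m * g) * g⁻¹ = m := by group
    rw [e] at h3
    exact h3
  have hmemo : ∀ (g : H) (p : L), p ∈ orbit H x → g • p ∈ orbit H x := by
    rintro g p ⟨k, rfl⟩
    exact ⟨g * k, mul_smul g k x⟩
  have ht0' : ∀ w ∈ orbit H x, ∀ p ∈ orbit H x, ∀ q ∈ orbit H x, d w p = 0 → d w q = 0 →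
      ∃ m : H, m • w = w ∧ m • p = q := by
    rintro w ⟨g, rfl⟩ p hp q hq hwp hwq
    have e1 : d x (g⁻¹ • p) = 0 := by
      have := hinv g x (g⁻¹ • p)
      rw [smul_inv_smul] at this
      rw [← this]
      exact hwp
    have e2 : d x (g⁻¹ • q) = 0 := by
      have := hinv g x (g⁻¹ • q)
      rw [smul_inv_smul] at this
      rw [← this]
      exact hwq
    obtain ⟨m, m1, m2⟩ := ht0 _ (hmemo g⁻¹ p hp) _ (hmemo g⁻¹ q hq) e1 e2
    refine ⟨g * m * g⁻¹, ?_, ?_⟩
    · rw [mul_smul, mul_smul, inv_smul_smul, m1]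
    · rw [mul_smul, mul_smul, m2, smul_inv_smul]
  have hB : ∀ z, z ∈ orbit N x ↔ ∃ n ∈ N, n • x = z := by
    intro z
    constructor
    · rintro ⟨n, rfl⟩
      exact ⟨n.1, n.2, rfl⟩
    · rintro ⟨n, hn, rfl⟩
      exact ⟨⟨n, hn⟩, rfl⟩
  have hsub : orbit N x ⊆ orbit H x := by
    rintro z ⟨n, rfl⟩
    exact ⟨n.1, rfl⟩
  have hmove : ∀ z ∈ orbit N x, ∀ m ∈ N, m • z ∈ orbit N x := by
    intro z hz m hm
    obtain ⟨n, hn, rfl⟩ := (hB z).1 hz
    exact (hB _).2 ⟨m * n, N.mul_mem hm hn, mul_smul m n x⟩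
  obtain ⟨y, hy, z, hz, dxy, dxz, dyz⟩ := htri
  have hzB : z ∈ orbit N x := by
    obtain ⟨m, m1, m2⟩ := ht0' y hy x (mem_orbit_self x) z hz (by rw [hsymm]; exact dxy) dyz
    exact (hB z).2 ⟨m, hstab y hy m m1, m2⟩
  have hR0 : ∀ z1 ∈ orbit H x, d x z1 = 0 → z1 ∈ orbit N x := by
    intro z1 hz1 h1
    obtain ⟨m, m1, m2⟩ := ht0 z hz z1 hz1 dxz h1
    rw [← m2]
    exact hmove z hzB m (hN m m1)
  obtain ⟨y', hy', z', hz', dxy', dxz', dyz'⟩ := htri2
  have hy'B : y' ∈ orbit N x := by
    obtain ⟨m, m1, m2⟩ := ht0' z' hz' x (mem_orbit_self x) y' hy' (by rw [hsymm]; exact dxz')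
      (by rw [hsymm]; exact dyz')
    exact (hB y').2 ⟨m, hstab z' hz' m m1, m2⟩
  have hC2 : ∀ y1 ∈ orbit H x, d x y1 = 16 → y1 ∈ orbit N x := by
    intro y1 hy1 h1
    obtain ⟨m, m1, m2⟩ := ht2 y' hy' y1 hy1 dxy' h1
    rw [← m2]
    exact hmove y' hy'B m (hN m m1)
  have hBfin : (orbit N x).Finite := hfin.subset hsub
  have hbig : 24301 ≤ (orbit N x).ncard := by
    have hsubset : insert x ({y | y ∈ orbit H x ∧ d x y = 0} ∪
        {y | y ∈ orbit H x ∧ d x y = 16}) ⊆ orbit N x := by
      intro w hw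
      rcases hw with h | h | h
      · rw [h]
        exact (hB x).2 ⟨1, N.one_mem, one_smul _ x⟩
      · exact hR0 w h.1 h.2
      · exact hC2 w h.1 h.2
    have hd : Disjoint {y | y ∈ orbit H x ∧ d x y = 0} {y | y ∈ orbit H x ∧ d x y = 16} := by
      rw [Set.disjoint_left]
      intro w h1 h2
      have e1 := h1.2
      have e2 := h2.2
      omega
    have hf0 : {y | y ∈ orbit H x ∧ d x y = 0}.Finite := hfin.subset (fun w h => h.1)
    have hf2 : {y | y ∈ orbit H x ∧ d x y = 16}.Finite := hfin.subset (fun w h => h.1)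
    have hx : x ∉ {y | y ∈ orbit H x ∧ d x y = 0} ∪ {y | y ∈ orbit H x ∧ d x y = 16} := by
      rintro (h | h)
      · have e1 := h.2
        omega
      · have e1 := h.2
        omega
    have hc := Set.ncard_le_ncard hsubset hBfin
    rw [Set.ncard_insert_of_notMem hx (hf0.union hf2), Set.ncard_union_eq hd hf0 hf2, hn0,
      hn2] at hc
    omega
  have hdvd := Rank4.orbit_normal_dvd x N
  rw [hcard] at hdvd
  have hBc : (orbit N x).ncard = 47104 := by
    obtain ⟨k, hk⟩ := hdvd
    have hk1 : k = 1 := by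
      rcases k with _ | _ | k
      · omega
      · rfl
      · exfalso
        have h2 := Nat.mul_le_mul hbig (show 2 ≤ k + 1 + 1 by omega)
        rw [← hk] at h2
        norm_num at h2
    rw [hk1] at hk
    omega
  have hBeq : orbit N x = orbit H x :=
    Set.eq_of_subset_of_ncard_le hsub (by rw [hBc, hcard]) hfin
  rw [Subgroup.eq_top_iff']
  intro h
  have hh : h • x ∈ orbit N x := by
    rw [hBeq]
    exact ⟨h, rfl⟩
  obtain ⟨n, hn, e⟩ := (hB _).1 hh
  have h1 : (n⁻¹ * h) • x = x := by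
    rw [mul_smul, ← e, inv_smul_smul]
  have := N.mul_mem hn (hN _ h1)
  rwa [mul_inv_cancel_left] at this

/-- No nontrivial normal subgroup meets the point stabiliser trivially. -/
theorem no_semireg47 {M S : Type*} [Group M] [IsSimpleGroup M] [Group S] [IsSimpleGroup S]
    (x : L) (hcard : (orbit H x).ncard = 47104)
    (φ : M →* H) (hφi : Function.Injective φ) (hφ1 : ∀ m, φ m • x = x)
    (hφ2 : ∀ h : H, h • x = x → ∃ m, φ m = h) (hMc : Nat.card M = 898128000)
    (ψ : S →* H) (hψ : Function.Injective ψ) (hSc : Nat.card S = 44352000)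
    (hfix : ∀ y ∈ orbit H x, (∀ m : H, m • x = x → m • y = y) → y = x)
    (N : Subgroup H) [hNn : N.Normal] (hreg : ∀ n ∈ N, n • x = x → n = 1) : N = ⊥ := by
  classical
  have hHc : Nat.card H = 42305421312000 := by
    rw [Rank4.card_abs4 x φ hφi hφ1 hφ2, hMc, hcard]
  have hHf : Finite H := Nat.finite_of_card_ne_zero (by rw [hHc]; norm_num)
  have hMf : Finite M := Nat.finite_of_card_ne_zero (by rw [hMc]; norm_num)
  have hfin : (orbit H x).Finite := Set.finite_of_ncard_ne_zero (by rw [hcard]; norm_num)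
  by_contra hNbot
  -- the order of N is the size of its orbit
  have hNcard : Nat.card ↥N = (orbit N x).ncard := by
    rw [← Nat.card_coe_set_eq]
    apply Nat.card_eq_of_bijective
      (fun n : ↥N => (⟨n • x, ⟨n, rfl⟩⟩ : ↥(orbit N x)))
    constructor
    · intro n1 n2 e
      have e' : (n1 : H) • x = (n2 : H) • x := congrArg Subtype.val e
      have h1 : ((n1 : H)⁻¹ * (n2 : H)) • x = x := by
        rw [mul_smul, ← e', inv_smul_smul]
      have h2 := hreg _ (N.mul_mem (N.inv_mem n1.2) n2.2) h1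
      apply Subtype.ext
      rw [inv_mul_eq_one] at h2
      exact h2
    · rintro ⟨y, ⟨n, rfl⟩⟩
      exact ⟨n, rfl⟩
  have hd1 : Nat.card ↥N ∣ 47104 := by
    rw [hNcard, ← hcard]
    exact Rank4.orbit_normal_dvd x N
  have hNle : Nat.card ↥N ≤ 47104 := Nat.le_of_dvd (by norm_num) hd1
  -- the second simple subgroup meets N trivially
  have hSf : Finite S := Nat.finite_of_card_ne_zero (by rw [hSc]; norm_num)
  have hψN : N.comap ψ = ⊥ := by
    rcases (hNn.comap ψ).eq_bot_or_eq_top with h | h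
    · exact h
    · exfalso
      have hle : Nat.card S ≤ Nat.card ↥N := by
        apply Nat.card_le_card_of_injective
          (fun s : S => (⟨ψ s, by
            have : s ∈ N.comap ψ := by rw [h]; exact Subgroup.mem_top s
            exact this⟩ : ↥N))
        intro s1 s2 e
        exact hψ (congrArg Subtype.val e)
      rw [hSc] at hle
      omega
  have hd2 : Nat.card ↥N ∣ 953856 := by
    have hinj : Function.Injective ((QuotientGroup.mk' N).comp ψ) := by
      rw [injective_iff_map_eq_one]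
      intro s hs
      have h1 : ψ s ∈ N := by
        rw [MonoidHom.comp_apply, QuotientGroup.mk'_apply, QuotientGroup.eq_one_iff] at hs
        exact hs
      have h2 : s ∈ N.comap ψ := h1
      rw [hψN, Subgroup.mem_bot] at h2
      exact h2
    have h3 := Subgroup.card_dvd_of_injective _ hinj
    have h4 := Subgroup.card_eq_card_quotient_mul_card_subgroup N
    rw [hSc] at h3
    obtain ⟨t, ht⟩ := h3
    rw [hHc, ht] at h4
    refine ⟨t, ?_⟩
    have h5 : 44352000 * 953856 = 44352000 * (Nat.card ↥N * t) := by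
      rw [← mul_assoc, mul_comm 44352000 (Nat.card ↥N), mul_assoc, mul_comm (Nat.card ↥N)]
      rw [← h4]
    exact Nat.eq_of_mul_eq_mul_left (by norm_num) h5
  have hd3 : Nat.card ↥N ∣ 11776 := by
    have h := Nat.dvd_gcd hd1 hd2
    have e : Nat.gcd 47104 953856 = 11776 := by norm_num
    rw [e] at h
    exact h
  have hNf : Finite ↥N := inferInstance
  -- elements of order 11 and 5 in the point stabiliser
  have : Fact (Nat.Prime 11) := ⟨by norm_num⟩
  have : Fact (Nat.Prime 5) := ⟨by norm_num⟩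
  have : Fact (Nat.Prime 23) := ⟨by norm_num⟩
  obtain ⟨m11, hm11⟩ := exists_prime_orderOf_dvd_card' (G := M) 11 (by rw [hMc]; norm_num)
  obtain ⟨m5, hm5⟩ := exists_prime_orderOf_dvd_card' (G := M) 5 (by rw [hMc]; norm_num)
  have hg11 : φ m11 ^ 11 = 1 := by
    rw [← map_pow, ← hm11, pow_orderOf_eq_one, map_one]
  have hg5 : φ m5 ^ 5 = 1 := by
    rw [← map_pow, ← hm5, pow_orderOf_eq_one, map_one]
  have hm11ne : m11 ≠ 1 := by
    intro h
    rw [h, orderOf_one] at hm11
    norm_num at hm11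
  have hm5ne : m5 ≠ 1 := by
    intro h
    rw [h, orderOf_one] at hm5
    norm_num at hm5
  -- a nontrivial normal subgroup of N centralised by a nontrivial element of the stabiliser
  have key : ∃ (N0 : Subgroup H), N0.Normal ∧ N0 ≤ N ∧ N0 ≠ ⊥ ∧
      ∃ m : M, m ≠ 1 ∧ ∀ n ∈ N0, φ m * n * (φ m)⁻¹ = n := by
    by_cases h23 : 23 ∣ Nat.card ↥N
    · -- the Sylow 23-subgroup
      let P : Sylow 23 ↥N := default
      obtain ⟨k, hk⟩ := P.isPGroup'.exists_card_eq
      have hPd : Nat.card ↥(P : Subgroup ↥N) ∣ 11776 :=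
        (Subgroup.card_subgroup_dvd_card _).trans hd3
      have hP23 := P.dvd_card_of_dvd_card h23
      have hPc : Nat.card ↥(P : Subgroup ↥N) = 23 := by
        rw [hk] at hPd hP23 ⊢
        rcases k with _ | _ | k
        · norm_num at hP23
        · norm_num
        · exfalso
          have h529 : 23 ^ 2 ∣ 11776 := (pow_dvd_pow 23 (by omega : 2 ≤ k + 1 + 1)).trans hPd
          norm_num at h529
      have hidx : (P : Subgroup ↥N).index ∣ 512 := by
        have h := Subgroup.card_mul_index (P : Subgroup ↥N)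
        rw [hPc] at h
        have h2 : 23 * (P : Subgroup ↥N).index ∣ 23 * 512 := by
          rw [h]
          exact hd3
        exact Nat.dvd_of_mul_dvd_mul_left (by norm_num) h2
      have hn23 : Nat.card (Sylow 23 ↥N) = 1 := by
        have hd := (Sylow.card_dvd_index P).trans hidx
        have hm := card_sylow_modEq_one 23 ↥N
        unfold Nat.ModEq at hm
        have h512 : (512 : ℕ) = 2 ^ 9 := by norm_num
        rw [h512] at hd
        obtain ⟨i, hi, e⟩ := (Nat.dvd_prime_pow (by norm_num : Nat.Prime 2)).1 hd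
        rw [e] at hm ⊢
        have hi0 := pow2_mod23 i (by omega) (by rw [hm])
        rw [hi0]
        norm_num
      have hsub : Subsingleton (Sylow 23 ↥N) := by
        rw [← Finite.card_le_one_iff_subsingleton, hn23]
      have hPchar : (P : Subgroup ↥N).Characteristic := Sylow.characteristic_of_subsingleton P
      have hQn : ((P : Subgroup ↥N).map N.subtype).Normal :=
        ConjAct.normal_of_characteristic_of_normal
      have hQc : Nat.card ↥((P : Subgroup ↥N).map N.subtype) = 23 :=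
        ((Nat.card_congr ((P : Subgroup ↥N).equivMapOfInjective N.subtype
          N.subtype_injective).toEquiv).symm).trans hPc
      have hQf : Finite ↥((P : Subgroup ↥N).map N.subtype) :=
        Nat.finite_of_card_ne_zero (by rw [hQc]; norm_num)
      refine ⟨(P : Subgroup ↥N).map N.subtype, hQn, Subgroup.map_subtype_le _, ?_, m5, hm5ne, ?_⟩
      · intro h
        rw [h, Subgroup.card_bot] at hQc
        norm_num at hQc
      · apply cent_of_card ((P : Subgroup ↥N).map N.subtype) (φ m5) 5 hg5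
        intro d hd hmod
        rw [hQc] at hd hmod ⊢
        rcases (Nat.dvd_prime (by norm_num : Nat.Prime 23)).1 hd with h | h
        · rw [h] at hmod
          norm_num at hmod
        · exact h
    · refine ⟨N, hNn, le_refl _, hNbot, m11, hm11ne, ?_⟩
      have h512 : Nat.card ↥N ∣ 512 := by
        have hc : Nat.Coprime (Nat.card ↥N) 23 :=
          (Nat.coprime_comm.1 ((Nat.Prime.coprime_iff_not_dvd (by norm_num)).2 h23))
        have e : (11776 : ℕ) = 512 * 23 := by norm_num
        rw [e] at hd3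
        exact hc.dvd_of_dvd_mul_right hd3
      apply cent_of_card N (φ m11) 11 hg11
      intro d hd hmod
      have h512' : (512 : ℕ) = 2 ^ 9 := by norm_num
      rw [h512'] at h512
      obtain ⟨j, hj, ej⟩ := (Nat.dvd_prime_pow (by norm_num : Nat.Prime 2)).1 h512
      have hd' : d ∣ 2 ^ 9 := hd.trans h512
      obtain ⟨i, hi, ei⟩ := (Nat.dvd_prime_pow (by norm_num : Nat.Prime 2)).1 hd'
      rw [ej] at hmod ⊢
      rw [ei] at hmod ⊢
      exact pow2_mod11 i (by omega) j (by omega) hmod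
  obtain ⟨N0, hN0n, hN0le, hN0bot, m, hm1, hcent⟩ := key
  -- the whole stabiliser centralises N0
  have hall : ∀ m' : M, φ m' ∈ Subgroup.centralizer (N0 : Set H) := by
    have hCn : (Subgroup.centralizer (N0 : Set H)).Normal := Subgroup.normal_centralizer
    rcases (hCn.comap φ).eq_bot_or_eq_top with h | h
    · exfalso
      apply hm1
      have hmem : m ∈ (Subgroup.centralizer (N0 : Set H)).comap φ := by
        rw [Subgroup.mem_comap, Subgroup.mem_centralizer_iff]
        intro n hn
        have e := hcent n hn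
        rw [mul_inv_eq_iff_eq_mul] at e
        exact e.symm
      rw [h, Subgroup.mem_bot] at hmem
      exact hmem
    · intro m'
      have hmem : m' ∈ (Subgroup.centralizer (N0 : Set H)).comap φ := by
        rw [h]
        exact Subgroup.mem_top m'
      exact hmem
  obtain ⟨n, hn1⟩ := (Subgroup.ne_bot_iff_exists_ne_one.1 hN0bot)
  have hnN : (n : H) ∈ N := hN0le n.2
  have hfixed : ∀ h : H, h • x = x → h • ((n : H) • x) = (n : H) • x := by
    intro h hh
    obtain ⟨m', rfl⟩ := hφ2 h hh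
    have hc := hall m'
    rw [Subgroup.mem_centralizer_iff] at hc
    have e := hc n n.2
    rw [← mul_smul, ← e, mul_smul, hh]
  have hnx := hfix ((n : H) • x) ⟨n, rfl⟩ hfixed
  have := hreg n hnN hnx
  exact hn1 (Subtype.ext this)

/-- Simplicity and order from the action on 47104 points. -/
theorem simple_co2 {M S : Type*} [Group M] [IsSimpleGroup M] [Group S] [IsSimpleGroup S]
    (x : L) (d : L → L → ℤ) (hcard : (orbit H x).ncard = 47104)
    (φ : M →* H) (hφi : Function.Injective φ) (hφ1 : ∀ m, φ m • x = x)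
    (hφ2 : ∀ h : H, h • x = x → ∃ m, φ m = h) (hMc : Nat.card M = 898128000)
    (ψ : S →* H) (hψ : Function.Injective ψ) (hSc : Nat.card S = 44352000)
    (hinv : ∀ (h : H) (p q : L), d (h • p) (h • q) = d p q)
    (hsymm : ∀ p q : L, d p q = d q p)
    (hxx : d x x = 32)
    (ht0 : ∀ y ∈ orbit H x, ∀ y' ∈ orbit H x, d x y = 0 → d x y' = 0 →
      ∃ m : H, m • x = x ∧ m • y = y')
    (ht2 : ∀ y ∈ orbit H x, ∀ y' ∈ orbit H x, d x y = 16 → d x y' = 16 →
      ∃ m : H, m • x = x ∧ m • y = y')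
    (hn0 : {y | y ∈ orbit H x ∧ d x y = 0}.ncard = 22275)
    (hn2 : {y | y ∈ orbit H x ∧ d x y = 16}.ncard = 2025)
    (htri : ∃ y ∈ orbit H x, ∃ z ∈ orbit H x, d x y = 0 ∧ d x z = 0 ∧ d y z = 0)
    (htri2 : ∃ y ∈ orbit H x, ∃ z ∈ orbit H x, d x y = 16 ∧ d x z = 0 ∧ d y z = 0)
    (hfix : ∀ y ∈ orbit H x, (∀ m : H, m • x = x → m • y = y) → y = x) :
    IsSimpleGroup H ∧ Nat.card H = 42305421312000 := by
  have hHc : Nat.card H = 42305421312000 := by
    rw [Rank4.card_abs4 x φ hφi hφ1 hφ2, hMc, hcard]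
  have hHf : Finite H := Nat.finite_of_card_ne_zero (by rw [hHc]; norm_num)
  have : Nontrivial H := by
    rw [← Finite.one_lt_card_iff_nontrivial, hHc]
    norm_num
  refine ⟨⟨fun N hNn => ?_⟩, hHc⟩
  rcases (hNn.comap φ).eq_bot_or_eq_top with hK | hK
  · left
    apply no_semireg47 x hcard φ hφi hφ1 hφ2 hMc ψ hψ hSc hfix N
    intro n hn hx
    obtain ⟨m, hm⟩ := hφ2 n hx
    have : m ∈ N.comap φ := by
      rw [Subgroup.mem_comap, hm]
      exact hn
    rw [hK, Subgroup.mem_bot] at this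
    rw [← hm, this, map_one]
  · right
    apply top_of_stab_le47 x d hcard hinv hsymm hxx ht0 ht2 hn0 hn2 htri htri2 N
    intro h hh
    obtain ⟨m, hm⟩ := hφ2 h hh
    have hmem : m ∈ N.comap φ := by
      rw [hK]
      exact Subgroup.mem_top m
    rw [← hm]
    exact hmem

end Co2Abs
end Cfsg.Agent.Lib.Helper28
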