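import Cfsg.Agent.Lib.Helper28.M24Count
import Cfsg.Agent.Lib.Helper4.GolayIrr
import Cfsg.Agent.Lib.Helper4.GolayDod

/-! Cosets of the Golay code and the action of `M24` on words. -/

namespace Cfsg.Agent.Lib.Helper28

open Cfsg Cfsg.Agent.Lib.Helper4 Cfsg.Agent.Lib.Helper4.Golay
open Pointwise

/-- The action of a permutation on a word. -/
def act (σ : Equiv.Perm GolayPt) (w : GolayPt → ZMod 2) : GolayPt → ZMod 2 :=
  fun p => w (σ.symm p)

theorem act_mul (σ τ : Equiv.Perm GolayPt) (w : GolayPt → ZMod 2) :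
    act (σ * τ) w = act σ (act τ w) := rfl

theorem act_one (w : GolayPt → ZMod 2) : act 1 w = w := rfl

theorem act_add (σ : Equiv.Perm GolayPt) (v w : GolayPt → ZMod 2) :
    act σ (v + w) = act σ v + act σ w := rfl

theorem act_sub (σ : Equiv.Perm GolayPt) (v w : GolayPt → ZMod 2) :
    act σ (v - w) = act σ v - act σ w := rfl

theorem act_const (σ : Equiv.Perm GolayPt) : act σ (1 : GolayPt → ZMod 2) = 1 := rfl

theorem act_mem {σ : Equiv.Perm GolayPt} (hσ : σ ∈ M24) {w : GolayPt → ZMod 2}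
    (hw : w ∈ golayCode) : act σ w ∈ golayCode :=
  comp_mem_of_mem_M24 (Subgroup.inv_mem _ hσ) hw

theorem act_mem_iff {σ : Equiv.Perm GolayPt} (hσ : σ ∈ M24) {w : GolayPt → ZMod 2} :
    act σ w ∈ golayCode ↔ w ∈ golayCode := by
  constructor
  · intro h
    have h1 := act_mem (Subgroup.inv_mem _ hσ) h
    rwa [← act_mul, inv_mul_cancel, act_one] at h1
  · exact act_mem hσ

theorem act_inv_word {l l' : List ℕ} (h : chk l l' = true) (b : ℕ) :
    act (mkPerm l l' h)⁻¹ (word b) = word (pmL l b) := by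
  rw [← word_pmL l l' h b]
  rfl

theorem act_support (σ : Equiv.Perm GolayPt) (w : GolayPt → ZMod 2) :
    support₂ (act σ w) = σ • support₂ w := by
  have h := support_comp w σ⁻¹
  rw [inv_inv] at h
  exact h

theorem mem_of_red {a : ℕ} (h : red basisP a = 0) : word a ∈ golayCode := by
  rw [golay_eq]
  apply red_sound basisP _ _ basisP_mem
  rw [h, word_zero]
  exact Submodule.zero_mem _

theorem single_eq_word : ∀ p q : GolayPt,
    (Pi.single p (1 : ZMod 2) : GolayPt → ZMod 2) q = word (2 ^ code p) q := by decide +kernel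

theorem coset_single : ∀ i < 24, red basisP (2 ^ i ^^^ red basisP (2 ^ i)) = 0 ∧
    red basisP (2 ^ i) < 4096 := by decide +kernel

/-- Every word is congruent modulo the code to a word on the first twelve coordinates. -/
theorem coset_rep (w : GolayPt → ZMod 2) : ∃ r, r < 4096 ∧ w + word r ∈ golayCode := by
  have hsum : w = ∑ p, Pi.single p (w p) := (Finset.univ_sum_single w).symm
  rw [hsum]
  apply Finset.sum_induction _
    (fun v : GolayPt → ZMod 2 => ∃ r, r < 4096 ∧ v + word r ∈ golayCode)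
  · rintro a b ⟨r1, h1, m1⟩ ⟨r2, h2, m2⟩
    refine ⟨r1 ^^^ r2, Nat.xor_lt_two_pow (n := 12) h1 h2, ?_⟩
    have h3 := golayCode.add_mem m1 m2
    rw [word_xor]
    have e : a + b + (word r1 + word r2) = a + word r1 + (b + word r2) := by abel
    rw [e]
    exact h3
  · exact ⟨0, by norm_num, by rw [word_zero, add_zero]; exact Submodule.zero_mem _⟩
  · intro p _
    rcases zmod2_cases (w p) with h | h
    · rw [h, Pi.single_zero]
      exact ⟨0, by norm_num, by rw [word_zero, add_zero]; exact Submodule.zero_mem _⟩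
    · rw [h]
      obtain ⟨h1, h2⟩ := coset_single (code p) (code_lt p)
      refine ⟨red basisP (2 ^ code p), h2, ?_⟩
      have e : (Pi.single p (1 : ZMod 2) : GolayPt → ZMod 2) = word (2 ^ code p) :=
        funext (single_eq_word p)
      rw [e, ← word_xor]
      exact mem_of_red h1

/-- Certificate: the listed group elements fix the word with mask `m`. -/
def fixB (m : ℕ) (G : List (List ℕ × List ℕ)) : Bool :=
  G.all (fun e => and (and (chk e.1 e.2) (memChk e.1)) (Nat.beq (pmL e.1 m) m))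

/-- Certificate: every non-zero coset of the code is moved by one of the listed elements. -/
def moveB (G : List (List ℕ × List ℕ)) : Bool :=
  (List.range 4096).all (fun r => or (Nat.beq r 0)
    (G.any (fun e => not (Nat.beq (red basisP (pmL e.1 r ^^^ r)) 0))))

theorem cocode_core (m : ℕ) (G : List (List ℕ × List ℕ)) (hG : fixB m G = true)
    (hM : moveB G = true) (k : Equiv.Perm GolayPt) (hk : k ∈ M24) (w : GolayPt → ZMod 2)
    (hw : w ∉ golayCode) :
    ∃ σ ∈ M24, act σ (act k (word m)) = act k (word m) ∧ act σ w - w ∉ golayCode := by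
  have hw' : act k⁻¹ w ∉ golayCode := fun h => hw ((act_mem_iff (Subgroup.inv_mem _ hk)).1 h)
  obtain ⟨r, hr, hrC⟩ := coset_rep (act k⁻¹ w)
  have hr0 : r ≠ 0 := by
    rintro rfl
    rw [word_zero, add_zero] at hrC
    exact hw' hrC
  simp only [moveB, List.all_eq_true, List.mem_range, Bool.or_eq_true, Nat.beq_eq,
    List.any_eq_true, Bool.not_eq_true'] at hM
  rcases hM r hr with h0 | ⟨e, he, hne⟩
  · exact absurd h0 hr0
  simp only [fixB, List.all_eq_true, Bool.and_eq_true, Nat.beq_eq] at hG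
  obtain ⟨⟨hc, hm⟩, hs⟩ := hG e he
  have hτ : (mkPerm e.1 e.2 hc)⁻¹ ∈ M24 := Subgroup.inv_mem _ (mkPerm_mem _ _ hc hm)
  refine ⟨k * (mkPerm e.1 e.2 hc)⁻¹ * k⁻¹,
    Subgroup.mul_mem _ (Subgroup.mul_mem _ hk hτ) (Subgroup.inv_mem _ hk), ?_, ?_⟩
  · rw [← act_mul, inv_mul_cancel_right, act_mul, act_inv_word, hs]
  · intro hmem
    have h1 := act_mem (Subgroup.inv_mem _ hk) hmem
    rw [act_sub, ← act_mul, ← mul_assoc, ← mul_assoc, inv_mul_cancel, one_mul, act_mul] at h1
    have h2 : act (mkPerm e.1 e.2 hc)⁻¹ (act k⁻¹ w + word r) - (act k⁻¹ w + word r)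
        ∈ golayCode := golayCode.sub_mem (act_mem hτ hrC) hrC
    have h3 := golayCode.sub_mem h2 h1
    have e3 : act (mkPerm e.1 e.2 hc)⁻¹ (act k⁻¹ w + word r) - (act k⁻¹ w + word r)
        - (act (mkPerm e.1 e.2 hc)⁻¹ (act k⁻¹ w) - act k⁻¹ w)
        = word (pmL e.1 r ^^^ r) := by
      rw [act_add, act_inv_word, word_xor, ← word_sub_eq_add (word (pmL e.1 r)) (word r)]
      abel
    rw [e3] at h3
    have hlt : pmL e.1 r ^^^ r < 16777216 :=
      Nat.xor_lt_two_pow (n := 24) (pmL_lt' hc r) (lt_trans hr (by norm_num))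
    have h4 := red_of_mem hlt h3
    rw [h4] at hne
    exact absurd hne (by decide)

/-- Two elements of the stabiliser of the standard octad. -/
def gOct : List (List ℕ × List ℕ) := [([18, 10, 0, 8, 19, 2, 5, 7, 6, 23, 1, 9, 20, 12, 13, 14, 11, 15, 3, 22, 21, 16, 17, 4], [2, 10, 5, 18, 23, 6, 8, 7, 3, 11, 1, 16, 13, 14, 15, 17, 21, 22, 0, 4, 12, 20, 19, 9]),
  ([3, 21, 7, 2, 4, 0, 8, 6, 5, 19, 20, 13, 11, 14, 22, 1, 9, 17, 18, 15, 12, 23, 10, 16], [5, 15, 3, 0, 4, 8, 7, 2, 6, 16, 22, 12, 20, 11, 13, 19, 23, 17, 18, 9, 10, 1, 14, 21])]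

/-- Two elements of the stabiliser of the standard dodecad. -/
def gDod : List (List ℕ × List ℕ) := [([2, 6, 10, 17, 1, 9, 15, 16, 8, 4, 0, 20, 18, 22, 7, 5, 14, 3, 21, 13, 11, 19, 12, 23], [10, 4, 0, 17, 9, 15, 1, 14, 8, 5, 2, 20, 22, 19, 16, 6, 7, 3, 12, 21, 11, 18, 13, 23]),
  ([8, 10, 3, 15, 5, 6, 0, 12, 4, 9, 2, 7, 23, 13, 19, 1, 20, 17, 11, 21, 14, 16, 22, 18], [6, 15, 10, 2, 8, 4, 5, 11, 0, 9, 1, 18, 7, 13, 20, 3, 21, 17, 23, 14, 16, 19, 22, 12])]

/-- The generators of the whole group. -/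
def gAll : List (List ℕ × List ℕ) := [(shiftL, shiftL'), (projL, projL'), (cubeL, cubeL')]

theorem gOct_fix : fixB 262637 gOct = true := by decide +kernel

theorem gDod_fix : fixB D0 gDod = true := by decide +kernel

theorem gAll_fix : fixB 0 gAll = true := by decide +kernel

theorem gOct_move : moveB gOct = true := by decide +kernel

theorem gDod_move : moveB gDod = true := by decide +kernel

theorem gAll_move : moveB gAll = true := by decide +kernel

end Cfsg.Agent.Lib.Helper28
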