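import Mathlib
import Cfsg.Prelude.Def_GeometricClasses
import Cfsg.Agent.Lib.Helper28.Transv

set_option autoImplicit false

namespace Cfsg.Agent.Lib.Helper28

open Cfsg
open scoped Matrix DirectSum

variable {F : Type*} [Field F] {n t : ℕ}

section decomp

variable (D : Fin t → Submodule F (Fin n → F)) (hInt : DirectSum.IsInternal D)

/-- The decomposition isomorphism. -/
noncomputable def dcp : (Fin n → F) ≃ₗ[F] ⨁ i, D i :=
  (LinearEquiv.ofBijective (DirectSum.coeLinearMap D) hInt).symm

/-- The component of a vector in the `i`-th summand, as an element of the summand. -/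
noncomputable def cmpS (i : Fin t) : (Fin n → F) →ₗ[F] D i :=
  (DirectSum.component F (Fin t) (fun i => D i) i) ∘ₗ (dcp D hInt).toLinearMap

/-- The component of a vector in the `i`-th summand. -/
noncomputable def cmp (i : Fin t) : (Fin n → F) →ₗ[F] (Fin n → F) :=
  (D i).subtype ∘ₗ cmpS D hInt i

theorem cmp_eq (i : Fin t) (x : Fin n → F) : cmp D hInt i x = (cmpS D hInt i x : Fin n → F) := rfl

theorem cmp_mem (i : Fin t) (x : Fin n → F) : cmp D hInt i x ∈ D i :=
  Submodule.coe_mem _

theorem cmpS_of_mem {j : Fin t} {x : Fin n → F} (hx : x ∈ D j) :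
    cmpS D hInt j x = ⟨x, hx⟩ := by
  change (LinearEquiv.ofBijective (DirectSum.coeLinearMap D) hInt).symm x j = _
  exact hInt.ofBijective_coeLinearMap_of_mem hx

theorem cmpS_of_mem_ne {i j : Fin t} (hij : j ≠ i) {x : Fin n → F} (hx : x ∈ D j) :
    cmpS D hInt i x = 0 := by
  change (LinearEquiv.ofBijective (DirectSum.coeLinearMap D) hInt).symm x i = _
  exact hInt.ofBijective_coeLinearMap_of_mem_ne hij hx

theorem cmp_of_mem {j : Fin t} {x : Fin n → F} (hx : x ∈ D j) (i : Fin t) :
    cmp D hInt i x = if i = j then x else 0 := by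
  by_cases h : i = j
  · subst h
    rw [if_pos rfl, cmp_eq, cmpS_of_mem D hInt hx]
  · rw [if_neg h, cmp_eq, cmpS_of_mem_ne D hInt (Ne.symm h) hx]
    rfl

theorem sum_cmp (x : Fin n → F) : ∑ i, cmp D hInt i x = x := by
  have h1 : DirectSum.coeLinearMap D (dcp D hInt x) = x :=
    LinearEquiv.apply_symm_apply (LinearEquiv.ofBijective (DirectSum.coeLinearMap D) hInt) x
  have h2 := DirectSum.sum_univ_of (dcp D hInt x)
  rw [← h2, map_sum] at h1
  conv_rhs => rw [← h1]
  refine Finset.sum_congr rfl (fun i _ => ?_)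
  rw [DirectSum.coeLinearMap_of]
  rfl

open Classical in
/-- The number of nonzero components. -/
noncomputable def wt (x : Fin n → F) : ℕ :=
  (Finset.univ.filter (fun i : Fin t => cmp D hInt i x ≠ 0)).card

theorem wt_of_mem {j : Fin t} {x : Fin n → F} (hx : x ∈ D j) (hx0 : x ≠ 0) : wt D hInt x = 1 := by
  classical
  unfold wt
  have : (Finset.univ.filter (fun i : Fin t => cmp D hInt i x ≠ 0)) = {j} := by
    ext i
    rw [Finset.mem_filter, Finset.mem_singleton, cmp_of_mem D hInt hx]
    by_cases h : i = j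
    · simp [h, hx0]
    · simp [h]
  rw [this, Finset.card_singleton]

theorem one_lt_wt {i j : Fin t} (hij : i ≠ j) {x : Fin n → F} (hi : cmp D hInt i x ≠ 0)
    (hj : cmp D hInt j x ≠ 0) : 1 < wt D hInt x := by
  classical
  unfold wt
  rw [Finset.one_lt_card]
  exact ⟨i, by simp [hi], j, by simp [hj], hij⟩

theorem cmp_stab {g : Matrix.GeneralLinearGroup (Fin n) F} {σ : Equiv.Perm (Fin t)}
    (hσ : ∀ i, (D i).map (Matrix.toLin' (g : Matrix (Fin n) (Fin n) F)) = D (σ i))
    (i : Fin t) (x : Fin n → F) :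
    cmp D hInt (σ i) ((g : Matrix (Fin n) (Fin n) F) *ᵥ x)
      = (g : Matrix (Fin n) (Fin n) F) *ᵥ cmp D hInt i x := by
  classical
  have hmem : ∀ k, (g : Matrix (Fin n) (Fin n) F) *ᵥ cmp D hInt k x ∈ D (σ k) := by
    intro k
    rw [← hσ k]
    exact ⟨cmp D hInt k x, cmp_mem D hInt k x, by rw [Matrix.toLin'_apply]⟩
  conv_lhs => rw [← sum_cmp D hInt x, Matrix.mulVec_sum, map_sum]
  have : ∀ k ∈ Finset.univ, cmp D hInt (σ i) ((g : Matrix (Fin n) (Fin n) F) *ᵥ cmp D hInt k x)
      = if k = i then (g : Matrix (Fin n) (Fin n) F) *ᵥ cmp D hInt k x else 0 := by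
    intro k _
    rw [cmp_of_mem D hInt (hmem k)]
    by_cases h : k = i
    · subst h; simp
    · have : σ i ≠ σ k := fun h' => h (σ.injective h').symm
      simp [h, this]
  rw [Finset.sum_congr rfl this, Finset.sum_ite_eq' Finset.univ i]
  simp

theorem mulVec_ne_zero (g : Matrix.GeneralLinearGroup (Fin n) F) {y : Fin n → F} (hy : y ≠ 0) :
    (g : Matrix (Fin n) (Fin n) F) *ᵥ y ≠ 0 := by
  intro h
  apply hy
  have : ((g⁻¹ : Matrix.GeneralLinearGroup (Fin n) F) : Matrix (Fin n) (Fin n) F) *ᵥ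
      ((g : Matrix (Fin n) (Fin n) F) *ᵥ y) = y := by
    rw [Matrix.mulVec_mulVec, ← Units.val_mul, inv_mul_cancel, Units.val_one, Matrix.one_mulVec]
  rw [← this, h, Matrix.mulVec_zero]

theorem wt_stab {g : Matrix.GeneralLinearGroup (Fin n) F}
    (hg : g ∈ Geo.decompositionStabilizer D) (x : Fin n → F) :
    wt D hInt ((g : Matrix (Fin n) (Fin n) F) *ᵥ x) = wt D hInt x := by
  classical
  obtain ⟨σ, hσ⟩ := hg
  unfold wt
  symm
  refine Finset.card_bij (fun i _ => σ i) ?_ ?_ ?_
  · intro i hi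
    rw [Finset.mem_filter] at hi ⊢
    refine ⟨Finset.mem_univ _, ?_⟩
    rw [cmp_stab D hInt hσ]
    exact mulVec_ne_zero g hi.2
  · intro i _ j _ h
    exact σ.injective h
  · intro k hk
    rw [Finset.mem_filter] at hk
    refine ⟨σ.symm k, ?_, σ.apply_symm_apply k⟩
    rw [Finset.mem_filter]
    refine ⟨Finset.mem_univ _, ?_⟩
    intro h0
    apply hk.2
    have := cmp_stab D hInt hσ (σ.symm k) x
    rw [σ.apply_symm_apply] at this
    rw [this, h0, Matrix.mulVec_zero]

/-- The elements preserving the weight modulo the characteristic. -/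
noncomputable def wtSubgroup : Subgroup (Matrix.GeneralLinearGroup (Fin n) F) where
  carrier := {g | ∀ x, ((wt D hInt ((g : Matrix (Fin n) (Fin n) F) *ᵥ x) : ℕ) : F) = (wt D hInt x : F)}
  mul_mem' {g h} hg hh := by
    intro x
    rw [Units.val_mul, ← Matrix.mulVec_mulVec, hg, hh]
  one_mem' := by
    intro x
    rw [Units.val_one, Matrix.one_mulVec]
  inv_mem' {g} hg := by
    intro x
    have := hg (((g⁻¹ : Matrix.GeneralLinearGroup (Fin n) F) : Matrix (Fin n) (Fin n) F) *ᵥ x)
    rw [Matrix.mulVec_mulVec, ← Units.val_mul, mul_inv_cancel, Units.val_one, Matrix.one_mulVec] at this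
    exact this.symm

theorem mem_wtSubgroup (g : Matrix.GeneralLinearGroup (Fin n) F) :
    g ∈ wtSubgroup D hInt ↔
      ∀ x, ((wt D hInt ((g : Matrix (Fin n) (Fin n) F) *ᵥ x) : ℕ) : F) = (wt D hInt x : F) :=
  Iff.rfl

theorem stab_le_wtSubgroup : Geo.decompositionStabilizer D ≤ wtSubgroup D hInt := by
  intro g hg x
  rw [wt_stab D hInt hg]

theorem exists_sl_not_wt {i j : Fin t} (hij : i ≠ j) (hi : D i ≠ ⊥) (hj : D j ≠ ⊥) :
    ∃ h : Matrix.GeneralLinearGroup (Fin n) F, h ∈ Geo.specialLinear (Fin n) F ∧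
      h ∉ wtSubgroup D hInt := by
  classical
  obtain ⟨u, hu, hu0⟩ := Submodule.exists_mem_ne_zero_of_ne_bot hi
  obtain ⟨a, ha, ha0⟩ := Submodule.exists_mem_ne_zero_of_ne_bot hj
  obtain ⟨ψ, hψ, _⟩ := exists_dual_eq_one (⊥ : Submodule F (Fin n → F)) u
    (by rw [Submodule.mem_bot]; exact hu0)
  have hfu : (ψ ∘ₗ cmp D hInt i) u = 1 := by
    rw [LinearMap.comp_apply, cmp_of_mem D hInt hu, if_pos rfl, hψ]
  have hfa : (ψ ∘ₗ cmp D hInt i) a = 0 := by
    rw [LinearMap.comp_apply, cmp_of_mem D hInt ha, if_neg hij, map_zero]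
  obtain ⟨h, hh1, hh2⟩ := exists_transvection (ψ ∘ₗ cmp D hInt i) a hfa
  refine ⟨h, hh1, ?_⟩
  intro hmem
  have h1 := hmem u
  rw [hh2, hfu, one_smul, wt_of_mem D hInt hu hu0] at h1
  have h2 : wt D hInt (u + a) = 2 := by
    unfold wt
    have : (Finset.univ.filter (fun k : Fin t => cmp D hInt k (u + a) ≠ 0)) = {i, j} := by
      ext k
      rw [Finset.mem_filter, Finset.mem_insert, Finset.mem_singleton, map_add,
        cmp_of_mem D hInt hu, cmp_of_mem D hInt ha]
      by_cases h1 : k = i
      · subst h1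
        simp [hij, hu0]
      · by_cases h2 : k = j
        · subst h2
          simp [h1, ha0]
        · simp [h1, h2]
    rw [this, Finset.card_pair hij]
  rw [h2] at h1
  have h3 : (1 : F) = 0 := by
    have : ((2 : ℕ) : F) = 1 + 1 := by norm_num
    rw [this] at h1
    have h4 : (1 : F) + 1 = ((1 : ℕ) : F) := h1
    rw [Nat.cast_one] at h4
    linear_combination h4
  exact one_ne_zero h3

theorem not_stab_of_wt {g : Matrix.GeneralLinearGroup (Fin n) F} (x : Fin n → F)
    (h : wt D hInt ((g : Matrix (Fin n) (Fin n) F) *ᵥ x) ≠ wt D hInt x) :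
    g ∉ Geo.decompositionStabilizer D :=
  fun hg => h (wt_stab D hInt hg x)

section coords

variable {m : ℕ} (v : ∀ i, Module.Basis (Fin m) F (D i))

/-- The coordinate functionals of a vector with respect to bases of the summands. -/
noncomputable def crd (i : Fin t) (j : Fin m) : Module.Dual F (Fin n → F) :=
  (v i).coord j ∘ₗ cmpS D hInt i

theorem crd_apply (i : Fin t) (j : Fin m) (x : Fin n → F) :
    crd D hInt v i j x = (v i).repr (cmpS D hInt i x) j := rfl

theorem crd_basis (i : Fin t) (j : Fin m) (i' : Fin t) (j' : Fin m) :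
    crd D hInt v i j ((v i' j' : D i') : Fin n → F) = if i = i' ∧ j = j' then 1 else 0 := by
  rw [crd_apply]
  by_cases h : i = i'
  · subst h
    rw [cmpS_of_mem D hInt (Submodule.coe_mem _)]
    simp only [Subtype.coe_eta, Module.Basis.repr_self, true_and]
    rw [Finsupp.single_apply]
    by_cases hj : j = j'
    · subst hj; simp
    · have : ¬ j' = j := fun h => hj h.symm
      simp [hj, this]
  · rw [cmpS_of_mem_ne D hInt (Ne.symm h) (Submodule.coe_mem _)]
    simp [h]

theorem cmp_ne_zero_iff (i : Fin t) (x : Fin n → F) :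
    cmp D hInt i x ≠ 0 ↔ ∃ j, crd D hInt v i j x ≠ 0 := by
  rw [cmp_eq]
  constructor
  · intro h
    by_contra hcon
    push Not at hcon
    apply h
    have : cmpS D hInt i x = 0 := by
      apply (v i).repr.injective
      ext j
      rw [map_zero, Finsupp.zero_apply]
      exact hcon j
    rw [this]; rfl
  · rintro ⟨j, hj⟩ h
    apply hj
    have : cmpS D hInt i x = 0 := Subtype.ext h
    rw [crd_apply, this, map_zero, Finsupp.zero_apply]

theorem crd_transv {g : Matrix.GeneralLinearGroup (Fin n) F} {f : Module.Dual F (Fin n → F)}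
    {a : Fin n → F} (hg : ∀ x, (g : Matrix (Fin n) (Fin n) F) *ᵥ x = x + f x • a)
    (i : Fin t) (j : Fin m) (x : Fin n → F) :
    crd D hInt v i j ((g : Matrix (Fin n) (Fin n) F) *ᵥ x)
      = crd D hInt v i j x + f x * crd D hInt v i j a := by
  rw [hg, map_add, map_smul, smul_eq_mul]

/-- The sum of the `j`-th basis vectors over the summands in `A`. -/
noncomputable def vecA (j : Fin m) (A : Finset (Fin t)) : Fin n → F :=
  ∑ i ∈ A, ((v i j : D i) : Fin n → F)

/-- The sum of the `j`-th coordinate functionals over the summands in `A`. -/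
noncomputable def funA (j : Fin m) (A : Finset (Fin t)) : Module.Dual F (Fin n → F) :=
  ∑ i ∈ A, crd D hInt v i j

theorem crd_vecA (j j' : Fin m) (A : Finset (Fin t)) (i : Fin t) :
    crd D hInt v i j (vecA D v j' A) = if i ∈ A ∧ j = j' then 1 else 0 := by
  classical
  unfold vecA
  rw [map_sum]
  simp only [crd_basis]
  by_cases hj : j = j'
  · subst hj
    simp
  · simp [hj]

theorem funA_apply (j : Fin m) (A : Finset (Fin t)) (x : Fin n → F) :
    funA D hInt v j A x = ∑ i ∈ A, crd D hInt v i j x := by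
  unfold funA
  rw [LinearMap.sum_apply]

theorem funA_vecA (j j' : Fin m) (A : Finset (Fin t)) :
    funA D hInt v j A (vecA D v j' A) = if j = j' then (A.card : F) else 0 := by
  classical
  rw [funA_apply]
  simp only [crd_vecA]
  by_cases hj : j = j'
  · subst hj
    simp
  · simp [hj]

end coords

end decomp

end Cfsg.Agent.Lib.Helper28
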