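import Mathlib
import Cfsg.Prelude.Def_GeometricClasses
import Cfsg.Agent.Lib.Helper28.Transv
import Cfsg.Agent.Lib.Helper28.Decomp

set_option autoImplicit false

namespace Cfsg.Agent.Lib.Helper28

open Cfsg
open scoped Matrix DirectSum

variable {F : Type*} [Field F] [Fintype F] {n t : ℕ}

section one

variable (D : Fin t → Submodule F (Fin n → F)) (hInt : DirectSum.IsInternal D)
  (v : ∀ i, Module.Basis (Fin 1) F (D i))

theorem wt_cast_one (x : Fin n → F) :
    (wt D hInt x : F) = ∑ i, (crd D hInt v i 0 x) ^ (Fintype.card F - 1) := by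
  classical
  unfold wt
  rw [Finset.card_filter, Nat.cast_sum]
  refine Finset.sum_congr rfl (fun i _ => ?_)
  have h1 : cmp D hInt i x ≠ 0 ↔ crd D hInt v i 0 x ≠ 0 := by
    rw [cmp_ne_zero_iff D hInt v]
    constructor
    · rintro ⟨j, hj⟩
      have : j = 0 := Subsingleton.elim _ _
      rw [this] at hj
      exact hj
    · intro h
      exact ⟨0, h⟩
  by_cases h : crd D hInt v i 0 x = 0
  · have h' : ¬ cmp D hInt i x ≠ 0 := by rw [h1]; exact not_not.mpr h
    have hc : Fintype.card F - 1 ≠ 0 := by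
      have := Fintype.one_lt_card (α := F)
      omega
    rw [if_neg h', h, zero_pow hc, Nat.cast_zero]
  · rw [if_pos (h1.mpr h), FiniteField.pow_card_sub_one_eq_one _ h, Nat.cast_one]

theorem crd_transvA {g : Matrix.GeneralLinearGroup (Fin n) F} (A : Finset (Fin t))
    (hg : ∀ x, (g : Matrix (Fin n) (Fin n) F) *ᵥ x = x + funA D hInt v 0 A x • vecA D v 0 A)
    (i : Fin t) (x : Fin n → F) :
    crd D hInt v i 0 ((g : Matrix (Fin n) (Fin n) F) *ᵥ x)
      = crd D hInt v i 0 x + funA D hInt v 0 A x * (if i ∈ A then 1 else 0) := by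
  rw [crd_transv D hInt v hg, crd_vecA]
  simp

theorem sum_indicator (A : Finset (Fin t)) :
    ∑ i : Fin t, (if i ∈ A then (1 : F) else 0) = (A.card : F) := by
  classical
  rw [Finset.sum_ite_mem, Finset.univ_inter, Finset.sum_const, nsmul_eq_mul, mul_one]

theorem mem_wt_two (hq : Fintype.card F = 2) (A : Finset (Fin t)) (hA : ((A.card : ℕ) : F) = 0)
    {g : Matrix.GeneralLinearGroup (Fin n) F}
    (hg : ∀ x, (g : Matrix (Fin n) (Fin n) F) *ᵥ x = x + funA D hInt v 0 A x • vecA D v 0 A) :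
    g ∈ wtSubgroup D hInt := by
  classical
  rw [mem_wtSubgroup]
  intro x
  rw [wt_cast_one D hInt v, wt_cast_one D hInt v, hq]
  simp only [Nat.add_one_sub_one, pow_one, crd_transvA D hInt v A hg]
  rw [Finset.sum_add_distrib, ← Finset.mul_sum, sum_indicator, hA, mul_zero, add_zero]

theorem mem_wt_three (hq : Fintype.card F = 3) (A : Finset (Fin t))
    (hA : ((A.card : ℕ) : F) + 2 = 0)
    {g : Matrix.GeneralLinearGroup (Fin n) F}
    (hg : ∀ x, (g : Matrix (Fin n) (Fin n) F) *ᵥ x = x + funA D hInt v 0 A x • vecA D v 0 A) :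
    g ∈ wtSubgroup D hInt := by
  classical
  rw [mem_wtSubgroup]
  intro x
  rw [wt_cast_one D hInt v, wt_cast_one D hInt v, hq]
  simp only [Nat.add_one_sub_one, crd_transvA D hInt v A hg]
  have hs : ∑ i ∈ A, crd D hInt v i 0 x = funA D hInt v 0 A x := (funA_apply D hInt v 0 A x).symm
  set s := funA D hInt v 0 A x with hsdef
  have e : ∀ i : Fin t, (crd D hInt v i 0 x + s * (if i ∈ A then 1 else 0)) ^ 2
      = crd D hInt v i 0 x ^ 2 + (if i ∈ A then (2 * s * crd D hInt v i 0 x + s ^ 2) else 0) := by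
    intro i
    split_ifs <;> ring
  simp only [e]
  rw [Finset.sum_add_distrib, Finset.sum_ite_mem, Finset.univ_inter, Finset.sum_add_distrib,
    ← Finset.mul_sum, Finset.sum_const, nsmul_eq_mul, hs]
  have : 2 * s * s + (A.card : F) * s ^ 2 = ((A.card : F) + 2) * s ^ 2 := by ring
  rw [this, hA, zero_mul, add_zero]

theorem mem_wt_four (hq : Fintype.card F = 4) (A : Finset (Fin t)) (hA : ((A.card : ℕ) : F) = 0)
    {g : Matrix.GeneralLinearGroup (Fin n) F}
    (hg : ∀ x, (g : Matrix (Fin n) (Fin n) F) *ᵥ x = x + funA D hInt v 0 A x • vecA D v 0 A) :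
    g ∈ wtSubgroup D hInt := by
  classical
  have h4 : ((4 : ℕ) : F) = 0 := by rw [← hq]; exact Nat.cast_card_eq_zero F
  have h2 : (2 : F) = 0 := by
    have : (2 : F) * 2 = 0 := by
      have e : ((4 : ℕ) : F) = 2 * 2 := by norm_num
      rw [← e]; exact h4
    exact mul_self_eq_zero.mp this
  haveI : CharP F 2 := CharTwo.of_one_ne_zero_of_two_eq_zero one_ne_zero h2
  rw [mem_wtSubgroup]
  intro x
  rw [wt_cast_one D hInt v, wt_cast_one D hInt v, hq]
  simp only [Nat.add_one_sub_one, crd_transvA D hInt v A hg]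
  have hs : ∑ i ∈ A, crd D hInt v i 0 x = funA D hInt v 0 A x := (funA_apply D hInt v 0 A x).symm
  have hs2 : ∑ i ∈ A, crd D hInt v i 0 x ^ 2 = funA D hInt v 0 A x ^ 2 := by
    rw [← hs, CharTwo.sum_sq]
  set s := funA D hInt v 0 A x with hsdef
  have e : ∀ i : Fin t, (crd D hInt v i 0 x + s * (if i ∈ A then 1 else 0)) ^ 3
      = crd D hInt v i 0 x ^ 3 + (if i ∈ A then
        (3 * s * crd D hInt v i 0 x ^ 2 + 3 * s ^ 2 * crd D hInt v i 0 x + s ^ 3) else 0) := by
    intro i
    split_ifs <;> ring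
  simp only [e]
  rw [Finset.sum_add_distrib, Finset.sum_ite_mem, Finset.univ_inter, Finset.sum_add_distrib,
    Finset.sum_add_distrib, ← Finset.mul_sum, ← Finset.mul_sum, Finset.sum_const, nsmul_eq_mul, hs,
    hs2, hA]
  linear_combination (3 * s ^ 3) * h2

end one

section two

variable (D : Fin t → Submodule F (Fin n → F)) (hInt : DirectSum.IsInternal D)
  (v : ∀ i, Module.Basis (Fin 2) F (D i))

theorem wt_cast_two (hF : ∀ x : F, x = 0 ∨ x = 1) (h2 : (1 : F) + 1 = 0) (x : Fin n → F) :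
    (wt D hInt x : F) = ∑ i, (crd D hInt v i 0 x + crd D hInt v i 1 x
      + crd D hInt v i 0 x * crd D hInt v i 1 x) := by
  classical
  unfold wt
  rw [Finset.card_filter, Nat.cast_sum]
  refine Finset.sum_congr rfl (fun i _ => ?_)
  have h1 : cmp D hInt i x ≠ 0 ↔ (crd D hInt v i 0 x ≠ 0 ∨ crd D hInt v i 1 x ≠ 0) := by
    rw [cmp_ne_zero_iff D hInt v, Fin.exists_fin_two]
  rcases hF (crd D hInt v i 0 x) with hy | hy <;> rcases hF (crd D hInt v i 1 x) with hz | hz
  · rw [if_neg (by rw [h1, hy, hz]; simp), hy, hz]; simp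
  · rw [if_pos (by rw [h1, hy, hz]; simp), hy, hz]; simp
  · rw [if_pos (by rw [h1, hy, hz]; simp), hy, hz]; simp
  · rw [if_pos (by rw [h1, hy, hz]; simp), hy, hz, Nat.cast_one]
    linear_combination (-1 : F) * h2

theorem mem_wt_m2 (hF : ∀ x : F, x = 0 ∨ x = 1) (h2 : (1 : F) + 1 = 0) (A : Finset (Fin t))
    (hA : ((A.card : ℕ) : F) = 1)
    {g : Matrix.GeneralLinearGroup (Fin n) F}
    (hg : ∀ x, (g : Matrix (Fin n) (Fin n) F) *ᵥ x = x + funA D hInt v 1 A x • vecA D v 0 A) :
    g ∈ wtSubgroup D hInt := by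
  classical
  rw [mem_wtSubgroup]
  intro x
  rw [wt_cast_two D hInt v hF h2, wt_cast_two D hInt v hF h2]
  have c0 : ∀ i, crd D hInt v i 0 ((g : Matrix (Fin n) (Fin n) F) *ᵥ x)
      = crd D hInt v i 0 x + funA D hInt v 1 A x * (if i ∈ A then 1 else 0) := by
    intro i; rw [crd_transv D hInt v hg, crd_vecA]; simp
  have c1 : ∀ i, crd D hInt v i 1 ((g : Matrix (Fin n) (Fin n) F) *ᵥ x)
      = crd D hInt v i 1 x := by
    intro i; rw [crd_transv D hInt v hg, crd_vecA]; simp
  simp only [c0, c1]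
  have hs : ∑ i ∈ A, crd D hInt v i 1 x = funA D hInt v 1 A x := (funA_apply D hInt v 1 A x).symm
  set s := funA D hInt v 1 A x with hsdef
  have e : ∀ i : Fin t, (crd D hInt v i 0 x + s * (if i ∈ A then 1 else 0) + crd D hInt v i 1 x
      + (crd D hInt v i 0 x + s * (if i ∈ A then 1 else 0)) * crd D hInt v i 1 x)
      = (crd D hInt v i 0 x + crd D hInt v i 1 x + crd D hInt v i 0 x * crd D hInt v i 1 x)
        + (if i ∈ A then (s + s * crd D hInt v i 1 x) else 0) := by
    intro i
    split_ifs <;> ring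
  simp only [e]
  have hA2 : ∑ i ∈ A, (s + s * crd D hInt v i 1 x) = (A.card : F) * s + s * s := by
    rw [Finset.sum_add_distrib, Finset.sum_const, nsmul_eq_mul, ← Finset.mul_sum, hs]
  rw [Finset.sum_add_distrib, Finset.sum_ite_mem, Finset.univ_inter, hA2, hA]
  rcases hF s with h | h
  · rw [h]; ring
  · rw [h]; linear_combination h2

end two

section assembly

variable (D : Fin t → Submodule F (Fin n → F)) (hInt : DirectSum.IsInternal D)
  {m : ℕ} (v : ∀ i, Module.Basis (Fin m) F (D i))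

omit [Fintype F] in
theorem funA_basis (j j0 : Fin m) (A : Finset (Fin t)) (i0 : Fin t) :
    funA D hInt v j A ((v i0 j0 : D i0) : Fin n → F) = if i0 ∈ A ∧ j = j0 then 1 else 0 := by
  classical
  rw [funA_apply]
  simp only [crd_basis]
  by_cases hj : j = j0
  · subst hj
    simp
  · simp [hj]

omit [Fintype F] in
theorem basis_coe_ne_zero (i0 : Fin t) (j0 : Fin m) : ((v i0 j0 : D i0) : Fin n → F) ≠ 0 := by
  intro h
  exact (v i0).ne_zero j0 (Submodule.coe_eq_zero.mp h)

omit [Fintype F] in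
theorem one_lt_wt_add (j0 j' : Fin m) (A : Finset (Fin t)) (i0 k1 k2 : Fin t) (hk1 : k1 ∈ A)
    (hk2 : k2 ∈ A) (h12 : k1 ≠ k2) (h1 : ¬ (k1 = i0 ∧ j' = j0)) (h2 : ¬ (k2 = i0 ∧ j' = j0)) :
    1 < wt D hInt (((v i0 j0 : D i0) : Fin n → F) + vecA D v j' A) := by
  apply one_lt_wt D hInt h12
  · rw [cmp_ne_zero_iff D hInt v]
    refine ⟨j', ?_⟩
    rw [map_add, crd_basis, crd_vecA, if_neg h1, if_pos ⟨hk1, rfl⟩, zero_add]
    exact one_ne_zero
  · rw [cmp_ne_zero_iff D hInt v]
    refine ⟨j', ?_⟩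
    rw [map_add, crd_basis, crd_vecA, if_neg h2, if_pos ⟨hk2, rfl⟩, zero_add]
    exact one_ne_zero

omit [Fintype F] in
include hInt in
theorem not_stab_of_apply {g : Matrix.GeneralLinearGroup (Fin n) F} (j0 j' : Fin m)
    (A : Finset (Fin t)) (i0 k1 k2 : Fin t) (hk1 : k1 ∈ A)
    (hk2 : k2 ∈ A) (h12 : k1 ≠ k2) (h1 : ¬ (k1 = i0 ∧ j' = j0)) (h2 : ¬ (k2 = i0 ∧ j' = j0))
    (hgx : (g : Matrix (Fin n) (Fin n) F) *ᵥ ((v i0 j0 : D i0) : Fin n → F)
      = ((v i0 j0 : D i0) : Fin n → F) + vecA D v j' A) :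
    g ∉ Geo.decompositionStabilizer D := by
  apply not_stab_of_wt D hInt ((v i0 j0 : D i0) : Fin n → F)
  rw [hgx, wt_of_mem D hInt (Submodule.coe_mem _) (basis_coe_ne_zero D v i0 j0)]
  exact ne_of_gt (one_lt_wt_add D hInt v j0 j' A i0 k1 k2 hk1 hk2 h12 h1 h2)

theorem card_two_facts (hq : Fintype.card F = 2) :
    (∀ x : F, x = 0 ∨ x = 1) ∧ (1 : F) + 1 = 0 := by
  classical
  have hF : ∀ x : F, x = 0 ∨ x = 1 := by
    intro x
    by_contra hx
    push Not at hx
    have h1 : ({0, 1, x} : Finset F).card ≤ Fintype.card F := Finset.card_le_univ _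
    rw [hq] at h1
    have h3 : ({0, 1, x} : Finset F).card = 3 := by
      rw [Finset.card_insert_of_notMem, Finset.card_insert_of_notMem, Finset.card_singleton]
      · rw [Finset.mem_singleton]; exact fun h => hx.2 h.symm
      · rw [Finset.mem_insert, Finset.mem_singleton]
        push Not
        exact ⟨zero_ne_one, fun h => hx.1 h.symm⟩
    omega
  refine ⟨hF, ?_⟩
  rcases hF (1 + 1) with h | h
  · exact h
  · exfalso
    have : (1 : F) = 0 := by linear_combination h
    exact one_ne_zero this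

end assembly

theorem decomp_not_maximal (hn : 13 ≤ n) (m : ℕ) (D : Fin t → Submodule F (Fin n → F))
    (hD : Geo.IsMDecomposition m D)
    (h : (m = 1 ∧ Fintype.card F ≤ 4) ∨ (m = 2 ∧ Fintype.card F = 2)) :
    ∃ K : Subgroup (Matrix.GeneralLinearGroup (Fin n) F),
      Geo.decompositionStabilizer D ⊓ Geo.specialLinear (Fin n) F < K ∧
      K < Geo.specialLinear (Fin n) F := by
  classical
  have hInt : DirectSum.IsInternal D :=
    DirectSum.isInternal_submodule_of_iSupIndep_of_iSup_eq_top hD.indep hD.iSup_eq_top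
  have htm : t * m = n := by
    have h1 := Module.finrank_eq_card_basis
      (hInt.collectedBasis (fun i => Module.finBasisOfFinrankEq F (D i) (hD.finrank_eq i)))
    rw [Module.finrank_fin_fun] at h1
    simp only [Fintype.card_sigma, Fintype.card_fin, Finset.sum_const, Finset.card_univ,
      smul_eq_mul] at h1
    exact h1.symm
  have hm2 : m ≤ 2 := by rcases h with ⟨h, _⟩ | ⟨h, _⟩ <;> omega
  have ht : 5 ≤ t := by
    by_contra hcon
    push Not at hcon
    have : t * m ≤ 4 * 2 := Nat.mul_le_mul (by omega) hm2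
    omega
  have hDne : ∀ i, D i ≠ ⊥ := by
    intro i hi
    have h1 := hD.finrank_eq i
    rw [hi, finrank_bot] at h1
    have h2 := hD.pos
    omega
  set i0 : Fin t := ⟨0, by omega⟩ with hi0
  set i1 : Fin t := ⟨1, by omega⟩ with hi1
  set i2 : Fin t := ⟨2, by omega⟩ with hi2
  set i4 : Fin t := ⟨4, by omega⟩ with hi4
  have h12 : i1 ≠ i2 := by intro h; simpa [hi1, hi2] using congrArg Fin.val h
  have h10 : i1 ≠ i0 := by intro h; simpa [hi1, hi0] using congrArg Fin.val h
  have h20 : i2 ≠ i0 := by intro h; simpa [hi2, hi0] using congrArg Fin.val h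
  have h04 : i0 ≠ i4 := by intro h; simpa [hi4, hi0] using congrArg Fin.val h
  obtain ⟨h0, hh01, hh02⟩ := exists_sl_not_wt D hInt h10 (hDne _) (hDne _)
  suffices hg : ∃ g : Matrix.GeneralLinearGroup (Fin n) F, g ∈ Geo.specialLinear (Fin n) F ∧
      g ∈ wtSubgroup D hInt ∧ g ∉ Geo.decompositionStabilizer D by
    obtain ⟨g, hg1, hg2, hg3⟩ := hg
    refine ⟨wtSubgroup D hInt ⊓ Geo.specialLinear (Fin n) F, ?_, ?_⟩
    · refine lt_of_le_of_ne (inf_le_inf_right _ (stab_le_wtSubgroup D hInt)) ?_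
      intro heq
      have : g ∈ Geo.decompositionStabilizer D ⊓ Geo.specialLinear (Fin n) F := by
        rw [heq]; exact ⟨hg2, hg1⟩
      exact hg3 this.1
    · refine lt_of_le_of_ne inf_le_right ?_
      intro heq
      have : h0 ∈ wtSubgroup D hInt ⊓ Geo.specialLinear (Fin n) F := by rw [heq]; exact hh01
      exact hh02 this.1
  rcases h with ⟨rfl, hq⟩ | ⟨rfl, hq⟩
  · -- summands of dimension one
    let v : ∀ i, Module.Basis (Fin 1) F (D i) :=
      fun i => Module.finBasisOfFinrankEq F (D i) (hD.finrank_eq i)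
    set A : Finset (Fin t) := Finset.image (Fin.castLE (show 4 ≤ t by omega)) Finset.univ
      with hAdef
    have hAcard : A.card = 4 := by
      rw [hAdef, Finset.card_image_of_injective _ (Fin.castLE_injective _), Finset.card_univ,
        Fintype.card_fin]
    have hmemA : ∀ k : Fin t, k ∈ A ↔ k.val < 4 := by
      intro k
      rw [hAdef, Finset.mem_image]
      constructor
      · rintro ⟨j, _, rfl⟩
        simp
      · intro hk
        exact ⟨⟨k.val, hk⟩, Finset.mem_univ _, by ext; simp⟩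
    have hi0A : i0 ∈ A := (hmemA _).mpr (by simp [hi0])
    have hi1A : i1 ∈ A := (hmemA _).mpr (by simp [hi1])
    have hi2A : i2 ∈ A := (hmemA _).mpr (by simp [hi2])
    have hi4A : i4 ∉ A := by rw [hmemA]; simp [hi4]
    have hfa : funA D hInt v 0 A (vecA D v 0 A) = ((4 : ℕ) : F) := by
      rw [funA_vecA, if_pos rfl, hAcard]
    have hq1 := Fintype.one_lt_card (α := F)
    have hcard : Fintype.card F = 2 ∨ Fintype.card F = 3 ∨ Fintype.card F = 4 := by omega
    have hcast := Nat.cast_card_eq_zero F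
    have hx0 : ∀ g : Matrix.GeneralLinearGroup (Fin n) F,
        (∀ x, (g : Matrix (Fin n) (Fin n) F) *ᵥ x = x + funA D hInt v 0 A x • vecA D v 0 A) →
        (g : Matrix (Fin n) (Fin n) F) *ᵥ ((v i0 0 : D i0) : Fin n → F)
          = ((v i0 0 : D i0) : Fin n → F) + vecA D v 0 A := by
      intro g hg
      rw [hg, funA_basis, if_pos ⟨hi0A, rfl⟩, one_smul]
    rcases hcard with hq' | hq' | hq'
    · rw [hq'] at hcast
      have h4 : ((4 : ℕ) : F) = 0 := by
        have : ((4 : ℕ) : F) = ((2 : ℕ) : F) * ((2 : ℕ) : F) := by norm_num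
        rw [this, hcast, mul_zero]
      obtain ⟨g, hg1, hg2⟩ := exists_transvection (funA D hInt v 0 A) (vecA D v 0 A)
        (by rw [hfa, h4])
      refine ⟨g, hg1, mem_wt_two D hInt v hq' A (by rw [hAcard]; exact h4) hg2, ?_⟩
      exact not_stab_of_apply D hInt v 0 0 A i0 i1 i2 hi1A hi2A h12 (fun h => h10 h.1)
        (fun h => h20 h.1) (hx0 g hg2)
    · rw [hq'] at hcast
      have h3 : (3 : F) = 0 := by exact_mod_cast hcast
      have hd1 : 1 + funA D hInt v 0 A (vecA D v 0 A) ≠ 0 := by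
        rw [hfa]
        intro h
        have e : (1 : F) + ((4 : ℕ) : F) = 5 := by norm_num
        rw [e] at h
        have : (1 : F) = 0 := by linear_combination 2 * h3 - h
        exact one_ne_zero this
      obtain ⟨g1, hg1d, hg1⟩ := exists_dilatransvection (funA D hInt v 0 A) (vecA D v 0 A) hd1
      have hfb : funA D hInt v 0 {i4} (vecA D v 0 {i4}) = 1 := by
        rw [funA_vecA, if_pos rfl, Finset.card_singleton, Nat.cast_one]
      have hd2 : 1 + funA D hInt v 0 {i4} (vecA D v 0 {i4}) ≠ 0 := by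
        rw [hfb]
        intro h
        have : (1 : F) = 0 := by linear_combination h3 - h
        exact one_ne_zero this
      obtain ⟨g2, hg2d, hg2⟩ :=
        exists_dilatransvection (funA D hInt v 0 {i4}) (vecA D v 0 {i4}) hd2
      refine ⟨g2 * g1, ?_, ?_, ?_⟩
      · rw [mem_specialLinear_iff, map_mul, Units.val_mul, hg2d, hg1d, hfb, hfa]
        have e : ((1 : F) + 1) * (1 + ((4 : ℕ) : F)) = 10 := by norm_num
        rw [e]
        linear_combination 3 * h3
      · apply Subgroup.mul_mem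
        · refine mem_wt_three D hInt v hq' {i4} ?_ hg2
          rw [Finset.card_singleton]
          have e : ((1 : ℕ) : F) + 2 = 3 := by norm_num
          rw [e, h3]
        · refine mem_wt_three D hInt v hq' A ?_ hg1
          rw [hAcard]
          have e : ((4 : ℕ) : F) + 2 = 6 := by norm_num
          rw [e]
          linear_combination 2 * h3
      · apply not_stab_of_apply D hInt v 0 0 A i0 i1 i2 hi1A hi2A h12 (fun h => h10 h.1)
          (fun h => h20 h.1)
        rw [Units.val_mul, ← Matrix.mulVec_mulVec, hx0 g1 hg1, hg2]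
        have : funA D hInt v 0 {i4} (((v i0 0 : D i0) : Fin n → F) + vecA D v 0 A) = 0 := by
          rw [map_add, funA_basis, funA_apply, Finset.sum_singleton, crd_vecA, if_neg, if_neg,
            add_zero]
          · exact fun h => hi4A h.1
          · intro h
            exact h04 (Finset.mem_singleton.mp h.1)
        rw [this, zero_smul, add_zero]
    · rw [hq'] at hcast
      obtain ⟨g, hg1, hg2⟩ := exists_transvection (funA D hInt v 0 A) (vecA D v 0 A)
        (by rw [hfa]; exact hcast)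
      refine ⟨g, hg1, mem_wt_four D hInt v hq' A (by rw [hAcard]; exact hcast) hg2, ?_⟩
      exact not_stab_of_apply D hInt v 0 0 A i0 i1 i2 hi1A hi2A h12 (fun h => h10 h.1)
        (fun h => h20 h.1) (hx0 g hg2)
  · -- summands of dimension two over the field with two elements
    let v : ∀ i, Module.Basis (Fin 2) F (D i) :=
      fun i => Module.finBasisOfFinrankEq F (D i) (hD.finrank_eq i)
    obtain ⟨hF, h2⟩ := card_two_facts hq
    set A : Finset (Fin t) := Finset.image (Fin.castLE (show 3 ≤ t by omega)) Finset.univ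
      with hAdef
    have hAcard : A.card = 3 := by
      rw [hAdef, Finset.card_image_of_injective _ (Fin.castLE_injective _), Finset.card_univ,
        Fintype.card_fin]
    have hmemA : ∀ k : Fin t, k ∈ A ↔ k.val < 3 := by
      intro k
      rw [hAdef, Finset.mem_image]
      constructor
      · rintro ⟨j, _, rfl⟩
        simp
      · intro hk
        exact ⟨⟨k.val, hk⟩, Finset.mem_univ _, by ext; simp⟩
    have hi0A : i0 ∈ A := (hmemA _).mpr (by simp [hi0])
    have hi1A : i1 ∈ A := (hmemA _).mpr (by simp [hi1])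
    have hi2A : i2 ∈ A := (hmemA _).mpr (by simp [hi2])
    have hfa : funA D hInt v 1 A (vecA D v 0 A) = 0 := by
      rw [funA_vecA, if_neg (by decide)]
    obtain ⟨g, hg1, hg2⟩ := exists_transvection (funA D hInt v 1 A) (vecA D v 0 A) hfa
    refine ⟨g, hg1, mem_wt_m2 D hInt v hF h2 A ?_ hg2, ?_⟩
    · rw [hAcard]
      have e : ((3 : ℕ) : F) = 1 + (1 + 1) := by norm_num
      rw [e, h2, add_zero]
    · apply not_stab_of_apply D hInt v 1 0 A i0 i1 i2 hi1A hi2A h12 (fun h => h10 h.1)
        (fun h => h20 h.1)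
      rw [hg2, funA_basis, if_pos ⟨hi0A, rfl⟩, one_smul]

end Cfsg.Agent.Lib.Helper28
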