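import Cfsg.Agent.Lib.Helper28.Fano7
import Cfsg.Agent.S0355

set_option autoImplicit false
set_option linter.unusedSectionVars false
set_option linter.unusedVariables false

namespace Cfsg.Agent.Lib.Helper28
namespace Ext23

open Cfsg Finset
open Cfsg.Agent.Lib.Helper4 Cfsg.Agent.Lib.Helper28.Plane4 Cfsg.Agent.S0410

variable {γ : Type*} [Fintype γ] [DecidableEq γ]

/-! ### Sets of points with two extra points -/

theorem ins_erase {δ : Type*} [DecidableEq δ] {s : Finset (Option δ)} (hn : none ∈ s) :
    Finset.insertNone (Finset.eraseNone s) = s := by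
  rw [Finset.insertNone_eraseNone, Finset.insert_eq_of_mem hn]

theorem map_erase {δ : Type*} [DecidableEq δ] {s : Finset (Option δ)} (hn : none ∉ s) :
    (Finset.eraseNone s).map Function.Embedding.some = s := by
  rw [Finset.map_some_eraseNone, Finset.erase_eq_of_notMem hn]

/-- A set of plane points, viewed among the twenty-three points. -/
def lift2 (X : Finset γ) : Finset (Option (Option γ)) :=
  (X.map Function.Embedding.some).map Function.Embedding.some

theorem mem_lift2 {X : Finset γ} {m : γ} : some (some m) ∈ lift2 X ↔ m ∈ X := by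
  show Function.Embedding.some (Function.Embedding.some m) ∈ lift2 X ↔ m ∈ X
  rw [lift2, Finset.mem_map', Finset.mem_map']

theorem card_lift2 (X : Finset γ) : (lift2 X).card = X.card := by
  rw [lift2, Finset.card_map, Finset.card_map]

/-- A line with both extra points. -/
def T1 (ℓ : Finset γ) : Finset (Option (Option γ)) := Finset.insertNone (Finset.insertNone ℓ)

/-- A six-point set with the first extra point. -/
def T2 (H : Finset γ) : Finset (Option (Option γ)) :=
  Finset.insertNone (H.map Function.Embedding.some)

/-- A six-point set with the second extra point. -/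
def T3 (H : Finset γ) : Finset (Option (Option γ)) :=
  (Finset.insertNone H).map Function.Embedding.some

theorem mem_T1 {ℓ : Finset γ} {m : γ} : some (some m) ∈ T1 ℓ ↔ m ∈ ℓ := by
  rw [T1, Finset.some_mem_insertNone, Finset.some_mem_insertNone]

theorem mem_T2 {H : Finset γ} {m : γ} : some (some m) ∈ T2 H ↔ m ∈ H := by
  rw [T2, Finset.some_mem_insertNone]
  show Function.Embedding.some m ∈ H.map Function.Embedding.some ↔ m ∈ H
  rw [Finset.mem_map']

theorem mem_T3 {H : Finset γ} {m : γ} : some (some m) ∈ T3 H ↔ m ∈ H := by
  show Function.Embedding.some (some m) ∈ T3 H ↔ m ∈ H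
  rw [T3, Finset.mem_map', Finset.some_mem_insertNone]

theorem none_mem_T1 (ℓ : Finset γ) : none ∈ T1 ℓ := Finset.none_mem_insertNone

theorem none_mem_T2 (H : Finset γ) : none ∈ T2 H := Finset.none_mem_insertNone

theorem none_not_mem_T3 (H : Finset γ) : none ∉ T3 H := by
  intro h
  obtain ⟨x, -, e⟩ := Finset.mem_map.1 h
  exact Option.some_ne_none _ e

theorem none_not_mem_lift2 (X : Finset γ) : none ∉ lift2 X := by
  intro h
  obtain ⟨x, -, e⟩ := Finset.mem_map.1 h
  exact Option.some_ne_none _ e

theorem some_none_mem_T3 (H : Finset γ) : some none ∈ T3 H :=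
  Finset.mem_map.2 ⟨none, Finset.none_mem_insertNone, rfl⟩

theorem some_none_not_mem_lift2 (X : Finset γ) : some none ∉ lift2 X := by
  intro h
  obtain ⟨x, hx, e⟩ := Finset.mem_map.1 h
  have e' : x = none := Option.some_injective _ e
  rw [e'] at hx
  obtain ⟨y, -, e2⟩ := Finset.mem_map.1 hx
  exact Option.some_ne_none _ e2

theorem er_T1 (ℓ : Finset γ) : Finset.eraseNone (Finset.eraseNone (T1 ℓ)) = ℓ := by
  rw [T1, Finset.eraseNone_insertNone, Finset.eraseNone_insertNone]

theorem er_T2 (H : Finset γ) : Finset.eraseNone (Finset.eraseNone (T2 H)) = H := by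
  rw [T2, Finset.eraseNone_insertNone, Finset.eraseNone_map_some]

theorem er_T3 (H : Finset γ) : Finset.eraseNone (Finset.eraseNone (T3 H)) = H := by
  rw [T3, Finset.eraseNone_map_some, Finset.eraseNone_insertNone]

theorem card_lift_inter (X : Finset γ) (S : Finset (Option (Option γ))) :
    (lift2 X ∩ S).card = (X ∩ Finset.eraseNone (Finset.eraseNone S)).card := by
  have h : lift2 X ∩ S = lift2 (X ∩ Finset.eraseNone (Finset.eraseNone S)) := by
    ext z
    rw [Finset.mem_inter]
    rcases z with _ | _ | m
    · constructor
      · intro h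
        exact absurd h.1 (none_not_mem_lift2 X)
      · intro h
        exact absurd h (none_not_mem_lift2 _)
    · constructor
      · intro h
        exact absurd h.1 (some_none_not_mem_lift2 X)
      · intro h
        exact absurd h (some_none_not_mem_lift2 _)
    · rw [mem_lift2, mem_lift2, Finset.mem_inter, Finset.mem_eraseNone, Finset.mem_eraseNone]
  rw [h, card_lift2]

/-- The exchange of the two extra points. -/
def sw : Equiv.Perm (Option (Option γ)) := Equiv.swap none (some none)

theorem sw_none : (sw : Equiv.Perm (Option (Option γ))) none = some none :=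
  Equiv.swap_apply_left _ _

theorem sw_some_none : (sw : Equiv.Perm (Option (Option γ))) (some none) = none :=
  Equiv.swap_apply_right _ _

theorem sw_some_some (m : γ) : (sw : Equiv.Perm (Option (Option γ))) (some (some m))
    = some (some m) :=
  Equiv.swap_apply_of_ne_of_ne (by simp) (by simp)

theorem sw_sw (z : Option (Option γ)) : sw (sw z) = z := Equiv.swap_apply_self _ _ _

theorem mem_image_sw (S : Finset (Option (Option γ))) (z : Option (Option γ)) :
    z ∈ S.image sw ↔ sw z ∈ S := by
  rw [Finset.mem_image]
  constructor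
  · rintro ⟨y, hy, rfl⟩
    rw [sw_sw]
    exact hy
  · intro h
    exact ⟨sw z, h, sw_sw z⟩

theorem image_sw_sw (S : Finset (Option (Option γ))) : (S.image sw).image sw = S := by
  ext z
  rw [mem_image_sw, mem_image_sw, sw_sw]

theorem sw_T1 (ℓ : Finset γ) : (T1 ℓ).image sw = T1 ℓ := by
  ext z
  rw [mem_image_sw]
  rcases z with _ | _ | m
  · rw [sw_none]
    constructor
    · intro _
      exact none_mem_T1 ℓ
    · intro _
      exact Finset.some_mem_insertNone.2 Finset.none_mem_insertNone
  · rw [sw_some_none]
    constructor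
    · intro _
      exact Finset.some_mem_insertNone.2 Finset.none_mem_insertNone
    · intro _
      exact none_mem_T1 ℓ
  · rw [sw_some_some]

theorem sw_T2 (H : Finset γ) : (T2 H).image sw = T3 H := by
  ext z
  rw [mem_image_sw]
  rcases z with _ | _ | m
  · rw [sw_none]
    constructor
    · intro h
      exfalso
      rw [T2, Finset.some_mem_insertNone] at h
      obtain ⟨y, -, e⟩ := Finset.mem_map.1 h
      exact Option.some_ne_none _ e
    · intro h
      exact absurd h (none_not_mem_T3 H)
  · rw [sw_some_none]
    constructor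
    · intro _
      exact some_none_mem_T3 H
    · intro _
      exact none_mem_T2 H
  · rw [sw_some_some, mem_T2, mem_T3]

/-! ### The standard extension -/

/-- The seven-point sets of the fourth kind. -/
def Fan (L : Set (Finset γ)) (H1 H2 : Finset γ) : Set (Finset γ) :=
  {X | IsFano L X ∧ (∀ H ∈ Cls L H1, (X ∩ H).card = 1 ∨ (X ∩ H).card = 3) ∧
    (∀ H ∈ Cls L H2, (X ∩ H).card = 1 ∨ (X ∩ H).card = 3)}

/-- The system on twenty-three points attached to a plane and two hyperovals. -/
def S23 (L : Set (Finset γ)) (H1 H2 : Finset γ) : Set (Finset (Option (Option γ))) :=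
  {b | (∃ ℓ ∈ L, b = T1 ℓ) ∨ (∃ H ∈ Cls L H1, b = T2 H) ∨ (∃ H ∈ Cls L H2, b = T3 H) ∨
    (∃ X ∈ Fan L H1 H2, b = lift2 X)}

/-- A system on twenty-three points is determined by its doubly derived plane and two blocks,
one through each of the two extra points. -/
theorem ext_eq (hγ : Fintype.card γ = 21) {B : Set (Finset (Option (Option γ)))}
    (hB : IsSteinerSystem 4 7 B) {H1 H2 : Finset γ} (h1 : T2 H1 ∈ B) (h2 : T3 H2 ∈ B) :
    B = S23 (der (der B)) H1 H2 := by
  have c22 : Fintype.card (Option γ) = 22 := by rw [Fintype.card_option, hγ]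
  have c23 : Fintype.card (Option (Option γ)) = 23 := by rw [Fintype.card_option, c22]
  have hD : IsSteinerSystem 3 6 (der B) := der_steiner hB
  have hL : IsSteinerSystem 2 5 (der (der B)) := der_steiner hD
  have hB' : IsSteinerSystem 4 7 ((fun b : Finset (Option (Option γ)) => b.image sw) '' B) :=
    steiner_image sw hB
  have hD' : IsSteinerSystem 3 6
      (der ((fun b : Finset (Option (Option γ)) => b.image sw) '' B)) := der_steiner hB'
  have f2 : ∀ c : Finset (Option γ),
      c ∈ der ((fun b : Finset (Option (Option γ)) => b.image sw) '' B)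
        ↔ (Finset.insertNone c).image sw ∈ B := by
    intro c
    constructor
    · rintro ⟨b, hb, e⟩
      have e' : (Finset.insertNone c).image sw = b := by
        rw [← e]
        exact image_sw_sw b
      rw [e']
      exact hb
    · intro h
      exact ⟨_, h, image_sw_sw _⟩
  have f3 : der (der ((fun b : Finset (Option (Option γ)) => b.image sw) '' B))
      = der (der B) := by
    ext ℓ
    show Finset.insertNone ℓ ∈ der ((fun b : Finset (Option (Option γ)) => b.image sw) '' B)
      ↔ T1 ℓ ∈ B
    rw [f2]
    show (T1 ℓ).image sw ∈ B ↔ T1 ℓ ∈ B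
    rw [sw_T1]
  have f4 : ∀ H : Finset γ, H.map Function.Embedding.some
      ∈ der ((fun b : Finset (Option (Option γ)) => b.image sw) '' B) ↔ T3 H ∈ B := by
    intro H
    rw [f2]
    show (T2 H).image sw ∈ B ↔ T3 H ∈ B
    rw [sw_T2]
  have cls1 : ∀ H : Finset γ, T2 H ∈ B ↔ H ∈ Cls (der (der B)) H1 :=
    fun H => cls_iff hγ hD h1 H
  have cls2 : ∀ H : Finset γ, T3 H ∈ B ↔ H ∈ Cls (der (der B)) H2 := by
    intro H
    rw [← f4, cls_iff hγ hD' ((f4 H2).2 h2) H, f3]
  have inter : ∀ b c : Finset (Option (Option γ)), b ∈ B → c ∈ B → b ≠ c →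
      (b ∩ c).card = 1 ∨ (b ∩ c).card = 3 :=
    fun b c hb hc hbc => Cfsg.Agent.S0355.result c23 hB hb hc hbc
  have cl : ∀ b ∈ B, b ∈ S23 (der (der B)) H1 H2 := by
    intro b hb
    by_cases hn : none ∈ b
    · have hc : Finset.eraseNone b ∈ der B := by
        show Finset.insertNone (Finset.eraseNone b) ∈ B
        rw [ins_erase hn]
        exact hb
      by_cases hn' : none ∈ Finset.eraseNone b
      · left
        refine ⟨Finset.eraseNone (Finset.eraseNone b), ?_, ?_⟩
        · show Finset.insertNone (Finset.eraseNone (Finset.eraseNone b)) ∈ der B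
          rw [ins_erase hn']
          exact hc
        · show b = Finset.insertNone (Finset.insertNone (Finset.eraseNone (Finset.eraseNone b)))
          rw [ins_erase hn', ins_erase hn]
      · right
        left
        have e : T2 (Finset.eraseNone (Finset.eraseNone b)) = b := by
          show Finset.insertNone ((Finset.eraseNone (Finset.eraseNone b)).map
            Function.Embedding.some) = b
          rw [map_erase hn', ins_erase hn]
        refine ⟨Finset.eraseNone (Finset.eraseNone b), ?_, e.symm⟩
        rw [← cls1, e]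
        exact hb
    · have e : (Finset.eraseNone b).map Function.Embedding.some = b := map_erase hn
      by_cases hn' : none ∈ Finset.eraseNone b
      · right
        right
        left
        have e3 : T3 (Finset.eraseNone (Finset.eraseNone b)) = b := by
          show (Finset.insertNone (Finset.eraseNone (Finset.eraseNone b))).map
            Function.Embedding.some = b
          rw [ins_erase hn', e]
        refine ⟨Finset.eraseNone (Finset.eraseNone b), ?_, e3.symm⟩
        rw [← cls2, e3]
        exact hb
      · right
        right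
        right
        have eX : lift2 (Finset.eraseNone (Finset.eraseNone b)) = b := by
          show ((Finset.eraseNone (Finset.eraseNone b)).map Function.Embedding.some).map
            Function.Embedding.some = b
          rw [map_erase hn', e]
        have hsn : some none ∉ b := fun h => hn' (Finset.mem_eraseNone.2 h)
        refine ⟨Finset.eraseNone (Finset.eraseNone b), ⟨⟨?_, ?_⟩, ?_, ?_⟩, eX.symm⟩
        · rw [← card_lift2, eX]
          exact hB.1 b hb
        · intro ℓ hℓ
          have hne : b ≠ T1 ℓ := fun e' => hn (e' ▸ none_mem_T1 ℓ)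
          have h3 := inter b (T1 ℓ) hb hℓ hne
          rw [← eX, card_lift_inter, er_T1] at h3
          exact h3
        · intro H hH
          have hne : b ≠ T2 H := fun e' => hn (e' ▸ none_mem_T2 H)
          have h3 := inter b (T2 H) hb ((cls1 H).2 hH) hne
          rw [← eX, card_lift_inter, er_T2] at h3
          exact h3
        · intro H hH
          have hne : b ≠ T3 H := fun e' => hsn (e' ▸ some_none_mem_T3 H)
          have h3 := inter b (T3 H) hb ((cls2 H).2 hH) hne
          rw [← eX, card_lift_inter, er_T3] at h3
          exact h3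
  ext b
  constructor
  · exact cl b
  · rintro (⟨ℓ, hℓ, rfl⟩ | ⟨H, hH, rfl⟩ | ⟨H, hH, rfl⟩ | ⟨X, hX, rfl⟩)
    · exact hℓ
    · exact (cls1 H).2 hH
    · exact (cls2 H).2 hH
    · obtain ⟨Q, hQX, hQ4, hQ⟩ := fano_arc hγ hL hX.1
      have h4 : (lift2 Q).card = 4 := by rw [card_lift2, hQ4]
      obtain ⟨b, ⟨hb, hsub⟩, -⟩ := hB.2 (lift2 Q) h4
      have hsub' : ∀ m ∈ Q, some (some m) ∈ b := fun m hm => hsub (mem_lift2.2 hm)
      rcases cl b hb with ⟨ℓ, hℓ, rfl⟩ | ⟨H, hH, rfl⟩ | ⟨H, hH, rfl⟩ | ⟨X', hX', rfl⟩
      · exfalso
        have hQℓ : Q ⊆ ℓ := fun m hm => mem_T1.1 (hsub' m hm)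
        have h5 := hQ ℓ hℓ
        rw [Finset.inter_eq_right.2 hQℓ, hQ4] at h5
        omega
      · exfalso
        have hQH : Q ⊆ H := fun m hm => mem_T2.1 (hsub' m hm)
        have h5 := hX.2.1 H hH
        have h6 : 4 ≤ (X ∩ H).card := by
          rw [← hQ4]
          exact Finset.card_le_card (Finset.subset_inter hQX hQH)
        omega
      · exfalso
        have hQH : Q ⊆ H := fun m hm => mem_T3.1 (hsub' m hm)
        have h5 := hX.2.2 H hH
        have h6 : 4 ≤ (X ∩ H).card := by
          rw [← hQ4]
          exact Finset.card_le_card (Finset.subset_inter hQX hQH)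
        omega
      · have hQX' : Q ⊆ X' := fun m hm => mem_lift2.1 (hsub' m hm)
        have e := fano_unique hγ hL hX.1 hX'.1 hQX hQX' hQ4 hQ
        rw [e]
        exact hb

end Ext23
end Cfsg.Agent.Lib.Helper28
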