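import Cfsg.Agent.Lib.Helper28.Aut22

set_option autoImplicit false
set_option linter.unusedSectionVars false
set_option linter.unusedVariables false

namespace Cfsg.Agent.Lib.Helper28
namespace Plane4

open Cfsg Finset
open Cfsg.Agent.Lib.Helper4 Cfsg.Agent.S0410

variable {α : Type*} [Fintype α] [DecidableEq α]

/-! ### Seven-point sets meeting every line in one or three points -/

/-- A seven-point set meeting every line in one or three points. -/
def IsFano (L : Set (Finset α)) (X : Finset α) : Prop :=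
  X.card = 7 ∧ ∀ ℓ ∈ L, (X ∩ ℓ).card = 1 ∨ (X ∩ ℓ).card = 3

theorem fano_three {L : Set (Finset α)} {X : Finset α} (hX : IsFano L X) {ℓ : Finset α}
    (hℓ : ℓ ∈ L) {a b : α} (hab : a ≠ b) (ha : a ∈ X) (hb : b ∈ X) (haℓ : a ∈ ℓ) (hbℓ : b ∈ ℓ) :
    (X ∩ ℓ).card = 3 := by
  rcases hX.2 ℓ hℓ with h | h
  · exfalso
    exact hab (Finset.card_le_one.1 (le_of_eq h) a (Finset.mem_inter.2 ⟨ha, haℓ⟩) b
      (Finset.mem_inter.2 ⟨hb, hbℓ⟩))
  · exact h

/-- Two lines meeting the set in three points meet each other in a point of the set. -/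
theorem fano_meet (hα : Fintype.card α = 21) {L : Set (Finset α)} (hL : IsSteinerSystem 2 5 L)
    {X : Finset α} (hX : IsFano L X) {m m' : Finset α} (hm : m ∈ L) (hm' : m' ∈ L)
    (hne : m ≠ m') (c : (X ∩ m).card = 3) (c' : (X ∩ m').card = 3) {z : α} (hz : z ∈ m)
    (hz' : z ∈ m') : z ∈ X := by
  by_contra hzX
  have huniq : ∀ y, y ∈ m → y ∈ m' → y = z := by
    intro y hy hy'
    by_contra hyz
    exact hne (line_unique hL hm hm' hyz hy hz hy' hz')
  obtain ⟨u, hu⟩ : (X ∩ m).Nonempty := by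
    rw [← Finset.card_pos, c]
    norm_num
  obtain ⟨huX, hum⟩ := Finset.mem_inter.1 hu
  have hum' : u ∉ m' := fun h => hzX (huniq u hum h ▸ huX)
  obtain ⟨a, b, c0, hab, hac, hbc, he⟩ := Finset.card_eq_three.1 c'
  have ha : a ∈ X ∩ m' := by rw [he]; simp
  have hb : b ∈ X ∩ m' := by rw [he]; simp
  obtain ⟨haX, ham'⟩ := Finset.mem_inter.1 ha
  obtain ⟨hbX, hbm'⟩ := Finset.mem_inter.1 hb
  have third : ∀ p, p ∈ X → p ∈ m' → ∃ w, w ∈ X ∧ w ∈ ln L u p ∧ w ∉ m ∧ w ∉ m' := by
    intro p hpX hpm'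
    have hup : u ≠ p := fun e => hum' (e ▸ hpm')
    obtain ⟨hl, hul, hpl⟩ := ln_spec hL hup
    have c3' := fano_three hX hl hup huX hpX hul hpl
    obtain ⟨w, hw, hwn⟩ : ∃ w ∈ X ∩ ln L u p, w ∉ ({u, p} : Finset α) := by
      apply Finset.exists_mem_notMem_of_card_lt_card
      rw [c3', Finset.card_pair hup]
      norm_num
    simp only [Finset.mem_insert, Finset.mem_singleton, not_or] at hwn
    obtain ⟨hwX, hwl⟩ := Finset.mem_inter.1 hw
    refine ⟨w, hwX, hwl, ?_, ?_⟩
    · intro hwm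
      have e : ln L u p = m := line_unique hL hl hm (Ne.symm hwn.1) hul hwl hum hwm
      have e2 : p = z := huniq p (e ▸ hpl) hpm'
      exact hzX (e2 ▸ hpX)
    · intro hwm'
      have e : ln L u p = m' := line_unique hL hl hm' (Ne.symm hwn.2) hpl hwl hpm' hwm'
      exact hum' (e ▸ hul)
  obtain ⟨wa, waX, wal, wam, wam'⟩ := third a haX ham'
  obtain ⟨wb, wbX, wbl, wbm, wbm'⟩ := third b hbX hbm'
  have hdisj : Disjoint (X ∩ m) (X ∩ m') := by
    rw [Finset.disjoint_left]
    intro y hy hy'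
    have e2 : y = z := huniq y (Finset.mem_inter.1 hy).2 (Finset.mem_inter.1 hy').2
    exact hzX (e2 ▸ (Finset.mem_inter.1 hy).1)
  have hR : (X \ ((X ∩ m) ∪ (X ∩ m'))).card = 1 := by
    rw [Finset.card_sdiff_of_subset
      (Finset.union_subset Finset.inter_subset_left Finset.inter_subset_left),
      Finset.card_union_of_disjoint hdisj, c, c', hX.1]
  have memR : ∀ w, w ∈ X → w ∉ m → w ∉ m' → w ∈ X \ ((X ∩ m) ∪ (X ∩ m')) := by
    intro w hw h1 h2
    rw [Finset.mem_sdiff, Finset.mem_union, Finset.mem_inter, Finset.mem_inter]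
    exact ⟨hw, fun h => h.elim (fun h => h1 h.2) (fun h => h2 h.2)⟩
  have hww : wa = wb := Finset.card_le_one.1 (le_of_eq hR) wa (memR wa waX wam wam') wb
    (memR wb wbX wbm wbm')
  have hua : u ≠ a := fun e => hum' (e ▸ ham')
  have hub : u ≠ b := fun e => hum' (e ▸ hbm')
  have huw : u ≠ wa := fun e => wam (e ▸ hum)
  have e : ln L u a = ln L u b := line_unique hL (ln_spec hL hua).1 (ln_spec hL hub).1 huw
    (ln_spec hL hua).2.1 wal (ln_spec hL hub).2.1 (hww ▸ wbl)
  have hb' : b ∈ ln L u a := e ▸ (ln_spec hL hub).2.2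
  have e' : ln L u a = m' := line_unique hL (ln_spec hL hua).1 hm' hab (ln_spec hL hua).2.2 hb'
    ham' hbm'
  exact hum' (e' ▸ (ln_spec hL hua).2.1)

/-- The set contains four points no three of which are collinear. -/
theorem fano_arc (hα : Fintype.card α = 21) {L : Set (Finset α)} (hL : IsSteinerSystem 2 5 L)
    {X : Finset α} (hX : IsFano L X) : ∃ Q : Finset α, Q ⊆ X ∧ Q.card = 4 ∧ IsArc L Q := by
  obtain ⟨x, y, hxy, hx, hy⟩ : ∃ x y, x ≠ y ∧ x ∈ X ∧ y ∈ X := by
    have h1 : 1 < X.card := by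
      rw [hX.1]
      norm_num
    obtain ⟨x, hx, y, hy, hxy⟩ := Finset.one_lt_card.1 h1
    exact ⟨x, y, hxy, hx, hy⟩
  obtain ⟨hl, hxl, hyl⟩ := ln_spec hL hxy
  have c := fano_three hX hl hxy hx hy hxl hyl
  refine ⟨X \ ln L x y, Finset.sdiff_subset, ?_, ?_⟩
  · have h2 := Finset.card_sdiff_add_card_inter X (ln L x y)
    rw [c, hX.1] at h2
    omega
  · intro m hm
    by_contra hcon
    push Not at hcon
    have hsub : m ∩ (X \ ln L x y) ⊆ X ∩ m := by
      intro w hw
      rw [Finset.mem_inter, Finset.mem_sdiff] at hw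
      exact Finset.mem_inter.2 ⟨hw.2.1, hw.1⟩
    have c1 : (X ∩ m).card = 3 := by
      rcases hX.2 m hm with h | h
      · have h3 := Finset.card_le_card hsub
        omega
      · exact h
    have hne : m ≠ ln L x y := by
      intro e
      rw [e] at hcon
      have h3 : ln L x y ∩ (X \ ln L x y) = ∅ := by
        ext w
        simp
      rw [h3] at hcon
      simp at hcon
    obtain ⟨z, hzm, hzl⟩ := lines_meet hα hL hm hl
    have hzX := fano_meet hα hL hX hm hl hne c1 c hzm hzl
    have hsub2 : insert z (m ∩ (X \ ln L x y)) ⊆ X ∩ m := by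
      intro w hw
      rw [Finset.mem_insert] at hw
      rcases hw with rfl | hw
      · exact Finset.mem_inter.2 ⟨hzX, hzm⟩
      · exact hsub hw
    have hzn : z ∉ m ∩ (X \ ln L x y) := by
      intro h
      rw [Finset.mem_inter, Finset.mem_sdiff] at h
      exact h.2.2 hzl
    have h4 := Finset.card_le_card hsub2
    rw [Finset.card_insert_of_notMem hzn, c1] at h4
    omega

/-- Every line through a point of the four-point arc that meets the set in three points
contains a second point of the arc. -/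
theorem fano_side (hα : Fintype.card α = 21) {L : Set (Finset α)} (hL : IsSteinerSystem 2 5 L)
    {X : Finset α} (hX : IsFano L X) {Q : Finset α} (hQX : Q ⊆ X) (hQ4 : Q.card = 4)
    (hQ : IsArc L Q) {q : α} (hq : q ∈ Q) {m : Finset α} (hm : m ∈ L) (hqm : q ∈ m)
    (c : (X ∩ m).card = 3) : ∃ q' ∈ Q, q' ≠ q ∧ q' ∈ m := by
  by_contra hcon
  push Not at hcon
  obtain ⟨a, b, d, hab, had, hbd, he⟩ := Finset.card_eq_three.1
    (by rw [Finset.card_erase_of_mem hq, hQ4] : (Q.erase q).card = 3)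
  have mem : ∀ p, p ∈ ({a, b, d} : Finset α) → p ∈ Q ∧ p ≠ q := by
    intro p hp
    rw [← he, Finset.mem_erase] at hp
    exact ⟨hp.2, hp.1⟩
  obtain ⟨haQ, haq⟩ := mem a (by simp)
  obtain ⟨hbQ, hbq⟩ := mem b (by simp)
  obtain ⟨hdQ, hdq⟩ := mem d (by simp)
  have hqX := hQX hq
  have la := ln_spec hL (Ne.symm haq)
  have lb := ln_spec hL (Ne.symm hbq)
  have ld := ln_spec hL (Ne.symm hdq)
  have ca := fano_three hX la.1 (Ne.symm haq) hqX (hQX haQ) la.2.1 la.2.2
  have cb := fano_three hX lb.1 (Ne.symm hbq) hqX (hQX hbQ) lb.2.1 lb.2.2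
  have cd := fano_three hX ld.1 (Ne.symm hdq) hqX (hQX hdQ) ld.2.1 ld.2.2
  have n1 : m ≠ ln L q a := fun e => hcon a haQ haq (e ▸ la.2.2)
  have n2 : m ≠ ln L q b := fun e => hcon b hbQ hbq (e ▸ lb.2.2)
  have n3 : m ≠ ln L q d := fun e => hcon d hdQ hdq (e ▸ ld.2.2)
  have n4 : ln L q a ≠ ln L q b := by
    intro e
    have h2 : b ∈ ln L q a := e ▸ lb.2.2
    exact no_three hQ la.1 la.2.1 la.2.2 h2 hq haQ hbQ (Ne.symm haq) (Ne.symm hbq) hab
  have n5 : ln L q a ≠ ln L q d := by
    intro e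
    have h2 : d ∈ ln L q a := e ▸ ld.2.2
    exact no_three hQ la.1 la.2.1 la.2.2 h2 hq haQ hdQ (Ne.symm haq) (Ne.symm hdq) had
  have n6 : ln L q b ≠ ln L q d := by
    intro e
    have h2 : d ∈ ln L q b := e ▸ ld.2.2
    exact no_three hQ lb.1 lb.2.1 lb.2.2 h2 hq hbQ hdQ (Ne.symm hbq) (Ne.symm hdq) hbd
  have disj : ∀ l1 l2 : Finset α, l1 ∈ L → l2 ∈ L → l1 ≠ l2 → q ∈ l1 → q ∈ l2 →
      Disjoint ((X ∩ l1).erase q) ((X ∩ l2).erase q) := by
    intro l1 l2 h1 h2 hne hq1 hq2
    rw [Finset.disjoint_left]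
    intro y hy hy'
    rw [Finset.mem_erase, Finset.mem_inter] at hy hy'
    exact hne (line_unique hL h1 h2 (Ne.symm hy.1) hq1 hy.2.2 hq2 hy'.2.2)
  have hc2 : ∀ l : Finset α, (X ∩ l).card = 3 → q ∈ l → ((X ∩ l).erase q).card = 2 := by
    intro l hl hql
    rw [Finset.card_erase_of_mem (Finset.mem_inter.2 ⟨hqX, hql⟩), hl]
  have d1 := disj m (ln L q a) hm la.1 n1 hqm la.2.1
  have d2 : Disjoint ((X ∩ m).erase q ∪ (X ∩ ln L q a).erase q) ((X ∩ ln L q b).erase q) :=
    Finset.disjoint_union_left.2 ⟨disj m _ hm lb.1 n2 hqm lb.2.1,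
      disj _ _ la.1 lb.1 n4 la.2.1 lb.2.1⟩
  have d3 : Disjoint ((X ∩ m).erase q ∪ (X ∩ ln L q a).erase q ∪ (X ∩ ln L q b).erase q)
      ((X ∩ ln L q d).erase q) :=
    Finset.disjoint_union_left.2 ⟨Finset.disjoint_union_left.2
      ⟨disj m _ hm ld.1 n3 hqm ld.2.1, disj _ _ la.1 ld.1 n5 la.2.1 ld.2.1⟩,
      disj _ _ lb.1 ld.1 n6 lb.2.1 ld.2.1⟩
  have hsub : (X ∩ m).erase q ∪ (X ∩ ln L q a).erase q ∪ (X ∩ ln L q b).erase q
      ∪ (X ∩ ln L q d).erase q ⊆ X.erase q := by
    intro y hy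
    simp only [Finset.mem_union, Finset.mem_erase, Finset.mem_inter] at hy ⊢
    tauto
  have hcard := Finset.card_le_card hsub
  rw [Finset.card_union_of_disjoint d3, Finset.card_union_of_disjoint d2,
    Finset.card_union_of_disjoint d1, hc2 m c hqm, hc2 _ ca la.2.1, hc2 _ cb lb.2.1,
    hc2 _ cd ld.2.1, Finset.card_erase_of_mem hqX, hX.1] at hcard
  omega

/-- Two such sets sharing a four-point arc are equal. -/
theorem fano_unique (hα : Fintype.card α = 21) {L : Set (Finset α)}
    (hL : IsSteinerSystem 2 5 L) {X X' : Finset α} (hX : IsFano L X) (hX' : IsFano L X')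
    {Q : Finset α} (hQX : Q ⊆ X) (hQX' : Q ⊆ X') (hQ4 : Q.card = 4) (hQ : IsArc L Q) :
    X = X' := by
  have key : ∀ {Y Y' : Finset α}, IsFano L Y → IsFano L Y' → Q ⊆ Y → Q ⊆ Y' → Y ⊆ Y' := by
    intro Y Y' hY hY' hQY hQY' x hx
    by_cases hxQ : x ∈ Q
    · exact hQY' hxQ
    obtain ⟨q1, hq1⟩ : Q.Nonempty := by
      rw [← Finset.card_pos, hQ4]
      norm_num
    have hxq1 : x ≠ q1 := fun e => hxQ (e ▸ hq1)
    obtain ⟨l1, hxl1, hq1l1⟩ := ln_spec hL hxq1
    have c1 := fano_three hY l1 hxq1 hx (hQY hq1) hxl1 hq1l1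
    obtain ⟨q1', hq1'Q, hq1'ne, hq1'l⟩ := fano_side hα hL hY hQY hQ4 hQ hq1 l1 hq1l1 c1
    obtain ⟨q2, hq2, hq2n⟩ : ∃ q2 ∈ Q, q2 ∉ ({q1, q1'} : Finset α) := by
      apply Finset.exists_mem_notMem_of_card_lt_card
      have h2 : ({q1, q1'} : Finset α).card ≤ 2 :=
        (Finset.card_insert_le _ _).trans (by rw [Finset.card_singleton])
      omega
    simp only [Finset.mem_insert, Finset.mem_singleton, not_or] at hq2n
    have hxq2 : x ≠ q2 := fun e => hxQ (e ▸ hq2)
    obtain ⟨l2, hxl2, hq2l2⟩ := ln_spec hL hxq2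
    have c2 := fano_three hY l2 hxq2 hx (hQY hq2) hxl2 hq2l2
    obtain ⟨q2', hq2'Q, hq2'ne, hq2'l⟩ := fano_side hα hL hY hQY hQ4 hQ hq2 l2 hq2l2 c2
    have hne : ln L x q1 ≠ ln L x q2 := by
      intro e
      have h2 : q2 ∈ ln L x q1 := e ▸ hq2l2
      exact no_three hQ l1 hq1l1 hq1'l h2 hq1 hq1'Q hq2 (Ne.symm hq1'ne) (Ne.symm hq2n.1)
        (Ne.symm hq2n.2)
    have c1' := fano_three hY' l1 (Ne.symm hq1'ne) (hQY' hq1) (hQY' hq1'Q) hq1l1 hq1'l
    have c2' := fano_three hY' l2 (Ne.symm hq2'ne) (hQY' hq2) (hQY' hq2'Q) hq2l2 hq2'l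
    exact fano_meet hα hL hY' l1 l2 hne c1' c2' hxl1 hxl2
  exact Finset.Subset.antisymm (key hX hX' hQX hQX') (key hX' hX hQX' hQX)

/-! ### Classes of hyperovals -/

theorem der_image {γ δ : Type*} [DecidableEq γ] [DecidableEq δ] (e : γ ≃ δ)
    (B1 : Set (Finset (Option γ))) :
    der ((fun b : Finset (Option γ) => b.image (Equiv.optionCongr e)) '' B1)
      = (fun b : Finset γ => b.image e) '' der B1 := by
  ext ℓ
  constructor
  · rintro ⟨b, hb, e'⟩
    refine ⟨ℓ.image e.symm, ?_, ?_⟩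
    · show Finset.insertNone (ℓ.image e.symm) ∈ B1
      have h' : Finset.insertNone (ℓ.image e.symm) = b := by
        rw [← image_insertNone e.symm ℓ, ← e', image_oc_symm]
      rw [h']
      exact hb
    · show (ℓ.image e.symm).image e = ℓ
      rw [Finset.image_image]
      have h' : e ∘ e.symm = id := by
        funext x
        simp
      rw [h', Finset.image_id]
  · rintro ⟨ℓ1, hℓ1, rfl⟩
    exact ⟨Finset.insertNone ℓ1, hℓ1, image_insertNone e ℓ1⟩

/-- The class of a hyperoval: the hyperovals meeting it in zero, two or six points. -/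
def Cls (L : Set (Finset α)) (H0 : Finset α) : Set (Finset α) :=
  {H | IsHyp L H ∧ ((H ∩ H0).card = 0 ∨ (H ∩ H0).card = 2 ∨ H = H0)}

theorem hyp_image {β : Type*} [Fintype β] [DecidableEq β] (e : α ≃ β) {L : Set (Finset α)}
    {H : Finset α} (hH : IsHyp L H) : IsHyp ((fun b : Finset α => b.image e) '' L) (H.image e) := by
  refine ⟨by rw [Finset.card_image_of_injective _ e.injective]; exact hH.1, ?_⟩
  rintro _ ⟨ℓ, hℓ, rfl⟩
  show (ℓ.image e ∩ H.image e).card ≤ 2
  rw [← Finset.image_inter _ _ e.injective, Finset.card_image_of_injective _ e.injective]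
  exact hH.2 ℓ hℓ

/-- In a system on twenty-two points, the blocks missing the extra point are exactly the
hyperovals of the derived plane in the class of any one of them. -/
theorem cls_iff (hα : Fintype.card α = 21) {D : Set (Finset (Option α))}
    (hD : IsSteinerSystem 3 6 D) {H0 : Finset α} (h0 : H0.map Function.Embedding.some ∈ D)
    (H : Finset α) : H.map Function.Embedding.some ∈ D ↔ H ∈ Cls (der D) H0 := by
  have c22 : Fintype.card (Option α) = 22 := by rw [Fintype.card_option, hα]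
  have hyp : ∀ K : Finset α, K.map Function.Embedding.some ∈ D → IsHyp (der D) K := by
    intro K hK
    have h := (blk_hyp c22 hD hK (by simp)).1
    rwa [Finset.eraseNone_map_some] at h
  constructor
  · intro hH
    refine ⟨hyp H hH, ?_⟩
    by_cases e : H = H0
    · exact Or.inr (Or.inr e)
    · have hne : H0.map Function.Embedding.some ≠ H.map Function.Embedding.some :=
        fun e' => e (Finset.map_injective _ e').symm
      have h := Steiner.s3622_inter c22 hD h0 hH hne
      rw [← Finset.map_inter, Finset.card_map] at h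
      rcases h with h | h
      · exact Or.inl h
      · exact Or.inr (Or.inl h)
  · rintro ⟨hH, hc⟩
    have hL : IsSteinerSystem 2 5 (der D) := der_steiner hD
    have hH0 := hyp H0 h0
    obtain ⟨h, hinj, hr⟩ := exists_label H0 hH0.1
    obtain ⟨e, he, hLM⟩ := model_iso hα hL hH0 h hinj hr
    have hD' : IsSteinerSystem 3 6 ((fun b => b.image (Equiv.optionCongr e)) '' D) :=
      steiner_image _ hD
    have hder : der ((fun b => b.image (Equiv.optionCongr e)) '' D) = LM := by
      rw [der_image, hLM]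
    have himg : H0.image e = Hstd := by
      ext z
      rw [Finset.mem_image, mem_Hstd]
      constructor
      · rintro ⟨x, hx, rfl⟩
        obtain ⟨i, rfl⟩ := (hr x).1 hx
        exact ⟨i, (he i).symm⟩
      · rintro ⟨i, rfl⟩
        exact ⟨h i, (hr _).2 ⟨i, rfl⟩, he i⟩
    have hstd : Hstd.map Function.Embedding.some
        ∈ (fun b => b.image (Equiv.optionCongr e)) '' D := by
      refine ⟨_, h0, ?_⟩
      show (H0.map Function.Embedding.some).image (Equiv.optionCongr e)
        = Hstd.map Function.Embedding.some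
      rw [image_map_some, himg]
    have heq := std_eq hD' hder hstd
    have hmem : (H.image e).map Function.Embedding.some ∈ Bstd := by
      right
      refine ⟨H.image e, ⟨?_, ?_⟩, rfl⟩
      · have h3 := hyp_image e hH
        rwa [hLM] at h3
      · rw [← himg, ← Finset.image_inter _ _ e.injective,
          Finset.card_image_of_injective _ e.injective]
        rcases hc with h | h | h
        · exact Or.inl h
        · exact Or.inr (Or.inl h)
        · right
          right
          rw [h]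
    rw [← heq] at hmem
    obtain ⟨b, hb, e'⟩ := hmem
    have e'' : b = H.map Function.Embedding.some := by
      have h1 : b.image (Equiv.optionCongr e)
          = (H.map Function.Embedding.some).image (Equiv.optionCongr e) := by
        rw [image_map_some]
        exact e'
      exact Finset.image_injective (Equiv.optionCongr e).injective h1
    rw [← e'']
    exact hb

end Plane4
end Cfsg.Agent.Lib.Helper28
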