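import Cfsg.Agent.Lib.Helper28.HSData

set_option autoImplicit false

namespace Cfsg.Agent.Lib.Helper28.HSModel

open Finset Cfsg.Agent.Lib.Helper28.HSData

/-- The model graph. -/
def Gm : SimpleGraph (Fin 100) where
  Adj i j := adjB i j = true
  symm := ⟨fun i j h => by
    show adjB j i = true
    rw [adjB_symm]
    exact h⟩
  loopless := ⟨fun i h => by
    have h' : adjB i i = true := h
    rw [adjB_irrefl] at h'
    exact Bool.false_ne_true h'⟩

instance : DecidableRel Gm.Adj := fun i j => inferInstanceAs (Decidable (adjB i j = true))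

theorem cnt_comm (v w : Fin 100) : cnt (mask v &&& mask w) = cnt (mask w &&& mask v) := by
  rw [Nat.land_comm]

theorem cnt_adj (v w : Fin 100) (h : adjB v w = true) : cnt (mask v &&& mask w) = 0 := by
  rcases lt_trichotomy v w with hlt | rfl | hgt
  · exact cnt_adj_lt v w hlt h
  · rw [adjB_irrefl] at h
    exact absurd h Bool.false_ne_true
  · rw [cnt_comm]
    exact cnt_adj_lt w v hgt (by rw [adjB_symm]; exact h)

theorem cnt_nadj (v w : Fin 100) (hne : v ≠ w) (h : adjB v w = false) :
    cnt (mask v &&& mask w) = 6 := by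
  rcases lt_trichotomy v w with hlt | rfl | hgt
  · exact cnt_nadj_lt v w hlt h
  · exact absurd rfl hne
  · rw [cnt_comm]
    exact cnt_nadj_lt w v hgt (by rw [adjB_symm]; exact h)

theorem card_common (v w : Fin 100) :
    Fintype.card (Gm.commonNeighbors v w) = cnt (mask v &&& mask w) := by
  rw [← Set.toFinset_card]
  unfold cnt
  congr 1
  ext x
  rw [Set.mem_toFinset, SimpleGraph.mem_commonNeighbors, Finset.mem_filter]
  have e : (mask v &&& mask w).testBit x.val = true ↔ adjB v x = true ∧ adjB w x = true := by
    unfold adjB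
    rw [Nat.testBit_land, Bool.and_eq_true]
  rw [e]
  exact ⟨fun h => ⟨Finset.mem_univ _, h⟩, fun h => h.2⟩

theorem Gm_srg : Gm.IsSRGWith 100 22 0 6 where
  card := Fintype.card_fin 100
  regular := by
    intro v
    rw [← SimpleGraph.card_neighborFinset_eq_degree, SimpleGraph.neighborFinset_eq_filter]
    exact cnt_deg v
  of_adj := by
    intro v w h
    rw [card_common]
    exact cnt_adj v w h
  of_not_adj := by
    intro v w hvw h
    rw [card_common]
    refine cnt_nadj v w hvw ?_
    have h' : ¬ adjB v w = true := h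
    simpa using h'

/-- The model symmetry as a permutation. -/
@[irreducible] def tauP : Equiv.Perm (Fin 100) :=
  (swN.map (fun p => Equiv.swap (fin100 p.1) (fin100 p.2))).prod

theorem tauP_apply : ∀ i : Fin 100, tauP i = tauF i := by decide +kernel

/-- The model symmetry as an automorphism of the model graph. -/
def tauIso : Gm ≃g Gm where
  toEquiv := tauP
  map_rel_iff' := by
    intro a b
    show adjB (tauP a) (tauP b) = true ↔ adjB a b = true
    rw [tauP_apply a, tauP_apply b, tau_adj]

theorem sign_tau : Equiv.Perm.sign tauIso.toEquiv = -1 := by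
  show Equiv.Perm.sign tauP = -1
  unfold tauP
  rw [Equiv.Perm.sign_prod_list_swap]
  · rw [List.length_map]
    have hl : swN.length = 35 := rfl
    rw [hl]
    exact Odd.neg_one_pow ⟨17, rfl⟩
  · intro g hg
    obtain ⟨p, hp, rfl⟩ := List.mem_map.1 hg
    refine ⟨fin100 p.1, fin100 p.2, ?_, rfl⟩
    intro e
    exact swN_ne p hp (congrArg Fin.val e)

theorem tauIso_apply (x : Fin 100) : tauIso x = tauF x := tauP_apply x

theorem tau_fix0 : tauIso 0 = 0 := (tauIso_apply 0).trans tauF_fix.1

theorem tau_fix3 : tauIso 3 = 3 := (tauIso_apply 3).trans tauF_fix.2.1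

theorem tau_fix23 : tauIso 23 = 23 := (tauIso_apply 23).trans tauF_fix.2.2

theorem adj03 : Gm.Adj 0 3 := adj_03.1

theorem nadj023 : ¬ Gm.Adj 0 23 := fun h => by
  have h' : adjB 0 23 = true := h
  rw [adj_03.2] at h'
  exact Bool.false_ne_true h'

end Cfsg.Agent.Lib.Helper28.HSModel
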