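import Cfsg.Prelude.Def_Sporadic_a

set_option autoImplicit false

namespace Cfsg.Agent.Lib.Helper28.HSSimple

open Finset

/-- A simplicity criterion: a group of the given order acting on a set with a simple point
stabiliser which has exactly two further orbits, of lengths 22 and 77, such that every normal
subgroup containing the stabiliser is transitive, is simple. -/
theorem simple_of_rank3 {H V : Type*} [Group H] [Finite H] [Fintype V] [DecidableEq V]
    (act : H →* Equiv.Perm V) (v0 : V) (P Bk : Finset V)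
    (S : Subgroup H) (hSdef : ∀ h : H, h ∈ S ↔ act h v0 = v0)
    (hcard : Nat.card H = 44352000)
    (hS : IsSimpleGroup ↥S)
    (hP : P.card = 22) (hBk : Bk.card = 77)
    (hcov : ∀ x : V, x = v0 ∨ x ∈ P ∨ x ∈ Bk)
    (hv0P : v0 ∉ P) (hv0B : v0 ∉ Bk) (hPB : Disjoint P Bk)
    (hPtr : ∀ x ∈ P, ∀ y ∈ P, ∃ s ∈ S, act s x = y)
    (hBtr : ∀ x ∈ Bk, ∀ y ∈ Bk, ∃ s ∈ S, act s x = y)
    (hconn : ∀ N : Subgroup H, N.Normal → S ≤ N → ∀ x y : V, ∃ n ∈ N, act n x = y) :
    IsSimpleGroup H := by
  have hinvapp : ∀ (σ : Equiv.Perm V) (x : V), σ⁻¹ (σ x) = x := fun σ x => σ.symm_apply_apply x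
  haveI : Nontrivial H := by
    apply Finite.one_lt_card_iff_nontrivial.1
    rw [hcard]
    norm_num
  refine ⟨fun N hN => ?_⟩
  have hNS : (N.subgroupOf S).Normal := Subgroup.normal_subgroupOf
  rcases hNS.eq_bot_or_eq_top with h | h
  · left
    have hfree : ∀ n ∈ N, act n v0 = v0 → n = 1 := by
      intro n hn hfix
      have hnS : n ∈ S := (hSdef n).2 hfix
      have h1 : (⟨n, hnS⟩ : ↥S) ∈ N.subgroupOf S := Subgroup.mem_subgroupOf.2 hn
      rw [h, Subgroup.mem_bot] at h1
      exact congrArg Subtype.val h1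
    by_contra hne
    have hinj : ∀ n ∈ N, ∀ m ∈ N, act n v0 = act m v0 → n = m := by
      intro n hn m hm e
      have h1 : m⁻¹ * n = 1 := by
        apply hfree _ (N.mul_mem (N.inv_mem hm) hn)
        rw [map_mul, Equiv.Perm.mul_apply, e, map_inv, hinvapp]
      exact (inv_mul_eq_one.1 h1).symm
    have hconj : ∀ s ∈ S, ∀ n : H, act (s * n * s⁻¹) v0 = act s (act n v0) := by
      intro s hs n
      have hs' : act s⁻¹ v0 = v0 := (hSdef _).1 (S.inv_mem hs)
      rw [map_mul, map_mul, Equiv.Perm.mul_apply, Equiv.Perm.mul_apply, hs']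
    haveI : Fintype ↥N := Fintype.ofFinite _
    obtain ⟨I, hI, hIcard⟩ : ∃ I : Finset V, (∀ x, x ∈ I ↔ ∃ n ∈ N, act n v0 = x) ∧
        I.card = Nat.card ↥N := by
      refine ⟨univ.image (fun n : ↥N => act n.1 v0), ?_, ?_⟩
      · intro x
        rw [Finset.mem_image]
        constructor
        · rintro ⟨n, -, rfl⟩
          exact ⟨n.1, n.2, rfl⟩
        · rintro ⟨n, hn, rfl⟩
          exact ⟨⟨n, hn⟩, Finset.mem_univ _, rfl⟩
      · rw [Finset.card_image_of_injective _
          (fun n m e => Subtype.ext (hinj n.1 n.2 m.1 m.2 e)), Finset.card_univ,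
          Nat.card_eq_fintype_card]
    have hIS : ∀ s ∈ S, ∀ x ∈ I, act s x ∈ I := by
      intro s hs x hx
      obtain ⟨n, hn, rfl⟩ := (hI x).1 hx
      exact (hI _).2 ⟨s * n * s⁻¹, hN.conj_mem n hn s, hconj s hs n⟩
    have hIP : (∃ x ∈ P, x ∈ I) → P ⊆ I := by
      rintro ⟨x, hxP, hxI⟩ y hy
      obtain ⟨s, hs, rfl⟩ := hPtr x hxP y hy
      exact hIS s hs x hxI
    have hIB : (∃ x ∈ Bk, x ∈ I) → Bk ⊆ I := by
      rintro ⟨x, hxP, hxI⟩ y hy
      obtain ⟨s, hs, rfl⟩ := hBtr x hxP y hy
      exact hIS s hs x hxI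
    have hv0I : v0 ∈ I := (hI v0).2 ⟨1, N.one_mem, by rw [map_one]; rfl⟩
    have hdec : I = insert v0 ((I ∩ P) ∪ (I ∩ Bk)) := by
      ext x
      simp only [Finset.mem_insert, Finset.mem_union, Finset.mem_inter]
      constructor
      · intro hx
        rcases hcov x with h1 | h1 | h1
        · exact Or.inl h1
        · exact Or.inr (Or.inl ⟨hx, h1⟩)
        · exact Or.inr (Or.inr ⟨hx, h1⟩)
      · rintro (rfl | ⟨h1, -⟩ | ⟨h1, -⟩)
        · exact hv0I
        · exact h1
        · exact h1
    have hdc : I.card = 1 + (I ∩ P).card + (I ∩ Bk).card := by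
      conv_lhs => rw [hdec]
      rw [Finset.card_insert_of_notMem, Finset.card_union_of_disjoint]
      · ring
      · exact Finset.disjoint_of_subset_left Finset.inter_subset_right
          (Finset.disjoint_of_subset_right Finset.inter_subset_right hPB)
      · simp only [Finset.mem_union, Finset.mem_inter, not_or, not_and]
        exact ⟨fun _ => hv0P, fun _ => hv0B⟩
    obtain ⟨n1, hn1, hn1ne⟩ : ∃ n ∈ N, n ≠ 1 := by
      by_contra hc
      push Not at hc
      apply hne
      rw [eq_bot_iff]
      intro n hn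
      rw [Subgroup.mem_bot]
      exact hc n hn
    have hx1 : act n1 v0 ≠ v0 := fun e => hn1ne (hfree n1 hn1 e)
    have hx1I : act n1 v0 ∈ I := (hI _).2 ⟨n1, hn1, rfl⟩
    have hdvd : Nat.card ↥N ∣ 44352000 := by
      rw [← hcard]
      exact Subgroup.card_subgroup_dvd_card N
    have hPsub : P ⊆ I := by
      by_contra hc
      have e1 : I ∩ P = ∅ := by
        rw [Finset.eq_empty_iff_forall_notMem]
        intro x hx
        exact hc (hIP ⟨x, (Finset.mem_inter.1 hx).2, (Finset.mem_inter.1 hx).1⟩)
      have hB' : Bk ⊆ I := by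
        apply hIB
        rcases hcov (act n1 v0) with h1 | h1 | h1
        · exact absurd h1 hx1
        · exact absurd (hIP ⟨_, h1, hx1I⟩) hc
        · exact ⟨_, h1, hx1I⟩
      rw [e1, Finset.inter_eq_right.2 hB', hBk, hIcard] at hdc
      rw [hdc] at hdvd
      norm_num at hdvd
    have hBsub : Bk ⊆ I := by
      by_contra hc
      have e1 : I ∩ Bk = ∅ := by
        rw [Finset.eq_empty_iff_forall_notMem]
        intro x hx
        exact hc (hIB ⟨x, (Finset.mem_inter.1 hx).2, (Finset.mem_inter.1 hx).1⟩)
      rw [e1, Finset.inter_eq_right.2 hPsub, hP, hIcard] at hdc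
      rw [hdc] at hdvd
      norm_num at hdvd
    have hN100 : Nat.card ↥N = 100 := by
      rw [Finset.inter_eq_right.2 hPsub, Finset.inter_eq_right.2 hBsub, hP, hBk, hIcard] at hdc
      exact hdc
    have hsurj : ∀ x, ∃ n ∈ N, act n v0 = x := by
      intro x
      rcases hcov x with h1 | h1 | h1
      · exact ⟨1, N.one_mem, by rw [map_one, h1]; rfl⟩
      · exact (hI x).1 (hPsub h1)
      · exact (hI x).1 (hBsub h1)
    have hordP : ∀ n ∈ N, ∀ m ∈ N, act n v0 ∈ P → act m v0 ∈ P → orderOf n = orderOf m := by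
      intro n hn m hm h1 h2
      obtain ⟨s, hs, e⟩ := hPtr _ h1 _ h2
      have e2 : s * n * s⁻¹ = m := by
        apply hinj _ (hN.conj_mem n hn s) _ hm
        rw [hconj s hs n, e]
      rw [← e2]
      exact ((MulAut.conj s).orderOf_eq n).symm
    have hordB : ∀ n ∈ N, ∀ m ∈ N, act n v0 ∈ Bk → act m v0 ∈ Bk → orderOf n = orderOf m := by
      intro n hn m hm h1 h2
      obtain ⟨s, hs, e⟩ := hBtr _ h1 _ h2
      have e2 : s * n * s⁻¹ = m := by
        apply hinj _ (hN.conj_mem n hn s) _ hm
        rw [hconj s hs n, e]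
      rw [← e2]
      exact ((MulAut.conj s).orderOf_eq n).symm
    haveI : Fact (Nat.Prime 2) := ⟨Nat.prime_two⟩
    haveI : Fact (Nat.Prime 5) := ⟨by norm_num⟩
    obtain ⟨t', ht'⟩ := exists_prime_orderOf_dvd_card' (G := ↥N) 2 (by rw [hN100]; norm_num)
    have ht : orderOf (t' : H) = 2 := by rw [Subgroup.orderOf_coe]; exact ht'
    obtain ⟨K, hK⟩ := Sylow.exists_subgroup_card_pow_prime (G := ↥N) 5 (n := 2)
      (by rw [hN100]; norm_num)
    have hKord : ∀ k : ↥K, orderOf ((k : ↥N) : H) ∣ 25 := by
      intro k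
      rw [Subgroup.orderOf_coe, Subgroup.orderOf_coe]
      have h1 := orderOf_dvd_natCard k
      rw [hK] at h1
      exact h1
    have hKne2 : ∀ k : ↥K, orderOf ((k : ↥N) : H) ≠ 2 := by
      intro k e
      have h1 := hKord k
      rw [e] at h1
      norm_num at h1
    have ht1 : (t' : H) ≠ 1 := by
      intro e
      rw [e, orderOf_one] at ht
      norm_num at ht
    have htv : act (t' : H) v0 ≠ v0 := fun e => ht1 (hfree _ t'.2 e)
    haveI : Fintype ↥K := Fintype.ofFinite _
    have hKinj : Function.Injective (fun k : ↥K => act ((k : ↥N) : H) v0) := by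
      intro k k' e
      exact Subtype.ext (Subtype.ext (hinj _ k.1.2 _ k'.1.2 e))
    rcases hcov (act (t' : H) v0) with h1 | h1 | h1
    · exact htv h1
    · -- the involution lies over the 22-orbit
      obtain ⟨k, hk⟩ : ∃ k : ↥K, k ≠ 1 := by
        haveI : Nontrivial ↥K := by
          apply Finite.one_lt_card_iff_nontrivial.1
          rw [hK]
          norm_num
        exact exists_ne 1
      have hk1 : ((k : ↥N) : H) ≠ 1 := by
        intro e
        apply hk
        apply Subtype.ext
        apply Subtype.ext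
        exact e
      have hkv : act ((k : ↥N) : H) v0 ≠ v0 := fun e => hk1 (hfree _ k.1.2 e)
      have hkB : act ((k : ↥N) : H) v0 ∈ Bk := by
        rcases hcov (act ((k : ↥N) : H) v0) with h2 | h2 | h2
        · exact absurd h2 hkv
        · exact absurd ((hordP _ k.1.2 _ t'.2 h2 h1).trans ht) (hKne2 k)
        · exact h2
      have hfp : ∀ m ∈ N, (m⁻¹ = m ↔ act m v0 ∈ insert v0 P) := by
        intro m hm
        rw [Finset.mem_insert]
        constructor
        · intro e
          rcases hcov (act m v0) with h2 | h2 | h2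
          · exact Or.inl h2
          · exact Or.inr h2
          · exfalso
            have ho := hordB _ hm _ k.1.2 h2 hkB
            have hm2 : m ^ 2 = 1 := by
              rw [pow_two]
              nth_rewrite 1 [← e]
              exact inv_mul_cancel m
            have h3 : orderOf m ∣ 2 := orderOf_dvd_of_pow_eq_one hm2
            have h4 : orderOf m ∣ 25 := by rw [ho]; exact hKord k
            have h5 : orderOf m ∣ Nat.gcd 2 25 := Nat.dvd_gcd h3 h4
            have h6 : orderOf m = 1 := by
              have : Nat.gcd 2 25 = 1 := by norm_num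
              rw [this] at h5
              exact Nat.dvd_one.1 h5
            rw [orderOf_eq_one_iff] at h6
            rw [h6, map_one] at h2
            exact hv0B h2
        · rintro (h2 | h2)
          · rw [hfree m hm h2, inv_one]
          · have ho := (hordP _ hm _ t'.2 h2 h1).trans ht
            have hm2 : m ^ 2 = 1 := by
              rw [← ho]
              exact pow_orderOf_eq_one m
            rw [pow_two] at hm2
            exact inv_eq_of_mul_eq_one_left hm2
      haveI : DecidableEq ↥N := Classical.decEq _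
      let f : Function.End ↥N := fun m => m⁻¹
      have hf2 : f ^ 2 ^ 1 = 1 := by
        rw [pow_one, pow_two]
        funext m
        show (m⁻¹)⁻¹ = m
        exact inv_inv m
      have hmod := Equiv.Perm.card_fixedPoints_modEq (p := 2) (n := 1) hf2
      have hfix : Nat.card (Function.fixedPoints f) = 23 := by
        have hcard23 : (insert v0 P).card = 23 := by
          rw [Finset.card_insert_of_notMem hv0P, hP]
        rw [← hcard23, ← Fintype.card_coe, ← Nat.card_eq_fintype_card]
        apply Nat.card_congr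
        refine Equiv.ofBijective
          (fun m : Function.fixedPoints f => (⟨act ((m : ↥N) : H) v0,
            (hfp _ m.1.2).1 (congrArg Subtype.val m.2)⟩ : {x // x ∈ insert v0 P})) ⟨?_, ?_⟩
        · intro m m' e
          have e' : act ((m : ↥N) : H) v0 = act ((m' : ↥N) : H) v0 := congrArg Subtype.val e
          exact Subtype.ext (Subtype.ext (hinj _ m.1.2 _ m'.1.2 e'))
        · rintro ⟨x, hx⟩
          obtain ⟨n, hn, rfl⟩ := hsurj x
          refine ⟨⟨⟨n, hn⟩, ?_⟩, rfl⟩
          show (⟨n, hn⟩ : ↥N)⁻¹ = ⟨n, hn⟩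
          exact Subtype.ext ((hfp n hn).2 hx)
      rw [← Nat.card_eq_fintype_card, ← Nat.card_eq_fintype_card, hN100, hfix] at hmod
      exact absurd hmod (by decide)
    · -- the involution lies over the 77-orbit
      have hsub : (univ.image (fun k : ↥K => act ((k : ↥N) : H) v0)) ⊆ insert v0 P := by
        intro x hx
        obtain ⟨k, -, rfl⟩ := Finset.mem_image.1 hx
        rw [Finset.mem_insert]
        rcases hcov (act ((k : ↥N) : H) v0) with h2 | h2 | h2
        · exact Or.inl h2
        · exact Or.inr h2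
        · exact absurd ((hordB _ k.1.2 _ t'.2 h2 h1).trans ht) (hKne2 k)
      have hle := Finset.card_le_card hsub
      rw [Finset.card_image_of_injective _ hKinj, Finset.card_univ, ← Nat.card_eq_fintype_card,
        hK, Finset.card_insert_of_notMem hv0P, hP] at hle
      norm_num at hle
  · right
    have hSN : S ≤ N := Subgroup.subgroupOf_eq_top.1 h
    rw [eq_top_iff]
    intro g _
    obtain ⟨n, hn, e⟩ := hconn N hN hSN v0 (act g v0)
    have h1 : n⁻¹ * g ∈ S := by
      rw [hSdef, map_mul, Equiv.Perm.mul_apply, ← e, map_inv, hinvapp]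
    have h2 := N.mul_mem hn (hSN h1)
    rwa [mul_inv_cancel_left] at h2

end Cfsg.Agent.Lib.Helper28.HSSimple
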