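import Cfsg.Agent.Lib.Helper28.Plane4Iso

set_option autoImplicit false
set_option linter.unusedSectionVars false

namespace Cfsg.Agent.Lib.Helper28
namespace Plane4

open Cfsg Finset
open Cfsg.Agent.Lib.Helper4

variable {α : Type*} [Fintype α] [DecidableEq α]

/-- Two hyperovals sharing four points are equal. -/
theorem hyp_eq_of_four (hα : Fintype.card α = 21) {L : Set (Finset α)}
    (hL : IsSteinerSystem 2 5 L) {H H' : Finset α} (hH : IsHyp L H) (hH' : IsHyp L H')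
    {S : Finset α} (hS : S.card = 4) (h1 : S ⊆ H) (h2 : S ⊆ H') : H = H' := by
  have hS' : IsArc L S := fun l hl =>
    (Finset.card_le_card (Finset.inter_subset_inter (Finset.Subset.refl l) h1)).trans (hH.2 l hl)
  obtain ⟨K, -, huniq⟩ := arc4_hyp hα hL hS hS'
  rw [huniq H ⟨hH, h1⟩, huniq H' ⟨hH', h2⟩]

/-- On a line through a common point of two distinct hyperovals sharing three points, at most
one point lies outside both hyperovals and outside the line joining the other two points. -/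
theorem fifth_point (hα : Fintype.card α = 21) {L : Set (Finset α)}
    (hL : IsSteinerSystem 2 5 L) {H H' : Finset α} (hH : IsHyp L H) (hH' : IsHyp L H')
    (hne : H ≠ H') {p q r : α} (hpq : p ≠ q) (hp : p ∈ H) (hq : q ∈ H) (hr : r ∈ H)
    (hp' : p ∈ H') (hq' : q ∈ H') (hr' : r ∈ H') {ℓ : Finset α} (hℓ : ℓ ∈ L) (hpℓ : p ∈ ℓ)
    (hqℓ : q ∈ ℓ) {m : Finset α} (hm : m ∈ L) (hrm : r ∈ m) (hpm : p ∉ m) (hqm : q ∉ m)
    {a a' : α} (ha : a ∈ m) (ha' : a' ∈ m) (haa : a ≠ a') (h1 : a ∉ ℓ) (h2 : a' ∉ ℓ)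
    (h3 : a ∉ H) (h4 : a' ∉ H) : a ∈ H' ∨ a' ∈ H' := by
  by_contra hcon
  push Not at hcon
  obtain ⟨h5, h6⟩ := hcon
  have hrp : r ≠ p := fun e => hpm (e ▸ hrm)
  have hrq : r ≠ q := fun e => hqm (e ▸ hrm)
  have hrℓ : r ∉ ℓ := fun h => no_three hH.2 hℓ hpℓ hqℓ h hp hq hr hpq (Ne.symm hrp) (Ne.symm hrq)
  obtain ⟨c, hcm, hcℓ⟩ := lines_meet hα hL hm hℓ
  obtain ⟨x, hxm, hxH, hxr⟩ := hyp_other hα hL hH hm hrm hr
  obtain ⟨x', hx'm, hx'H', hx'r⟩ := hyp_other hα hL hH' hm hrm hr'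
  have hxp : x ≠ p := fun e => hpm (e ▸ hxm)
  have hxq : x ≠ q := fun e => hqm (e ▸ hxm)
  have hx'p : x' ≠ p := fun e => hpm (e ▸ hx'm)
  have hx'q : x' ≠ q := fun e => hqm (e ▸ hx'm)
  have hrc : r ≠ c := fun e => hrℓ (e ▸ hcℓ)
  have hxc : x ≠ c := fun e =>
    no_three hH.2 hℓ hpℓ hqℓ (e ▸ hcℓ) hp hq hxH hpq (Ne.symm hxp) (Ne.symm hxq)
  have hx'c : x' ≠ c := fun e =>
    no_three hH'.2 hℓ hpℓ hqℓ (e ▸ hcℓ) hp' hq' hx'H' hpq (Ne.symm hx'p) (Ne.symm hx'q)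
  have hxx' : x ≠ x' := by
    intro e
    have hS : ({p, q, r, x} : Finset α).card = 4 := by
      rw [Finset.card_insert_of_notMem, Finset.card_eq_three.2
        ⟨q, r, x, Ne.symm hrq, Ne.symm hxq, Ne.symm hxr, rfl⟩]
      simp only [Finset.mem_insert, Finset.mem_singleton, not_or]
      exact ⟨hpq, Ne.symm hrp, Ne.symm hxp⟩
    have s1 : ({p, q, r, x} : Finset α) ⊆ H := by
      intro z hz
      simp only [Finset.mem_insert, Finset.mem_singleton] at hz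
      rcases hz with rfl | rfl | rfl | rfl <;> assumption
    have s2 : ({p, q, r, x} : Finset α) ⊆ H' := by
      intro z hz
      simp only [Finset.mem_insert, Finset.mem_singleton] at hz
      rcases hz with rfl | rfl | rfl | rfl
      · exact hp'
      · exact hq'
      · exact hr'
      · exact e ▸ hx'H'
    exact hne (hyp_eq_of_four hα hL hH hH' hS s1 s2)
  have hD : ({r, c, x, x'} : Finset α).card = 4 := by
    rw [Finset.card_insert_of_notMem, Finset.card_eq_three.2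
      ⟨c, x, x', Ne.symm hxc, Ne.symm hx'c, hxx', rfl⟩]
    simp only [Finset.mem_insert, Finset.mem_singleton, not_or]
    exact ⟨hrc, Ne.symm hxr, Ne.symm hx'r⟩
  have hDm : ({r, c, x, x'} : Finset α) ⊆ m := by
    intro z hz
    simp only [Finset.mem_insert, Finset.mem_singleton] at hz
    rcases hz with rfl | rfl | rfl | rfl <;> assumption
  have hc1 : (m \ {r, c, x, x'}).card = 1 := by
    rw [Finset.card_sdiff_of_subset hDm, hD, hL.1 m hm]
  have mem : ∀ z, z ∈ m → z ∉ ℓ → z ∉ H → z ∉ H' → z ∈ m \ {r, c, x, x'} := by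
    intro z hz z1 z2 z3
    rw [Finset.mem_sdiff]
    refine ⟨hz, ?_⟩
    simp only [Finset.mem_insert, Finset.mem_singleton, not_or]
    exact ⟨fun e => z2 (e ▸ hr), fun e => z1 (e ▸ hcℓ), fun e => z2 (e ▸ hxH),
      fun e => z3 (e ▸ hx'H')⟩
  exact haa (Finset.card_le_one.1 (le_of_eq hc1) a (mem a ha h1 h3 h5) a' (mem a' ha' h2 h4 h6))

/-- Two hyperovals meeting a third one in the same two points and sharing a further point are
equal. -/
theorem hyp_unique_two (hα : Fintype.card α = 21) {L : Set (Finset α)}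
    (hL : IsSteinerSystem 2 5 L) {H0 H H' : Finset α} (hH0 : IsHyp L H0) (hH : IsHyp L H)
    (hH' : IsHyp L H') {p q r : α} (hpq : p ≠ q) (hp0 : p ∈ H0) (hq0 : q ∈ H0) (hr0 : r ∉ H0)
    (hp : p ∈ H) (hq : q ∈ H) (hr : r ∈ H) (hp' : p ∈ H') (hq' : q ∈ H') (hr' : r ∈ H')
    (h1 : ∀ z ∈ H, z ∈ H0 → z = p ∨ z = q) (h2 : ∀ z ∈ H', z ∈ H0 → z = p ∨ z = q) :
    H = H' := by
  by_contra hne
  have hrp : r ≠ p := fun e => hr0 (e ▸ hp0)
  have hrq : r ≠ q := fun e => hr0 (e ▸ hq0)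
  obtain ⟨hℓ, hpℓ, hqℓ⟩ := ln_spec hL hpq
  obtain ⟨hℓp, hpℓp, hrℓp⟩ := ln_spec hL (Ne.symm hrp)
  obtain ⟨hℓq, hqℓq, hrℓq⟩ := ln_spec hL (Ne.symm hrq)
  -- a point of the base hyperoval off the three lines
  obtain ⟨a, ha0, ha1, ha2, ha3⟩ : ∃ a ∈ H0, a ∉ ln L p q ∧ a ∉ ln L p r ∧ a ∉ ln L q r := by
    by_contra hcon
    push Not at hcon
    have hsub : (H0.erase p).erase q ⊆ ((ln L p r ∩ H0).erase p) ∪ ((ln L q r ∩ H0).erase q) := by
      intro z hz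
      obtain ⟨hzq, hz'⟩ := Finset.mem_erase.1 hz
      obtain ⟨hzp, hz0⟩ := Finset.mem_erase.1 hz'
      rw [Finset.mem_union]
      by_cases z1 : z ∈ ln L p q
      · exact absurd (no_three hH0.2 hℓ hpℓ hqℓ z1 hp0 hq0 hz0 hpq (Ne.symm hzp) (Ne.symm hzq))
          id
      by_cases z2 : z ∈ ln L p r
      · exact Or.inl (Finset.mem_erase.2 ⟨hzp, Finset.mem_inter.2 ⟨z2, hz0⟩⟩)
      · exact Or.inr (Finset.mem_erase.2 ⟨hzq, Finset.mem_inter.2 ⟨hcon z hz0 z1 z2, hz0⟩⟩)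
    have c1 := Finset.card_le_card hsub
    have c2 := Finset.card_union_le ((ln L p r ∩ H0).erase p) ((ln L q r ∩ H0).erase q)
    have c3 : ((H0.erase p).erase q).card = 4 := by
      rw [Finset.card_erase_of_mem (Finset.mem_erase.2 ⟨Ne.symm hpq, hq0⟩),
        Finset.card_erase_of_mem hp0, hH0.1]
    have c4 : ((ln L p r ∩ H0).erase p).card ≤ 1 := by
      rw [Finset.card_erase_of_mem (Finset.mem_inter.2 ⟨hpℓp, hp0⟩)]
      have := hH0.2 _ hℓp
      omega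
    have c5 : ((ln L q r ∩ H0).erase q).card ≤ 1 := by
      rw [Finset.card_erase_of_mem (Finset.mem_inter.2 ⟨hqℓq, hq0⟩)]
      have := hH0.2 _ hℓq
      omega
    omega
  have har : r ≠ a := fun e => hr0 (e ▸ ha0)
  obtain ⟨hm, hrm, ham⟩ := ln_spec hL har
  have hpm : p ∉ ln L r a := by
    intro h
    have e : ln L r a = ln L p r := line_unique hL hm hℓp hrp hrm h hrℓp hpℓp
    exact ha2 (e ▸ ham)
  have hqm : q ∉ ln L r a := by
    intro h
    have e : ln L r a = ln L q r := line_unique hL hm hℓq hrq hrm h hrℓq hqℓq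
    exact ha3 (e ▸ ham)
  obtain ⟨a', ha'm, ha'0, ha'a⟩ := hyp_other hα hL hH0 hm ham ha0
  have ha'p : a' ≠ p := fun e => hpm (e ▸ ha'm)
  have ha'q : a' ≠ q := fun e => hqm (e ▸ ha'm)
  have hap : a ≠ p := fun e => hpm (e ▸ ham)
  have haq : a ≠ q := fun e => hqm (e ▸ ham)
  have k2 : a' ∉ ln L p q := fun h =>
    no_three hH0.2 hℓ hpℓ hqℓ h hp0 hq0 ha'0 hpq (Ne.symm ha'p) (Ne.symm ha'q)
  have k3 : a ∉ H := fun h => by
    rcases h1 a h ha0 with e | e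
    · exact hap e
    · exact haq e
  have k4 : a' ∉ H := fun h => by
    rcases h1 a' h ha'0 with e | e
    · exact ha'p e
    · exact ha'q e
  rcases fifth_point hα hL hH hH' hne hpq hp hq hr hp' hq' hr' hℓ hpℓ hqℓ hm hrm hpm hqm ham ha'm
    (Ne.symm ha'a) ha1 k2 k3 k4 with h | h
  · rcases h2 a h ha0 with e | e
    · exact hap e
    · exact haq e
  · rcases h2 a' h ha'0 with e | e
    · exact ha'p e
    · exact ha'q e

/-- A hyperoval disjoint from the base hyperoval and having three points whose joining lines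
miss the base hyperoval is determined by these three points among the hyperovals meeting the
base hyperoval in at most two points. -/
theorem hyp_unique_zero (hα : Fintype.card α = 21) {L : Set (Finset α)}
    (hL : IsSteinerSystem 2 5 L) {H0 H H' : Finset α} (hH0 : IsHyp L H0) (hH : IsHyp L H)
    (hH' : IsHyp L H') {p q r : α} (hpq : p ≠ q) (hpr : p ≠ r) (hqr : q ≠ r)
    (hp : p ∈ H) (hq : q ∈ H) (hr : r ∈ H) (hp' : p ∈ H') (hq' : q ∈ H') (hr' : r ∈ H')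
    (hd : ∀ z ∈ H, z ∉ H0) (hc : (H' ∩ H0).card ≤ 2)
    {ℓ1 ℓ2 ℓ3 : Finset α} (l1 : ℓ1 ∈ L) (l2 : ℓ2 ∈ L) (l3 : ℓ3 ∈ L)
    (p1 : p ∈ ℓ1) (q1 : q ∈ ℓ1) (p2 : p ∈ ℓ2) (r2 : r ∈ ℓ2) (q3 : q ∈ ℓ3) (r3 : r ∈ ℓ3)
    (e1 : ∀ z ∈ ℓ1, z ∉ H0) (e2 : ∀ z ∈ ℓ2, z ∉ H0) (e3 : ∀ z ∈ ℓ3, z ∉ H0) : H = H' := by
  by_contra hne
  have hr0 : r ∉ H0 := hd r hr
  have key : ∀ a ∈ H0, ∃ u ∈ H' ∩ H0, a ∈ ln L r u ∩ H0 := by
    intro a ha0
    have har : r ≠ a := fun e => hr0 (e ▸ ha0)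
    obtain ⟨hm, hrm, ham⟩ := ln_spec hL har
    have hpm : p ∉ ln L r a := by
      intro h
      have e : ln L r a = ℓ2 := line_unique hL hm l2 (Ne.symm hpr) hrm h r2 p2
      exact e2 a (e ▸ ham) ha0
    have hqm : q ∉ ln L r a := by
      intro h
      have e : ln L r a = ℓ3 := line_unique hL hm l3 (Ne.symm hqr) hrm h r3 q3
      exact e3 a (e ▸ ham) ha0
    obtain ⟨a', ha'm, ha'0, ha'a⟩ := hyp_other hα hL hH0 hm ham ha0
    rcases fifth_point hα hL hH hH' hne hpq hp hq hr hp' hq' hr' l1 p1 q1 hm hrm hpm hqm ham ha'm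
      (Ne.symm ha'a) (fun h => e1 a h ha0) (fun h => e1 a' h ha'0) (fun h => hd a h ha0)
      (fun h => hd a' h ha'0) with h | h
    · exact ⟨a, Finset.mem_inter.2 ⟨h, ha0⟩, Finset.mem_inter.2 ⟨ham, ha0⟩⟩
    · have hra' : r ≠ a' := fun e => hr0 (e ▸ ha'0)
      refine ⟨a', Finset.mem_inter.2 ⟨h, ha'0⟩, Finset.mem_inter.2 ⟨?_, ha0⟩⟩
      rw [ln_eq hL hm hra' hrm ha'm]
      exact ham
  have hsub : H0 ⊆ (H' ∩ H0).biUnion (fun u => ln L r u ∩ H0) := by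
    intro a ha
    obtain ⟨u, hu, hau⟩ := key a ha
    exact Finset.mem_biUnion.2 ⟨u, hu, hau⟩
  have c1 := Finset.card_le_card hsub
  have c2 := Finset.card_biUnion_le (s := H' ∩ H0) (t := fun u => ln L r u ∩ H0)
  have c3 : ∑ u ∈ H' ∩ H0, (ln L r u ∩ H0).card ≤ (H' ∩ H0).card • 2 := by
    apply Finset.sum_le_card_nsmul
    intro u hu
    have hu0 := (Finset.mem_inter.1 hu).2
    have hru : r ≠ u := fun e => hr0 (e ▸ hu0)
    exact hH0.2 _ (ln_spec hL hru).1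
  rw [hH0.1] at c1
  rw [smul_eq_mul] at c3
  omega

end Plane4
end Cfsg.Agent.Lib.Helper28
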