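import Mathlib
import Cfsg.Agent.Lib.Helper28.Rank4

set_option autoImplicit false

namespace Cfsg.Agent.Lib.Helper28
namespace Imp552

open MulAction

variable {H L : Type*} [Group H] [MulAction H L]

/-- The hypotheses: an orbit of size 552 on which the point stabiliser has orbits of sizes
1, 1, 275, 275, with three witnesses excluding the proper block systems. -/
structure Hyp (H L : Type*) [Group H] [MulAction H L] (x y1 y2 y3 : L) : Prop where
  card : (orbit H x).ncard = 552
  m1 : y1 ∈ orbit H x
  m2 : y2 ∈ orbit H x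
  m3 : y3 ∈ orbit H x
  ne1 : y1 ≠ x
  fix1 : ∀ h : H, h • x = x → h • y1 = y1
  n2 : (orbit (stabilizer H x) y2).ncard = 275
  n3 : (orbit (stabilizer H x) y3).ncard = 275
  ne23 : y3 ∉ orbit (stabilizer H x) y2
  w1 : ¬ ∃ n : H, ∀ g : H, n • g • x = g • y1
  w2 : ∃ (g : H) (z : L), g • x ∈ orbit (stabilizer H x) y2 ∧ z ∈ orbit (stabilizer H x) y2 ∧
    z ≠ g • x ∧ g⁻¹ • z ∉ orbit (stabilizer H x) y2
  w3 : ∃ (g : H) (z : L), g • x ∈ orbit (stabilizer H x) y3 ∧ z ∈ orbit (stabilizer H x) y3 ∧
    z ≠ g • x ∧ g⁻¹ • z ∉ orbit (stabilizer H x) y3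

theorem mem_orbit_sub (N : Subgroup H) (x y : L) : y ∈ orbit N x ↔ ∃ n ∈ N, n • x = y := by
  rw [mem_orbit_iff]
  constructor
  · rintro ⟨n, hn⟩
    exact ⟨n.1, n.2, hn⟩
  · rintro ⟨n, hn, e⟩
    exact ⟨⟨n, hn⟩, e⟩

/-- Orbits of a normal subgroup are permuted by the group. -/
theorem orbit_normal_smul (N : Subgroup H) [hNn : N.Normal] (g : H) (x : L) :
    orbit N (g • x) = (fun y => g • y) '' orbit N x := by
  ext z
  rw [mem_orbit_sub]
  constructor
  · rintro ⟨n, hn, rfl⟩
    refine ⟨(g⁻¹ * n * g) • x,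
      (mem_orbit_sub N x _).2 ⟨g⁻¹ * n * g, hNn.conj_mem' n hn g, rfl⟩, ?_⟩
    show g • (g⁻¹ * n * g) • x = n • g • x
    rw [← mul_smul, ← mul_smul]
    congr 1
    group
  · rintro ⟨y, hy, rfl⟩
    obtain ⟨n, hn, rfl⟩ := (mem_orbit_sub N x y).1 hy
    refine ⟨g * n * g⁻¹, hNn.conj_mem n hn g, ?_⟩
    show (g * n * g⁻¹) • g • x = g • n • x
    rw [← mul_smul, ← mul_smul]
    congr 1
    group

theorem self_notMem (x y : L) (hne : (orbit (stabilizer H x) y).ncard ≠ 1) :
    x ∉ orbit (stabilizer H x) y := by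
  intro hxy
  apply hne
  have e : orbit (stabilizer H x) y = {x} := by
    rw [← orbit_eq_iff.2 hxy]
    ext z
    constructor
    · rintro ⟨h, rfl⟩
      exact h.2
    · intro hz
      rw [Set.mem_singleton_iff] at hz
      rw [hz]
      exact mem_orbit_self _
  rw [e, Set.ncard_singleton]

/-- The possible orbits of a normal subgroup through the base point. -/
theorem orbit_cases (x y1 y2 y3 : L) (hyp : Hyp H L x y1 y2 y3) (N : Subgroup H)
    [hNn : N.Normal] :
    orbit N x = {x} ∨ orbit N x = {x, y1} ∨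
    orbit N x = insert x (orbit (stabilizer H x) y2) ∨
    orbit N x = insert x (orbit (stabilizer H x) y3) ∨ orbit N x = orbit H x := by
  classical
  obtain ⟨hΩ, m1, m2, m3, ne1, fix1, n2, n3, ne23, -, -, -⟩ := hyp
  have hfin : (orbit H x).Finite := Set.finite_of_ncard_ne_zero (by rw [hΩ]; norm_num)
  have sub : ∀ y ∈ orbit H x, orbit (stabilizer H x) y ⊆ orbit H x := by
    rintro y ⟨g, rfl⟩ z ⟨h, rfl⟩
    exact ⟨h.1 * g, mul_smul h.1 g x⟩
  have o1 : orbit (stabilizer H x) y1 = {y1} := by
    ext z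
    constructor
    · rintro ⟨h, rfl⟩
      exact fix1 h.1 h.2
    · intro hz
      rw [Set.mem_singleton_iff] at hz
      rw [hz]
      exact mem_orbit_self _
  have n1 : (orbit (stabilizer H x) y1).ncard = 1 := by
    rw [o1, Set.ncard_singleton]
  have x1 : x ∉ orbit (stabilizer H x) y1 := by
    rw [o1]
    exact fun h => ne1 h.symm
  have x2 := self_notMem x y2 (by rw [n2]; norm_num)
  have x3 := self_notMem x y3 (by rw [n3]; norm_num)
  have d12 : Disjoint (orbit (stabilizer H x) y1) (orbit (stabilizer H x) y2) :=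
    (orbit.eq_or_disjoint y1 y2).resolve_left (fun e => by rw [e] at n1; omega)
  have d13 : Disjoint (orbit (stabilizer H x) y1) (orbit (stabilizer H x) y3) :=
    (orbit.eq_or_disjoint y1 y3).resolve_left (fun e => by rw [e] at n1; omega)
  have d23 : Disjoint (orbit (stabilizer H x) y2) (orbit (stabilizer H x) y3) :=
    (orbit.eq_or_disjoint y2 y3).resolve_left
      (fun e => ne23 (by rw [e]; exact mem_orbit_self y3))
  have f1 := hfin.subset (sub y1 m1)
  have f2 := hfin.subset (sub y2 m2)
  have f3 := hfin.subset (sub y3 m3)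
  have cover : insert x (orbit (stabilizer H x) y1 ∪ orbit (stabilizer H x) y2 ∪
      orbit (stabilizer H x) y3) = orbit H x := by
    apply Set.eq_of_subset_of_ncard_le _ _ hfin
    · exact Set.insert_subset (mem_orbit_self x)
        (Set.union_subset (Set.union_subset (sub y1 m1) (sub y2 m2)) (sub y3 m3))
    · rw [hΩ, Set.ncard_insert_of_notMem (by
          rintro ((h | h) | h)
          · exact x1 h
          · exact x2 h
          · exact x3 h) ((f1.union f2).union f3),
        Set.ncard_union_eq (Set.disjoint_union_left.2 ⟨d13, d23⟩) (f1.union f2) f3,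
        Set.ncard_union_eq d12 f1 f2, n1, n2, n3]
  have hdvd : (orbit N x).ncard ∣ 552 := by
    rw [← hΩ]
    exact Rank4.orbit_normal_dvd x N
  have hBsub : orbit N x ⊆ orbit H x := by
    rintro y ⟨n, rfl⟩
    exact ⟨n.1, rfl⟩
  have hinv : ∀ h : H, h • x = x → ∀ y ∈ orbit N x, h • y ∈ orbit N x := by
    intro h hhx y hy
    rw [mem_orbit_sub] at hy ⊢
    obtain ⟨n, hn, rfl⟩ := hy
    refine ⟨h * n * h⁻¹, hNn.conj_mem n hn h, ?_⟩
    have h2 : (h * n * h⁻¹) • x = h • n • (h⁻¹ • x) := by
      rw [← mul_smul, ← mul_smul]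
    rw [h2]
    have h3 : h⁻¹ • x = x := by
      rw [inv_smul_eq_iff, hhx]
    rw [h3]
  have hOB : ∀ y, (orbit (stabilizer H x) y ∩ orbit N x).Nonempty →
      orbit (stabilizer H x) y ⊆ orbit N x := by
    rintro y ⟨z, ⟨k, rfl⟩, hz⟩ w ⟨k', rfl⟩
    have hz' : k • y ∈ orbit ↥N x := hz
    have e : k' • y = (k' * k⁻¹).1 • (k • y) := by
      show k' • y = (k' * k⁻¹) • (k • y)
      rw [mul_smul, inv_smul_smul]
    show k' • y ∈ orbit ↥N x
    rw [e]
    exact hinv _ (k' * k⁻¹).2 _ hz'
  have hxB : x ∈ orbit N x := mem_orbit_self x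
  have hcase : ∀ y' : L, ((orbit N x ∩ orbit (stabilizer H x) y') = ∅) ∨
      (orbit (stabilizer H x) y' ⊆ orbit N x) := by
    intro y'
    by_cases hne : (orbit (stabilizer H x) y' ∩ orbit N x).Nonempty
    · exact Or.inr (hOB y' hne)
    · left
      rw [Set.not_nonempty_iff_eq_empty] at hne
      rw [Set.inter_comm]
      exact hne
  have hdec : orbit N x = insert x ((orbit N x ∩ orbit (stabilizer H x) y1) ∪
      (orbit N x ∩ orbit (stabilizer H x) y2) ∪ (orbit N x ∩ orbit (stabilizer H x) y3)) := by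
    ext z
    constructor
    · intro hz
      have hzΩ := hBsub hz
      rw [← cover] at hzΩ
      rcases hzΩ with h | (h | h) | h
      · exact Or.inl h
      · exact Or.inr (Or.inl (Or.inl ⟨hz, h⟩))
      · exact Or.inr (Or.inl (Or.inr ⟨hz, h⟩))
      · exact Or.inr (Or.inr ⟨hz, h⟩)
    · rintro (h | (h | h) | h)
      · rw [h]
        exact hxB
      · exact h.1
      · exact h.1
      · exact h.1
  have g1 : (orbit N x ∩ orbit (stabilizer H x) y1).Finite := f1.subset Set.inter_subset_right
  have g2 : (orbit N x ∩ orbit (stabilizer H x) y2).Finite := f2.subset Set.inter_subset_right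
  have g3 : (orbit N x ∩ orbit (stabilizer H x) y3).Finite := f3.subset Set.inter_subset_right
  have hnc : (orbit N x).ncard = (orbit N x ∩ orbit (stabilizer H x) y1).ncard +
      (orbit N x ∩ orbit (stabilizer H x) y2).ncard +
      (orbit N x ∩ orbit (stabilizer H x) y3).ncard + 1 := by
    conv_lhs => rw [hdec]
    rw [Set.ncard_insert_of_notMem (by
          rintro ((h | h) | h)
          · exact x1 h.2
          · exact x2 h.2
          · exact x3 h.2) ((g1.union g2).union g3),
      Set.ncard_union_eq (Set.disjoint_union_left.2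
        ⟨d13.mono Set.inter_subset_right Set.inter_subset_right,
          d23.mono Set.inter_subset_right Set.inter_subset_right⟩) (g1.union g2) g3,
      Set.ncard_union_eq (d12.mono Set.inter_subset_right Set.inter_subset_right) g1 g2]
  have k1 : ((orbit N x ∩ orbit (stabilizer H x) y1).ncard = 0 ∧
      (orbit N x ∩ orbit (stabilizer H x) y1) = ∅) ∨
      ((orbit N x ∩ orbit (stabilizer H x) y1).ncard = 1 ∧
      (orbit N x ∩ orbit (stabilizer H x) y1) = orbit (stabilizer H x) y1) := by
    rcases hcase y1 with h | h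
    · exact Or.inl ⟨by rw [h, Set.ncard_empty], h⟩
    · exact Or.inr ⟨by rw [Set.inter_eq_right.2 h, n1], Set.inter_eq_right.2 h⟩
  have k2 : ((orbit N x ∩ orbit (stabilizer H x) y2).ncard = 0 ∧
      (orbit N x ∩ orbit (stabilizer H x) y2) = ∅) ∨
      ((orbit N x ∩ orbit (stabilizer H x) y2).ncard = 275 ∧
      (orbit N x ∩ orbit (stabilizer H x) y2) = orbit (stabilizer H x) y2) := by
    rcases hcase y2 with h | h
    · exact Or.inl ⟨by rw [h, Set.ncard_empty], h⟩
    · exact Or.inr ⟨by rw [Set.inter_eq_right.2 h, n2], Set.inter_eq_right.2 h⟩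
  have k3 : ((orbit N x ∩ orbit (stabilizer H x) y3).ncard = 0 ∧
      (orbit N x ∩ orbit (stabilizer H x) y3) = ∅) ∨
      ((orbit N x ∩ orbit (stabilizer H x) y3).ncard = 275 ∧
      (orbit N x ∩ orbit (stabilizer H x) y3) = orbit (stabilizer H x) y3) := by
    rcases hcase y3 with h | h
    · exact Or.inl ⟨by rw [h, Set.ncard_empty], h⟩
    · exact Or.inr ⟨by rw [Set.inter_eq_right.2 h, n3], Set.inter_eq_right.2 h⟩
  rcases k1 with ⟨c1, e1⟩ | ⟨c1, e1⟩ <;> rcases k2 with ⟨c2, e2⟩ | ⟨c2, e2⟩ <;>
    rcases k3 with ⟨c3, e3⟩ | ⟨c3, e3⟩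
  · left
    rw [hdec, e1, e2, e3]
    simp
  · right; right; right; left
    rw [hdec, e1, e2, e3]
    simp
  · right; right; left
    rw [hdec, e1, e2, e3]
    simp
  · exfalso
    rw [hnc, c1, c2, c3] at hdvd
    norm_num at hdvd
  · right; left
    rw [hdec, e1, e2, e3, o1]
    simp
  · exfalso
    rw [hnc, c1, c2, c3] at hdvd
    norm_num at hdvd
  · exfalso
    rw [hnc, c1, c2, c3] at hdvd
    norm_num at hdvd
  · right; right; right; right
    rw [hdec, e1, e2, e3]
    exact cover

/-- A nontrivial normal subgroup acting semiregularly on the orbit has order 276 or 552. -/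
theorem semireg_card (x y1 y2 y3 : L) (hyp : Hyp H L x y1 y2 y3) (N : Subgroup H)
    [hNn : N.Normal] (hN : N ≠ ⊥)
    (hsr : ∀ n ∈ N, ∀ y ∈ orbit H x, n • y = y → n = 1) :
    Nat.card ↥N = 276 ∨ Nat.card ↥N = 552 := by
  classical
  have hΩ := hyp.card
  have hfin : (orbit H x).Finite := Set.finite_of_ncard_ne_zero (by rw [hΩ]; norm_num)
  have sub : ∀ y ∈ orbit H x, orbit (stabilizer H x) y ⊆ orbit H x := by
    rintro y ⟨g, rfl⟩ z ⟨h, rfl⟩
    exact ⟨h.1 * g, mul_smul h.1 g x⟩
  have hcard : Nat.card ↥N = (orbit N x).ncard := by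
    rw [← Nat.card_coe_set_eq]
    apply Nat.card_eq_of_bijective
      (fun n : ↥N => (⟨(n : H) • x, ⟨n, rfl⟩⟩ : ↥(orbit N x)))
    constructor
    · intro n1 n2 e
      have e' : (n1 : H) • x = (n2 : H) • x := congrArg Subtype.val e
      have h1 : ((n1 : H)⁻¹ * (n2 : H)) • x = x := by
        rw [mul_smul, ← e', inv_smul_smul]
      have h2 := hsr _ (N.mul_mem (N.inv_mem n1.2) n2.2) x (mem_orbit_self x) h1
      apply Subtype.ext
      rw [inv_mul_eq_one] at h2
      exact h2
    · rintro ⟨y, n, rfl⟩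
      exact ⟨n, rfl⟩
  rcases orbit_cases x y1 y2 y3 hyp N with e | e | e | e | e
  · exfalso
    apply hN
    rw [Subgroup.eq_bot_iff_forall]
    intro n hn
    apply hsr n hn x (mem_orbit_self x)
    have hm : n • x ∈ orbit N x := (mem_orbit_sub N x _).2 ⟨n, hn, rfl⟩
    rw [e] at hm
    exact hm
  · exfalso
    apply hyp.w1
    have hy1 : y1 ∈ orbit N x := by
      rw [e]
      exact Set.mem_insert_of_mem _ rfl
    obtain ⟨n0, hn0, e0⟩ := (mem_orbit_sub N x y1).1 hy1
    refine ⟨n0, fun g => ?_⟩
    have hc : g⁻¹ * n0 * g ∈ N := hNn.conj_mem' n0 hn0 g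
    have hm : (g⁻¹ * n0 * g) • x ∈ orbit N x := (mem_orbit_sub N x _).2 ⟨_, hc, rfl⟩
    rw [e] at hm
    rcases hm with hm | hm
    · exfalso
      have h1 := hsr _ hc x (mem_orbit_self x) hm
      have h2 : n0 = 1 := by
        have h3 : n0 = g * (g⁻¹ * n0 * g) * g⁻¹ := by group
        rw [h3, h1]
        group
      rw [h2, one_smul] at e0
      exact hyp.ne1 e0.symm
    · have hm' : (g⁻¹ * n0 * g) • x = y1 := hm
      have h3 : n0 • g • x = g • ((g⁻¹ * n0 * g) • x) := by
        rw [← mul_smul, ← mul_smul]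
        congr 1
        group
      rw [h3, hm']
  · left
    rw [hcard, e, Set.ncard_insert_of_notMem (self_notMem x y2 (by rw [hyp.n2]; norm_num))
      (hfin.subset (sub y2 hyp.m2)), hyp.n2]
  · left
    rw [hcard, e, Set.ncard_insert_of_notMem (self_notMem x y3 (by rw [hyp.n3]; norm_num))
      (hfin.subset (sub y3 hyp.m3)), hyp.n3]
  · right
    rw [hcard, e, hΩ]

/-- No nontrivial normal subgroup acts semiregularly on the orbit. -/
theorem no_semireg (x y1 y2 y3 : L) (hyp : Hyp H L x y1 y2 y3) (N : Subgroup H)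
    [hNn : N.Normal] (hN : N ≠ ⊥)
    (hsr : ∀ n ∈ N, ∀ y ∈ orbit H x, n • y = y → n = 1) : False := by
  classical
  have hc := semireg_card x y1 y2 y3 hyp N hN hsr
  have : Finite ↥N := Nat.finite_of_card_ne_zero (by rcases hc with h | h <;> rw [h] <;> norm_num)
  have : Fact (Nat.Prime 23) := ⟨by norm_num⟩
  have hchar : ∀ (K : Subgroup ↥N), K.Characteristic → Nat.card ↥K ≠ 1 →
      Nat.card ↥K ≠ 276 → Nat.card ↥K ≠ 552 → False := by
    intro K hKc h1 h2 h3
    have hQn : (K.map N.subtype).Normal := ConjAct.normal_of_characteristic_of_normal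
    have hQc : Nat.card ↥(K.map N.subtype) = Nat.card ↥K :=
      (Nat.card_congr (K.equivMapOfInjective N.subtype N.subtype_injective).toEquiv).symm
    have hQ : K.map N.subtype ≠ ⊥ := by
      intro h
      rw [h, Subgroup.card_bot] at hQc
      exact h1 hQc.symm
    have hsr' : ∀ n ∈ K.map N.subtype, ∀ y ∈ orbit H x, n • y = y → n = 1 := by
      intro n hn y hy e
      obtain ⟨k, -, rfl⟩ := Subgroup.mem_map.1 hn
      exact hsr _ k.2 y hy e
    rcases semireg_card x y1 y2 y3 hyp _ hQ hsr' with h | h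
    · rw [hQc] at h
      exact h2 h
    · rw [hQc] at h
      exact h3 h
  have hf : (Nat.card ↥N).factorization 23 = 1 := by
    rcases hc with h | h
    · rw [h, Nat.factorization_def _ (by norm_num : Nat.Prime 23)]
      have e : (276 : ℕ) = 23 ^ 1 * 12 := by norm_num
      rw [e, padicValNat.mul (by norm_num) (by norm_num), padicValNat.prime_pow,
        padicValNat.eq_zero_of_not_dvd (by norm_num)]
    · rw [h, Nat.factorization_def _ (by norm_num : Nat.Prime 23)]
      have e : (552 : ℕ) = 23 ^ 1 * 24 := by norm_num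
      rw [e, padicValNat.mul (by norm_num) (by norm_num), padicValNat.prime_pow,
        padicValNat.eq_zero_of_not_dvd (by norm_num)]
  let S : Sylow 23 ↥N := default
  have hS : Nat.card ↥(S : Subgroup ↥N) = 23 := by
    rw [Sylow.card_eq_multiplicity, hf]
    norm_num
  have hidx : (S : Subgroup ↥N).index = 12 ∨ (S : Subgroup ↥N).index = 24 := by
    have h0 := Subgroup.card_mul_index (S : Subgroup ↥N)
    rw [hS] at h0
    rcases hc with h | h
    · left
      rw [h] at h0
      omega
    · right
      rw [h] at h0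
      omega
  have hn : Nat.card (Sylow 23 ↥N) = 1 ∨ Nat.card (Sylow 23 ↥N) = 24 := by
    have hd := Sylow.card_dvd_index S
    have hm := card_sylow_modEq_one 23 ↥N
    unfold Nat.ModEq at hm
    have hle : Nat.card (Sylow 23 ↥N) ≤ 24 := by
      rcases hidx with h | h
      · rw [h] at hd
        have := Nat.le_of_dvd (by norm_num) hd
        omega
      · rw [h] at hd
        exact Nat.le_of_dvd (by norm_num) hd
    omega
  rcases hn with h1 | h24
  · have : Subsingleton (Sylow 23 ↥N) := by
      rw [← Finite.card_le_one_iff_subsingleton, h1]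
    exact hchar _ (Sylow.characteristic_of_subsingleton S) (by rw [hS]; norm_num)
      (by rw [hS]; norm_num) (by rw [hS]; norm_num)
  · have hnidx : (Subgroup.normalizer ((S : Subgroup ↥N) : Set ↥N)).index = 24 := by
      have h0 := Sylow.card_eq_index_normalizer S
      rw [h24] at h0
      exact h0.symm
    have hmul := Subgroup.card_mul_index (Subgroup.normalizer ((S : Subgroup ↥N) : Set ↥N))
    rw [hnidx] at hmul
    have hN552 : Nat.card ↥N = 552 := by
      rcases hc with h | h
      · rw [h] at hmul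
        omega
      · exact h
    have hncard : Nat.card ↥(Subgroup.normalizer ((S : Subgroup ↥N) : Set ↥N)) = 23 := by
      rw [hN552] at hmul
      omega
    have hnS : (S : Subgroup ↥N) = Subgroup.normalizer ((S : Subgroup ↥N) : Set ↥N) := by
      apply Subgroup.eq_of_le_of_card_ge Subgroup.le_normalizer
      rw [hncard, hS]
    have hcyc : IsCyclic ↥(S : Subgroup ↥N) := isCyclic_of_prime_card (p := 23) hS
    have hcomm : IsMulCommutative ↥(S : Subgroup ↥N) := IsCyclic.isMulCommutative
    have hP : Subgroup.normalizer ((S : Subgroup ↥N) : Set ↥N) ≤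
        Subgroup.centralizer ((S : Subgroup ↥N) : Set ↥N) := by
      rw [← hnS]
      intro g hg
      rw [Subgroup.mem_centralizer_iff]
      intro h hh
      have h0 := (isMulCommutative_iff.1 hcomm) (⟨h, hh⟩ : ↥(S : Subgroup ↥N)) ⟨g, hg⟩
      exact congrArg Subtype.val h0
    have hcompl := MonoidHom.ker_transferSylow_isComplement' S hP
    have hKcard : Nat.card ↥(MonoidHom.transferSylow S hP).ker = 24 := by
      have h0 := hcompl.card_mul_card
      rw [hS, hN552] at h0
      omega
    have hKmem : ∀ g : ↥N, g ∈ (MonoidHom.transferSylow S hP).ker ↔ g ^ 24 = 1 := by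
      intro g
      constructor
      · intro hg
        have h0 := pow_card_eq_one' (G := ↥(MonoidHom.transferSylow S hP).ker) (x := ⟨g, hg⟩)
        rw [hKcard] at h0
        exact congrArg Subtype.val h0
      · intro hg
        rw [MonoidHom.mem_ker]
        have h1 : (MonoidHom.transferSylow S hP g) ^ 24 = 1 := by
          rw [← map_pow, hg, map_one]
        have h2 : (MonoidHom.transferSylow S hP g) ^ 23 = 1 := by
          have h0 := pow_card_eq_one' (G := ↥(S : Subgroup ↥N))
            (x := MonoidHom.transferSylow S hP g)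
          rw [hS] at h0
          exact h0
        have h3 : MonoidHom.transferSylow S hP g ^ 24 =
            MonoidHom.transferSylow S hP g ^ 23 * MonoidHom.transferSylow S hP g :=
          pow_succ _ 23
        rw [h1, h2, one_mul] at h3
        exact h3.symm
    have hKchar : ((MonoidHom.transferSylow S hP).ker).Characteristic := by
      refine ⟨fun ϕ => ?_⟩
      ext g
      rw [Subgroup.mem_comap, hKmem, hKmem]
      show (ϕ g) ^ 24 = 1 ↔ g ^ 24 = 1
      rw [← map_pow]
      constructor
      · intro h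
        exact ϕ.injective (by rw [h, map_one])
      · intro h
        rw [h, map_one]
    exact hchar _ hKchar (by rw [hKcard]; norm_num) (by rw [hKcard]; norm_num)
      (by rw [hKcard]; norm_num)

/-- A normal subgroup containing the point stabiliser is everything. -/
theorem top_of_stab_le (x y1 y2 y3 : L) (hyp : Hyp H L x y1 y2 y3) (N : Subgroup H)
    [hNn : N.Normal] (hle : stabilizer H x ≤ N) : N = ⊤ := by
  classical
  have hΩ := hyp.card
  have hfin : (orbit H x).Finite := Set.finite_of_ncard_ne_zero (by rw [hΩ]; norm_num)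
  have hsubN : ∀ y : L, orbit (stabilizer H x) y ⊆ orbit N y := by
    rintro y z ⟨h, rfl⟩
    exact (mem_orbit_sub N y _).2 ⟨h.1, hle h.2, rfl⟩
  rcases orbit_cases x y1 y2 y3 hyp N with e | e | e | e | e
  · exfalso
    obtain ⟨g, hg⟩ := hyp.m2
    have hg' : g • x = y2 := hg
    have e2 : orbit N y2 = {y2} := by
      rw [← hg', orbit_normal_smul, e, Set.image_singleton]
    have hsub : orbit (stabilizer H x) y2 ⊆ {y2} := by
      rw [← e2]
      exact hsubN y2
    have h1 := Set.ncard_le_ncard hsub (Set.finite_singleton _)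
    rw [Set.ncard_singleton, hyp.n2] at h1
    omega
  · exfalso
    obtain ⟨g, hg⟩ := hyp.m2
    have hg' : g • x = y2 := hg
    have e2 : orbit N y2 = (fun y => g • y) '' {x, y1} := by
      rw [← hg', orbit_normal_smul, e]
    have hf2 : (orbit N y2).Finite := by
      rw [e2]
      exact (Set.toFinite _).image _
    have h1 := Set.ncard_le_ncard (hsubN y2) hf2
    have h2 : (orbit N y2).ncard ≤ 2 := by
      rw [e2]
      refine (Set.ncard_image_le (Set.toFinite _)).trans ?_
      refine (Set.ncard_insert_le _ _).trans ?_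
      rw [Set.ncard_singleton]
    rw [hyp.n2] at h1
    omega
  · exfalso
    obtain ⟨g, z, hg, hz, hne, hnot⟩ := hyp.w2
    have hgx : g • x ∈ orbit N x := by
      rw [e]
      exact Set.mem_insert_of_mem _ hg
    have e2 : orbit N (g • x) = orbit N x := orbit_eq_iff.2 hgx
    rw [orbit_normal_smul] at e2
    have hz' : z ∈ orbit N x := by
      rw [e]
      exact Set.mem_insert_of_mem _ hz
    rw [← e2] at hz'
    obtain ⟨t, ht, e3⟩ := hz'
    have e3' : g • t = z := e3
    have e4 : t = g⁻¹ • z := by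
      rw [← e3', inv_smul_smul]
    rw [e] at ht
    rcases ht with ht | ht
    · apply hne
      rw [← e3', ht]
    · apply hnot
      rw [← e4]
      exact ht
  · exfalso
    obtain ⟨g, z, hg, hz, hne, hnot⟩ := hyp.w3
    have hgx : g • x ∈ orbit N x := by
      rw [e]
      exact Set.mem_insert_of_mem _ hg
    have e2 : orbit N (g • x) = orbit N x := orbit_eq_iff.2 hgx
    rw [orbit_normal_smul] at e2
    have hz' : z ∈ orbit N x := by
      rw [e]
      exact Set.mem_insert_of_mem _ hz
    rw [← e2] at hz'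
    obtain ⟨t, ht, e3⟩ := hz'
    have e3' : g • t = z := e3
    have e4 : t = g⁻¹ • z := by
      rw [← e3', inv_smul_smul]
    rw [e] at ht
    rcases ht with ht | ht
    · apply hne
      rw [← e3', ht]
    · apply hnot
      rw [← e4]
      exact ht
  · rw [Subgroup.eq_top_iff']
    intro h
    have hh : h • x ∈ orbit N x := by
      rw [e]
      exact ⟨h, rfl⟩
    obtain ⟨n, hn, e1⟩ := (mem_orbit_sub N x _).1 hh
    have h1 : (n⁻¹ * h) • x = x := by
      rw [mul_smul, ← e1, inv_smul_smul]
    have h2 := N.mul_mem hn (hle h1)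
    rwa [mul_inv_cancel_left] at h2

/-- Simplicity criterion: a group acting on an orbit of size 552 as in `Hyp`, whose point
stabiliser is a homomorphic image of a simple group, is simple. -/
theorem simple552 {M : Type*} [Group M] [IsSimpleGroup M] (x y1 y2 y3 : L)
    (hyp : Hyp H L x y1 y2 y3) (φ : M →* H) (hφ2 : ∀ h : H, h • x = x → ∃ m, φ m = h) :
    IsSimpleGroup H := by
  have : Nontrivial H := by
    obtain ⟨g, hg⟩ := hyp.m1
    have hg' : g • x = y1 := hg
    refine ⟨⟨g, 1, ?_⟩⟩
    intro h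
    rw [h, one_smul] at hg'
    exact hyp.ne1 hg'.symm
  refine ⟨fun N hNn => ?_⟩
  by_cases hN : N = ⊥
  · exact Or.inl hN
  right
  rcases (hNn.comap φ).eq_bot_or_eq_top with hK | hK
  · exfalso
    apply no_semireg x y1 y2 y3 hyp N hN
    intro n hn y hy e
    obtain ⟨g, rfl⟩ := hy
    have e' : n • g • x = g • x := e
    have hc : g⁻¹ * n * g ∈ N := hNn.conj_mem' n hn g
    have hfix : (g⁻¹ * n * g) • x = x := by
      rw [mul_smul, mul_smul, e', inv_smul_smul]
    obtain ⟨m, hm⟩ := hφ2 _ hfix
    have hmem : m ∈ N.comap φ := by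
      rw [Subgroup.mem_comap, hm]
      exact hc
    rw [hK, Subgroup.mem_bot] at hmem
    rw [hmem, map_one] at hm
    have h3 : n = g * (g⁻¹ * n * g) * g⁻¹ := by group
    rw [h3, ← hm]
    group
  · apply top_of_stab_le x y1 y2 y3 hyp N
    intro h hh
    obtain ⟨m, hm⟩ := hφ2 h hh
    have hmem : m ∈ N.comap φ := by
      rw [hK]
      exact Subgroup.mem_top m
    rw [Subgroup.mem_comap, hm] at hmem
    exact hmem

end Imp552
end Cfsg.Agent.Lib.Helper28
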