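import Mathlib
import Cfsg.Prelude.Def_Solvable
import Cfsg.Prelude.Def_Transfer
import Cfsg.Agent.Lib.Helper28.PCore
import Cfsg.Agent.Lib.Helper28.Extra
import Cfsg.Agent.Lib.Helper28.LargeES

set_option autoImplicit false

namespace Cfsg.Agent.Lib.Helper28

open Cfsg

/-- Abstract version: `Q` an extraspecial `2`-subgroup with centre `{1, z}`, containing its
centralizer and normalized by the centralizer of `z`. An element centralizing the centralizer in
`Q` of a non-central involution `u` of `Q` lies in `{1, z, u, z u}`. -/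
theorem es_cent_R {G : Type*} [Group G] (Q : Subgroup G) (hE : IsExtraspecial 2 ↥Q) (z : G)
    (hzQ : z ∈ Q) (hz1 : z ≠ 1) (hzz : z * z = 1) (hzc : ∀ x ∈ Q, z * x = x * z)
    (hall : ∀ x ∈ (Subgroup.center ↥Q).map Q.subtype, x = 1 ∨ x = z)
    (hC : ∀ d : G, (∀ x ∈ Q, d * x = x * d) → d ∈ Q)
    (hN : ∀ m : G, m * z = z * m → ∀ x ∈ Q, m * x * m⁻¹ ∈ Q)
    (u : G) (hu : u ∈ Q) (hu1 : u ≠ 1) (huz : u ≠ z) (huu : u * u = 1) (m : G)
    (hm : ∀ r ∈ Q, r * u = u * r → m * r = r * m) :
    m = 1 ∨ m = z ∨ m = u ∨ m = z * u := by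
  have huinv : u⁻¹ = u := inv_eq_of_mul_eq_one_left huu
  have huZ : u ∉ (Subgroup.center ↥(Q)).map (Q).subtype := by
    intro h
    rcases hall u h with h | h
    · exact hu1 h
    · exact huz h
  obtain ⟨w, hw, hwu⟩ := extraspecial_conj (Q) hE hall hu huZ
  have hwz : w * z = z * w := (hzc w hw).symm
  have huz' : u * z = z * u := (hzc u hu).symm
  have hmz : m * z = z * m := hm z hzQ (hzc u hu)
  have hmQ : ∀ x ∈ Q, m * x * m⁻¹ ∈ Q := hN m hmz
  have E1 : w * u = z * u * w := by
    calc w * u = (w * u * w⁻¹) * w := by group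
      _ = z * u * w := by rw [hwu]
  have E2 : u * w = z * w * u := by
    calc u * w = (z * z) * u * w := by rw [hzz, one_mul]
      _ = z * (z * u * w) := by group
      _ = z * (w * u) := by rw [← E1]
      _ = z * w * u := by group
  have E3 : u * w⁻¹ = w⁻¹ * (z * u) := by
    calc u * w⁻¹ = w⁻¹ * (w * u) * w⁻¹ := by group
      _ = w⁻¹ * (z * u * w) * w⁻¹ := by rw [E1]
      _ = w⁻¹ * (z * u) := by group
  have E4 : w⁻¹ * u = z * u * w⁻¹ := by
    calc w⁻¹ * u = w⁻¹ * (u * w) * w⁻¹ := by group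
      _ = w⁻¹ * (z * w * u) * w⁻¹ := by rw [E2]
      _ = w⁻¹ * (z * w) * u * w⁻¹ := by group
      _ = w⁻¹ * (w * z) * u * w⁻¹ := by rw [hwz]
      _ = z * u * w⁻¹ := by group
  have hsplit : ∀ x ∈ Q, x * u = u * x ∨ (w⁻¹ * x) * u = u * (w⁻¹ * x) := by
    intro x hx
    rcases les_comm (Q) hE hall hx hu with h | h
    · left
      calc x * u = (x * u * x⁻¹ * u⁻¹) * (u * x) := by group
        _ = u * x := by rw [h, one_mul]
    · right
      have hx' : x * u = z * u * x := by
        calc x * u = (x * u * x⁻¹ * u⁻¹) * (u * x) := by group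
          _ = z * (u * x) := by rw [h]
          _ = z * u * x := by group
      calc w⁻¹ * x * u = w⁻¹ * (x * u) := by group
        _ = w⁻¹ * (z * u * x) := by rw [hx']
        _ = (w⁻¹ * (z * u)) * x := by group
        _ = (u * w⁻¹) * x := by rw [E3]
        _ = u * (w⁻¹ * x) := by group
  have hext : ∀ d : G, (∀ r ∈ Q, r * u = u * r → d * r = r * d) → d * w = w * d →
      ∀ x ∈ Q, d * x = x * d := by
    intro d hdR hdw x hx
    rcases hsplit x hx with h | h
    · exact hdR x hx h
    · have h' := hdR (w⁻¹ * x) (Subgroup.mul_mem _ (Subgroup.inv_mem _ hw) hx) h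
      calc d * x = d * w * (w⁻¹ * x) := by group
        _ = w * d * (w⁻¹ * x) := by rw [hdw]
        _ = w * (d * (w⁻¹ * x)) := by group
        _ = w * ((w⁻¹ * x) * d) := by rw [h']
        _ = x * d := by group
  have hcentral : ∀ d : G, (∀ x ∈ Q, d * x = x * d) → d = 1 ∨ d = z := by
    intro d hd
    have hdQ : d ∈ Q := hC d hd
    apply hall
    refine ⟨⟨d, hdQ⟩, ?_, rfl⟩
    rw [SetLike.mem_coe, Subgroup.mem_center_iff]
    intro q
    apply Subtype.ext
    exact (hd q q.2).symm
  have hdc : ∀ c ∈ Q, (∀ r ∈ Q, r * u = u * r → c * r = r * c) →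
      c = 1 ∨ c = z ∨ c = u ∨ c = z * u := by
    intro c hc hcR
    rcases les_comm (Q) hE hall hw hc with h | h
    · have hcw : c * w = w * c := by
        calc c * w = (w * c * w⁻¹ * c⁻¹)⁻¹ * (w * c) := by group
          _ = w * c := by rw [h]; group
      rcases hcentral c (hext c hcR hcw) with h1 | h1
      · left
        exact h1
      · right
        left
        exact h1
    · have hwc : w * c = z * c * w := by
        calc w * c = (w * c * w⁻¹ * c⁻¹) * (c * w) := by group
          _ = z * c * w := by rw [h]; group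
      have hdR : ∀ r ∈ Q, r * u = u * r → (c * u) * r = r * (c * u) := by
        intro r hr hru
        calc c * u * r = c * (u * r) := by group
          _ = c * (r * u) := by rw [hru]
          _ = (c * r) * u := by group
          _ = (r * c) * u := by rw [hcR r hr hru]
          _ = r * (c * u) := by group
      have hdw : (c * u) * w = w * (c * u) := by
        have hzc' : z * c = c * z := hzc c hc
        calc c * u * w = c * (u * w) := by group
          _ = c * (z * w * u) := by rw [E2]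
          _ = (c * z) * w * u := by group
          _ = (z * c) * w * u := by rw [hzc']
          _ = (z * c * w) * u := by group
          _ = (w * c) * u := by rw [← hwc]
          _ = w * (c * u) := by group
      rcases hcentral (c * u) (hext (c * u) hdR hdw) with h1 | h1
      · right
        right
        left
        calc c = (c * u) * u⁻¹ := by group
          _ = u⁻¹ := by rw [h1, one_mul]
          _ = u := huinv
      · right
        right
        right
        calc c = (c * u) * u⁻¹ := by group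
          _ = z * u := by rw [h1, huinv]
  -- the element c = w⁻¹ (m w m⁻¹)
  have hcQ : w⁻¹ * (m * w * m⁻¹) ∈ Q :=
    Subgroup.mul_mem _ (Subgroup.inv_mem _ hw) (hmQ w hw)
  have hwR : ∀ r ∈ Q, r * u = u * r → (w * r * w⁻¹) * u = u * (w * r * w⁻¹) := by
    intro r hr hru
    calc w * r * w⁻¹ * u = w * r * (w⁻¹ * u) := by group
      _ = w * r * (z * u * w⁻¹) := by rw [E4]
      _ = w * (r * z) * u * w⁻¹ := by group
      _ = w * (z * r) * u * w⁻¹ := by rw [hzc r hr]
      _ = w * z * (r * u) * w⁻¹ := by group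
      _ = w * z * (u * r) * w⁻¹ := by rw [hru]
      _ = (w * z) * u * r * w⁻¹ := by group
      _ = (z * w) * u * r * w⁻¹ := by rw [hwz]
      _ = z * (w * u) * r * w⁻¹ := by group
      _ = z * (z * u * w) * r * w⁻¹ := by rw [E1]
      _ = (z * z) * u * (w * r * w⁻¹) := by group
      _ = u * (w * r * w⁻¹) := by rw [hzz, one_mul]
  have hcR : ∀ r ∈ Q, r * u = u * r →
      (w⁻¹ * (m * w * m⁻¹)) * r = r * (w⁻¹ * (m * w * m⁻¹)) := by
    intro r hr hru
    have h1 : m * r = r * m := hm r hr hru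
    have h1' : m⁻¹ * r = r * m⁻¹ := by
      calc m⁻¹ * r = m⁻¹ * (r * m) * m⁻¹ := by group
        _ = m⁻¹ * (m * r) * m⁻¹ := by rw [h1]
        _ = r * m⁻¹ := by group
    have h2 : m * (w * r * w⁻¹) = (w * r * w⁻¹) * m :=
      hm _ (Subgroup.mul_mem _ (Subgroup.mul_mem _ hw hr) (Subgroup.inv_mem _ hw)) (hwR r hr hru)
    calc w⁻¹ * (m * w * m⁻¹) * r = w⁻¹ * (m * w * (m⁻¹ * r)) := by group
      _ = w⁻¹ * (m * w * (r * m⁻¹)) := by rw [h1']
      _ = w⁻¹ * (m * (w * r * w⁻¹)) * w * m⁻¹ := by group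
      _ = w⁻¹ * ((w * r * w⁻¹) * m) * w * m⁻¹ := by rw [h2]
      _ = r * (w⁻¹ * (m * w * m⁻¹)) := by group
  have hmw : m * w * m⁻¹ = w * (w⁻¹ * (m * w * m⁻¹)) := by group
  -- squares
  have hw2R : (w * w) * u = u * (w * w) := by
    calc w * w * u = w * (w * u) := by group
      _ = w * (z * u * w) := by rw [E1]
      _ = (w * z) * u * w := by group
      _ = (z * w) * u * w := by rw [hwz]
      _ = z * (w * u) * w := by group
      _ = z * (z * u * w) * w := by rw [E1]
      _ = (z * z) * u * (w * w) := by group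
      _ = u * (w * w) := by rw [hzz, one_mul]
  have hmw2 : m * (w * w) = (w * w) * m := hm (w * w) (Subgroup.mul_mem _ hw hw) hw2R
  have hsq : (m * w * m⁻¹) * (m * w * m⁻¹) = w * w := by
    calc (m * w * m⁻¹) * (m * w * m⁻¹) = m * (w * w) * m⁻¹ := by group
      _ = (w * w) * m * m⁻¹ := by rw [hmw2]
      _ = w * w := by group
  have hzfalse : z * (w * w) = w * w → False := by
    intro key
    apply hz1
    calc z = (z * (w * w)) * (w * w)⁻¹ := by group
      _ = (w * w) * (w * w)⁻¹ := by rw [key]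
      _ = 1 := by group
  rcases hdc _ hcQ hcR with h | h | h | h
  · -- m commutes with w
    rw [h, mul_one] at hmw
    have hmw' : m * w = w * m := by
      calc m * w = (m * w * m⁻¹) * m := by group
        _ = w * m := by rw [hmw]
    rcases hcentral m (hext m hm hmw') with h1 | h1
    · left
      exact h1
    · right
      left
      exact h1
  · rw [h] at hmw
    have hR' : ∀ r ∈ Q, r * u = u * r → (u * m) * r = r * (u * m) := by
      intro r hr hru
      calc u * m * r = u * (m * r) := by group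
        _ = u * (r * m) := by rw [hm r hr hru]
        _ = (u * r) * m := by group
        _ = (r * u) * m := by rw [hru]
        _ = r * (u * m) := by group
    have hw' : (u * m) * w = w * (u * m) := by
      calc u * m * w = u * (m * w * m⁻¹) * m := by group
        _ = u * (w * z) * m := by rw [hmw]
        _ = (u * w) * z * m := by group
        _ = (z * w * u) * z * m := by rw [E2]
        _ = z * w * (u * z) * m := by group
        _ = z * w * (z * u) * m := by rw [huz']
        _ = z * (w * z) * u * m := by group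
        _ = z * (z * w) * u * m := by rw [hwz]
        _ = (z * z) * w * u * m := by group
        _ = w * (u * m) := by rw [hzz]; group
    rcases hcentral (u * m) (hext (u * m) hR' hw') with h1 | h1
    · right
      right
      left
      calc m = u⁻¹ * (u * m) := by group
        _ = u⁻¹ := by rw [h1, mul_one]
        _ = u := huinv
    · right
      right
      right
      calc m = u⁻¹ * (u * m) := by group
        _ = u * z := by rw [h1, huinv]
        _ = z * u := huz'
  · exfalso
    rw [h] at hmw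
    rw [hmw] at hsq
    have e : w * u * (w * u) = z * (w * w) := by
      calc w * u * (w * u) = w * (u * w) * u := by group
        _ = w * (z * w * u) * u := by rw [E2]
        _ = (w * z) * w * (u * u) := by group
        _ = (z * w) * w * 1 := by rw [hwz, huu]
        _ = z * (w * w) := by group
    exact hzfalse (e.symm.trans hsq)
  · exfalso
    rw [h] at hmw
    rw [hmw] at hsq
    have e : w * (z * u) * (w * (z * u)) = z * (w * w) := by
      calc w * (z * u) * (w * (z * u)) = (w * z) * (u * w) * (z * u) := by group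
        _ = (z * w) * (z * w * u) * (z * u) := by rw [hwz, E2]
        _ = z * (w * z) * w * (u * z) * u := by group
        _ = z * (z * w) * w * (z * u) * u := by rw [hwz, huz']
        _ = (z * z) * w * (w * z) * (u * u) := by group
        _ = 1 * w * (z * w) * 1 := by rw [hzz, hwz, huu]
        _ = (w * z) * w := by group
        _ = (z * w) * w := by rw [hwz]
        _ = z * (w * w) := by group
    exact hzfalse (e.symm.trans hsq)

/-- Abstract symmetry: `Q` an extraspecial `2`-subgroup with centre `{1, z}`, containing its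
centralizer and normalized by the centralizer of `z`. If `u = g z g⁻¹ ∈ Q` and `u ≠ z`, then
`g⁻¹ z g ∈ Q`, that is, `z` lies in the conjugate `g Q g⁻¹`. -/
theorem es_symm {G : Type*} [Group G] [Finite G] (Q : Subgroup G) (hE : IsExtraspecial 2 ↥Q)
    (z : G) (hzQ : z ∈ Q) (hz1 : z ≠ 1) (hzz : z * z = 1) (hzc : ∀ x ∈ Q, z * x = x * z)
    (hall : ∀ x ∈ (Subgroup.center ↥Q).map Q.subtype, x = 1 ∨ x = z)
    (hC : ∀ d : G, (∀ x ∈ Q, d * x = x * d) → d ∈ Q)
    (hN : ∀ m : G, m * z = z * m → ∀ x ∈ Q, m * x * m⁻¹ ∈ Q)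
    (g : G) (hx : g * z * g⁻¹ ∈ Q) (huz : g * z * g⁻¹ ≠ z) : g⁻¹ * z * g ∈ Q := by
  classical
  haveI : Fact (Nat.Prime 2) := ⟨Nat.prime_two⟩
  obtain ⟨u, hudef⟩ : ∃ u, u = g * z * g⁻¹ := ⟨_, rfl⟩
  rw [← hudef] at hx huz
  obtain ⟨Qu, hQudef⟩ : ∃ Qu : Subgroup G, Qu = Q.map (MulAut.conj g).toMonoidHom := ⟨_, rfl⟩
  have hQu : ∀ x, x ∈ Qu ↔ g⁻¹ * x * g ∈ Q := by
    intro x
    rw [hQudef]
    constructor
    · rintro ⟨y, hy, rfl⟩
      have e : g⁻¹ * ((MulAut.conj g).toMonoidHom y) * g = y := by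
        show g⁻¹ * (MulAut.conj g y) * g = y
        rw [MulAut.conj_apply]
        group
      rw [e]
      exact hy
    · intro h
      refine ⟨g⁻¹ * x * g, h, ?_⟩
      show MulAut.conj g (g⁻¹ * x * g) = x
      rw [MulAut.conj_apply]
      group
  suffices hgoal : z ∈ Qu from (hQu z).mp hgoal
  have huQu : u ∈ Qu := by
    rw [hQu, hudef]
    have e : g⁻¹ * (g * z * g⁻¹) * g = z := by group
    rw [e]
    exact hzQ
  have hu1 : u ≠ 1 := by
    intro h
    apply hz1
    rw [hudef] at h
    calc z = g⁻¹ * (g * z * g⁻¹) * g := by group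
      _ = 1 := by rw [h]; group
  have huu : u * u = 1 := by
    rw [hudef]
    calc g * z * g⁻¹ * (g * z * g⁻¹) = g * (z * z) * g⁻¹ := by group
      _ = 1 := by rw [hzz]; group
  have hzu : z * u = u * z := hzc u hx
  have hQuc : ∀ x ∈ Qu, u * x = x * u := by
    intro x hxQ
    rw [hQu] at hxQ
    have h1 := hzc _ hxQ
    rw [hudef]
    calc g * z * g⁻¹ * x = g * (z * (g⁻¹ * x * g)) * g⁻¹ := by group
      _ = g * ((g⁻¹ * x * g) * z) * g⁻¹ := by rw [h1]
      _ = x * (g * z * g⁻¹) := by group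
  have hCu : ∀ d : G, (∀ x ∈ Qu, d * x = x * d) → d ∈ Qu := by
    intro d hd
    rw [hQu]
    apply hC
    intro y hy
    have hy' : g * y * g⁻¹ ∈ Qu := by
      rw [hQu]
      have e : g⁻¹ * (g * y * g⁻¹) * g = y := by group
      rw [e]
      exact hy
    have h1 := hd _ hy'
    calc g⁻¹ * d * g * y = g⁻¹ * (d * (g * y * g⁻¹)) * g := by group
      _ = g⁻¹ * ((g * y * g⁻¹) * d) * g := by rw [h1]
      _ = y * (g⁻¹ * d * g) := by group
  have hconjQu : ∀ t : G, u * t = t * u → ∀ h ∈ Qu, t * h * t⁻¹ ∈ Qu := by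
    intro t ht h hh
    rw [hQu] at hh ⊢
    have hm : (g⁻¹ * t * g) * z = z * (g⁻¹ * t * g) := by
      calc g⁻¹ * t * g * z = g⁻¹ * (t * (g * z * g⁻¹)) * g := by group
        _ = g⁻¹ * (t * u) * g := by rw [hudef]
        _ = g⁻¹ * (u * t) * g := by rw [ht]
        _ = g⁻¹ * ((g * z * g⁻¹) * t) * g := by rw [hudef]
        _ = z * (g⁻¹ * t * g) := by group
    have h1 := hN _ hm _ hh
    have e : g⁻¹ * t * g * (g⁻¹ * h * g) * (g⁻¹ * t * g)⁻¹ = g⁻¹ * (t * h * t⁻¹) * g := by group
    rw [e] at h1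
    exact h1
  have huZ : u ∉ (Subgroup.center ↥Q).map Q.subtype := by
    intro h
    rcases hall u h with h | h
    · exact hu1 h
    · exact huz h
  obtain ⟨q, hq, hqu⟩ := extraspecial_conj Q hE hall hx huZ
  have hqz : q * z * q⁻¹ = z := by
    have := hzc q hq
    calc q * z * q⁻¹ = (z * q) * q⁻¹ := by rw [this]
      _ = z := by group
  have hfin : ∀ s : G, s * u = u * s → s * z * s⁻¹ = z * u → z ∈ Qu := by
    intro s hsu hsz
    have e1 : (q * s) * z * (q * s)⁻¹ = u := by
      calc (q * s) * z * (q * s)⁻¹ = q * (s * z * s⁻¹) * q⁻¹ := by group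
        _ = q * (z * u) * q⁻¹ := by rw [hsz]
        _ = (q * z * q⁻¹) * (q * u * q⁻¹) := by group
        _ = z * (z * u) := by rw [hqz, hqu]
        _ = u := by rw [← mul_assoc, hzz, one_mul]
    have e2 : (q * s) * u * (q * s)⁻¹ = z * u := by
      calc (q * s) * u * (q * s)⁻¹ = q * (s * u) * s⁻¹ * q⁻¹ := by group
        _ = q * (u * s) * s⁻¹ * q⁻¹ := by rw [hsu]
        _ = q * u * q⁻¹ := by group
        _ = z * u := hqu
    have e3 : (q * s) * (z * u) * (q * s)⁻¹ = z := by
      calc (q * s) * (z * u) * (q * s)⁻¹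
          = ((q * s) * z * (q * s)⁻¹) * ((q * s) * u * (q * s)⁻¹) := by group
        _ = u * (z * u) := by rw [e1, e2]
        _ = (u * z) * u := by group
        _ = (z * u) * u := by rw [hzu]
        _ = z := by rw [mul_assoc, huu, mul_one]
    have e4 : (g⁻¹ * (q * s)) * z = z * (g⁻¹ * (q * s)) := by
      calc (g⁻¹ * (q * s)) * z = g⁻¹ * ((q * s) * z * (q * s)⁻¹) * (q * s) := by group
        _ = g⁻¹ * u * (q * s) := by rw [e1]
        _ = g⁻¹ * (g * z * g⁻¹) * (q * s) := by rw [hudef]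
        _ = z * (g⁻¹ * (q * s)) := by group
    have h5 := hN _ e4 (z * u) (Q.mul_mem hzQ hx)
    have e5 : g⁻¹ * (q * s) * (z * u) * (g⁻¹ * (q * s))⁻¹
        = g⁻¹ * ((q * s) * (z * u) * (q * s)⁻¹) * g := by group
    rw [e5, e3] at h5
    exact (hQu z).mpr h5
  have hmemC : ∀ (a x : G), x ∈ Subgroup.centralizer ({a} : Set G) ↔ a * x = x * a := by
    intro a x
    rw [Subgroup.mem_centralizer_iff]
    constructor
    · intro h
      exact h a (Set.mem_singleton a)
    · intro h b hb
      rw [Set.mem_singleton_iff] at hb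
      rw [hb]
      exact h
  obtain ⟨K, hK⟩ : ∃ K : Subgroup G,
      K = Subgroup.centralizer ({z} : Set G) ⊓ Subgroup.centralizer ({u} : Set G) := ⟨_, rfl⟩
  obtain ⟨R, hR⟩ : ∃ R : Subgroup G, R = Q ⊓ Subgroup.centralizer ({u} : Set G) := ⟨_, rfl⟩
  have hKmem : ∀ x, x ∈ K ↔ z * x = x * z ∧ u * x = x * u := by
    intro x
    rw [hK, Subgroup.mem_inf, hmemC, hmemC]
  have hRmem : ∀ x, x ∈ R ↔ x ∈ Q ∧ u * x = x * u := by
    intro x
    rw [hR, Subgroup.mem_inf, hmemC]
  have hRK : R ≤ K := by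
    intro r hr
    rw [hRmem] at hr
    rw [hKmem]
    exact ⟨hzc r hr.1, hr.2⟩
  have hR2 : IsPGroup 2 ↥R := by
    rw [hR]
    exact hE.1.1.to_le inf_le_left
  obtain ⟨T₁, hRT₁, hT₁max⟩ := Finite.exists_le_maximal
    (p := fun T : Subgroup G => IsPGroup 2 ↥T ∧ T ≤ K ∧ R ≤ T) (a := R) ⟨hR2, hRK, le_refl R⟩
  obtain ⟨⟨hT₁2, hT₁K, -⟩, hT₁m⟩ := hT₁max
  have hKHu : K ≤ Subgroup.centralizer ({u} : Set G) := by
    rw [hK]
    exact inf_le_right
  obtain ⟨T', hT₁T', hT'max⟩ := Finite.exists_le_maximal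
    (p := fun T : Subgroup G => IsPGroup 2 ↥T ∧ T ≤ Subgroup.centralizer ({u} : Set G) ∧ T₁ ≤ T)
    (a := T₁) ⟨hT₁2, hT₁K.trans hKHu, le_refl T₁⟩
  obtain ⟨⟨hT'2, hT'H, -⟩, hT'm⟩ := hT'max
  by_cases hTT : T' ≤ T₁
  · have hnorm : T' ≤ Subgroup.normalizer ((Qu : Subgroup G) : Set G) := by
      intro t ht
      have htc : u * t = t * u := (hmemC u t).mp (hT'H ht)
      rw [Subgroup.mem_normalizer_iff]
      intro h
      constructor
      · intro hh
        exact hconjQu t htc h hh
      · intro hh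
        have htc' : u * t⁻¹ = t⁻¹ * u := by
          calc u * t⁻¹ = t⁻¹ * (t * u) * t⁻¹ := by group
            _ = t⁻¹ * (u * t) * t⁻¹ := by rw [htc]
            _ = t⁻¹ * u := by group
        have := hconjQu t⁻¹ htc' _ hh
        have e : t⁻¹ * (t * h * t⁻¹) * t⁻¹⁻¹ = h := by group
        rw [e] at this
        exact this
    have hQu2 : IsPGroup 2 ↥Qu := by
      rw [hQudef]
      exact hE.1.1.map _
    have hsup2 : IsPGroup 2 ↥(T' ⊔ Qu) := IsPGroup.to_sup_of_normal_right' hT'2 hQu2 hnorm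
    have hsupH : T' ⊔ Qu ≤ Subgroup.centralizer ({u} : Set G) :=
      sup_le hT'H (fun x hx => (hmemC u x).mpr (hQuc x hx))
    have hQuT' : Qu ≤ T' :=
      le_sup_right.trans (hT'm ⟨hsup2, hsupH, hT₁T'.trans le_sup_left⟩ le_sup_left)
    apply hCu
    intro h hh
    have h1 : h ∈ K := hT₁K (hTT (hQuT' hh))
    rw [hKmem] at h1
    exact h1.1
  · haveI : Group.IsNilpotent ↥T' := hT'2.isNilpotent
    have hlt : T₁.subgroupOf T' < ⊤ := by
      rw [lt_top_iff_ne_top, Ne, Subgroup.subgroupOf_eq_top]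
      exact hTT
    have hnc := Group.normalizerCondition_of_isNilpotent (G := ↥T') _ hlt
    obtain ⟨s', hs'N, hs'T⟩ := SetLike.exists_of_lt hnc
    rw [Subgroup.mem_normalizer_iff] at hs'N
    have hsT₁ : (s' : G) ∉ T₁ := fun h => hs'T (Subgroup.mem_subgroupOf.mpr h)
    have hsconj' : ∀ t ∈ T₁, (s' : G)⁻¹ * t * (s' : G) ∈ T₁ := by
      intro t ht
      have h1 : s' * (s'⁻¹ * ⟨t, hT₁T' ht⟩ * s') * s'⁻¹ ∈ T₁.subgroupOf T' := by
        have e : s' * (s'⁻¹ * ⟨t, hT₁T' ht⟩ * s') * s'⁻¹ = ⟨t, hT₁T' ht⟩ := by group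
        rw [e]
        exact Subgroup.mem_subgroupOf.mpr ht
      have := (hs'N _).mpr h1
      exact Subgroup.mem_subgroupOf.mp this
    obtain ⟨s, hs⟩ : ∃ s : G, s = (s' : G) := ⟨_, rfl⟩
    rw [← hs] at hsT₁ hsconj'
    have hsT' : s ∈ T' := by
      rw [hs]
      exact s'.2
    have hsu : s * u = u * s := ((hmemC u s).mp (hT'H hsT')).symm
    have hsK : s ∉ K := by
      intro hsK
      have h2 : IsPGroup 2 ↥(T₁ ⊔ Subgroup.zpowers s) :=
        hT'2.to_le (sup_le hT₁T' (by rw [Subgroup.zpowers_le]; exact hsT'))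
      have h3 : T₁ ⊔ Subgroup.zpowers s ≤ K :=
        sup_le hT₁K (by rw [Subgroup.zpowers_le]; exact hsK)
      have h4 := hT₁m ⟨h2, h3, hRT₁.trans le_sup_left⟩ le_sup_left
      exact hsT₁ (h4 (le_sup_right (a := T₁) (Subgroup.mem_zpowers s)))
    have hsz : ¬ (z * s = s * z) := by
      intro h
      apply hsK
      rw [hKmem]
      exact ⟨h, hsu.symm⟩
    have hm : ∀ r ∈ Q, r * u = u * r → (s * z * s⁻¹) * r = r * (s * z * s⁻¹) := by
      intro r hr hru
      have hrR : r ∈ R := by
        rw [hRmem]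
        exact ⟨hr, hru.symm⟩
      have h1 : s⁻¹ * r * s ∈ K := hT₁K (hsconj' r (hRT₁ hrR))
      rw [hKmem] at h1
      have h2 := h1.1
      calc s * z * s⁻¹ * r = s * (z * (s⁻¹ * r * s)) * s⁻¹ := by group
        _ = s * ((s⁻¹ * r * s) * z) * s⁻¹ := by rw [h2]
        _ = r * (s * z * s⁻¹) := by group
    rcases es_cent_R Q hE z hzQ hz1 hzz hzc hall hC hN u hx hu1 huz huu (s * z * s⁻¹) hm
      with h | h | h | h
    · exfalso
      apply hz1
      calc z = s⁻¹ * (s * z * s⁻¹) * s := by group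
        _ = 1 := by rw [h]; group
    · exfalso
      apply hsz
      calc z * s = (s * z * s⁻¹) * s := by rw [h]
        _ = s * z := by group
    · exfalso
      apply huz
      calc u = s⁻¹ * (s * u) := by group
        _ = s⁻¹ * (u * s) := by rw [hsu]
        _ = s⁻¹ * ((s * z * s⁻¹) * s) := by rw [h]
        _ = z := by group
    · exact hfin s hsu h

/-- A `p`-subgroup of `C` normalized by `C` lies in the image of the `p`-core of `C`. -/
theorem le_pCore_map_of_normal {G : Type*} [Group G] {p : ℕ} (C N : Subgroup G) (hNC : N ≤ C)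
    (hp : IsPGroup p ↥N) (hn : ∀ c ∈ C, ∀ x ∈ N, c * x * c⁻¹ ∈ N) :
    N ≤ (pCore p ↥C).map C.subtype := by
  haveI : (N.subgroupOf C).Normal := by
    constructor
    intro x hx c
    rw [Subgroup.mem_subgroupOf] at hx ⊢
    exact hn c c.2 x hx
  have h1 : IsPGroup p ↥(N.subgroupOf C) := hp.comap_subtype
  have h2 := le_pCore (N.subgroupOf C) h1
  intro x hx
  exact ⟨⟨x, hNC hx⟩, h2 (by rw [Subgroup.mem_subgroupOf]; exact hx), rfl⟩

end Cfsg.Agent.Lib.Helper28
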