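import Cfsg.Agent.Lib.Helper28.Leech
import Cfsg.Agent.Lib.Helper4.Leech
import Cfsg.Agent.S0372

set_option autoImplicit false

namespace Cfsg.Agent.Lib.Helper28

open Cfsg

theorem zval_cast (a : ZMod 2) : (((a.val : ℕ) : ℤ) : ZMod 2) = a := by
  revert a
  decide

theorem zval_cases (a : ZMod 2) : (((a.val : ℕ) : ℤ)) = 0 ∨ (((a.val : ℕ) : ℤ)) = 1 := by
  revert a
  decide

theorem sum_zval (c : GolayPt → ZMod 2) :
    ∑ i, (((c i).val : ℕ) : ℤ) = ((support₂ c).card : ℤ) := by
  classical
  have h : ∀ i, (((c i).val : ℕ) : ℤ) = if i ∈ support₂ c then 1 else 0 := by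
    intro i
    have hm := mem_support₂ c i
    rcases z2_cases (c i) with h | h
    · have : i ∉ support₂ c := by
        rw [hm, h]
        decide
      rw [if_neg this, h]
      rfl
    · have : i ∈ support₂ c := by
        rw [hm, h]
      rw [if_pos this, h]
      rfl
  rw [Finset.sum_congr rfl (fun i _ => h i), Finset.sum_ite_mem, Finset.univ_inter,
    Finset.sum_const, nsmul_eq_mul, mul_one]

/-- Integer indicator of the squares modulo 23. -/
def qI : GolayPt → ℤ := fun i => (((qrWord 0 i).val : ℕ) : ℤ)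

theorem qI_cases (i : GolayPt) : qI i = 0 ∨ qI i = 1 := zval_cases _

theorem qI_cast (i : GolayPt) : ((qI i : ℤ) : ZMod 2) = qrWord 0 i := zval_cast _

theorem qr_projInv : ∀ i : GolayPt, qrWord 0 (projInv i) = qrWord 0 i + 1 := by
  decide +kernel

theorem qI_projInv (i : GolayPt) : qI (projInv i) = 1 - qI i := by
  unfold qI
  rw [qr_projInv i]
  rcases z2_cases (qrWord 0 i) with h | h
  · rw [h]
    rfl
  · rw [h]
    rfl

theorem projInv_projInv (i : GolayPt) : projInv (projInv i) = i := projInv.left_inv i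

theorem qr_mem : qrWord 0 ∈ golayCode := Submodule.subset_span (Or.inl ⟨0, rfl⟩)

theorem sum_qI : ∑ i, qI i = 12 := by
  unfold qI
  rw [sum_zval]
  have : (support₂ (qrWord 0)).card = 12 := by
    rcases golay_weight _ qr_mem with h | h | h | h | h
    · exfalso
      have h0 : (0 : ZMod 23) ^ 2 + 0 = 0 := by decide
      have : (some (0 : ZMod 23) : GolayPt) ∈ support₂ (qrWord 0) := by
        rw [mem_support₂]
        show (if ∃ r : ZMod 23, (0 : ZMod 23) = r ^ 2 + 0 then (1 : ZMod 2) else 0) = 1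
        rw [if_pos ⟨0, by decide⟩]
      rw [Finset.card_eq_zero] at h
      rw [h] at this
      exact absurd this (Finset.notMem_empty _)
    · exfalso
      have hsum : ∑ i, qI (projInv i) = ∑ i, qI i := Equiv.sum_comp projInv qI
      have h2 : ∑ i, qI (projInv i) = ∑ i, (1 - qI i) :=
        Finset.sum_congr rfl (fun i _ => qI_projInv i)
      rw [h2, Finset.sum_sub_distrib, Finset.sum_const, Finset.card_univ, card_golayPt] at hsum
      have h3 : ∑ i, qI i = ((support₂ (qrWord 0)).card : ℤ) := sum_zval _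
      rw [h3, h] at hsum
      norm_num at hsum
    · exact h
    · exfalso
      have hsum : ∑ i, qI (projInv i) = ∑ i, qI i := Equiv.sum_comp projInv qI
      have h2 : ∑ i, qI (projInv i) = ∑ i, (1 - qI i) :=
        Finset.sum_congr rfl (fun i _ => qI_projInv i)
      rw [h2, Finset.sum_sub_distrib, Finset.sum_const, Finset.card_univ, card_golayPt] at hsum
      have h3 : ∑ i, qI i = ((support₂ (qrWord 0)).card : ℤ) := sum_zval _
      rw [h3, h] at hsum
      norm_num at hsum
    · exfalso
      have hsum : ∑ i, qI (projInv i) = ∑ i, qI i := Equiv.sum_comp projInv qI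
      have h2 : ∑ i, qI (projInv i) = ∑ i, (1 - qI i) :=
        Finset.sum_congr rfl (fun i _ => qI_projInv i)
      rw [h2, Finset.sum_sub_distrib, Finset.sum_const, Finset.card_univ, card_golayPt] at hsum
      have h3 : ∑ i, qI i = ((support₂ (qrWord 0)).card : ℤ) := sum_zval _
      rw [h3, h] at hsum
      norm_num at hsum
  rw [this]
  rfl

/-- The monomial map: permute coordinates by `x ↦ -1/x` and change sign on the squares. -/
def Gv (x : GolayPt → ℤ) : GolayPt → ℤ := fun i => (1 - 2 * qI i) * x (projInv i)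

theorem Gv_apply (x : GolayPt → ℤ) (i : GolayPt) : Gv x i = (1 - 2 * qI i) * x (projInv i) := rfl

theorem Gv_add (x x' : GolayPt → ℤ) : Gv (x + x') = Gv x + Gv x' := by
  funext i
  simp only [Gv_apply, Pi.add_apply]
  ring

theorem Gv_neg (x : GolayPt → ℤ) : Gv (-x) = -Gv x := by
  funext i
  simp only [Gv_apply, Pi.neg_apply]
  ring

theorem Gv_Gv (x : GolayPt → ℤ) : Gv (Gv x) = -x := by
  funext i
  simp only [Gv_apply, Pi.neg_apply]
  rw [projInv_projInv, qI_projInv]
  rcases qI_cases i with h | h <;> rw [h] <;> ring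

theorem sqNorm_Gv (x : GolayPt → ℤ) : sqNorm (Gv x) = sqNorm x := by
  unfold sqNorm
  have h : ∀ i, Gv x i ^ 2 = x (projInv i) ^ 2 := by
    intro i
    rw [Gv_apply]
    rcases qI_cases i with h | h <;> rw [h] <;> ring
  rw [Finset.sum_congr rfl (fun i _ => h i)]
  exact Equiv.sum_comp projInv (fun j => x j ^ 2)

theorem Gv_mem (x : GolayPt → ℤ) (hx : x ∈ leechLattice) : Gv x ∈ leechLattice := by
  obtain ⟨m, y, hxy, hc, hsum⟩ := leech_struct x hx
  apply Cfsg.Agent.Lib.Helper4.Leech.mem_leech_of_struct (Gv x) m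
    (fun i => y (projInv i) - qI i * m - 2 * qI i * y (projInv i))
  · intro i
    rw [Gv_apply, hxy (projInv i)]
    ring
  · have e : zword (fun i => y (projInv i) - qI i * m - 2 * qI i * y (projInv i))
        = zword y ∘ projInv + ((m : ℤ) : ZMod 2) • qrWord 0 := by
      funext i
      unfold zword
      simp only [Pi.add_apply, Function.comp_apply, Pi.smul_apply, smul_eq_mul]
      push_cast
      rw [qI_cast]
      have h2 : (2 : ZMod 2) = 0 := by decide
      linear_combination (-(qrWord 0 i * (m : ZMod 2)) - qrWord 0 i * (y (projInv i) : ZMod 2)) * h2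
    rw [e]
    exact Submodule.add_mem _
      (Cfsg.Agent.Lib.Helper4.Golay.comp_mem_of_mem_M24 Cfsg.Agent.S0372.result hc)
      (Submodule.smul_mem _ _ qr_mem)
  · have e1 : ∑ i, Gv x i = ∑ j, (1 - 2 * qI (projInv j)) * x j := by
      have := Equiv.sum_comp projInv (fun j => (1 - 2 * qI (projInv j)) * x j)
      rw [← this]
      apply Finset.sum_congr rfl
      intro i _
      rw [Gv_apply, projInv_projInv]
    have e2 : ∑ j, (1 - 2 * qI (projInv j)) * x j
        = 2 * (m * ∑ j, qI j + 2 * ∑ j, qI j * y j) - ∑ j, x j := by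
      rw [Finset.mul_sum, Finset.mul_sum, ← Finset.sum_add_distrib, Finset.mul_sum,
        ← Finset.sum_sub_distrib]
      apply Finset.sum_congr rfl
      intro j _
      rw [qI_projInv, hxy j]
      ring
    have hev : (2 : ℤ) ∣ ∑ j, qI j * y j := by
      have h0 : ((∑ j, qI j * y j : ℤ) : ZMod 2) = 0 := by
        push_cast
        have := Cfsg.Agent.Lib.Helper4.Golay.self_orth (qrWord 0) (zword y) qr_mem hc
        rw [← this]
        apply Finset.sum_congr rfl
        intro j _
        rw [qI_cast]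
        rfl
      have h1 := (ZMod.intCast_zmod_eq_zero_iff_dvd _ 2).mp h0
      exact_mod_cast h1
    obtain ⟨t, ht⟩ := hev
    rw [e1, e2, sum_qI, ht]
    have := Int.modEq_iff_dvd.mp hsum
    obtain ⟨s, hs⟩ := this
    rw [Int.modEq_iff_dvd]
    exact ⟨-s - 2 * m - t, by linarith⟩

/-- The monomial map as a permutation of the lattice. -/
def gPerm : Equiv.Perm ↥leechLattice where
  toFun v := ⟨Gv v.1, Gv_mem v.1 v.2⟩
  invFun v := ⟨-Gv v.1, AddSubgroup.neg_mem _ (Gv_mem v.1 v.2)⟩
  left_inv v := by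
    apply Subtype.ext
    show -Gv (Gv v.1) = v.1
    rw [Gv_Gv, neg_neg]
  right_inv v := by
    apply Subtype.ext
    show Gv (-Gv v.1) = v.1
    rw [Gv_neg, Gv_Gv, neg_neg]

theorem gPerm_apply (v : ↥leechLattice) : ((gPerm v : ↥leechLattice) : GolayPt → ℤ) = Gv v.1 := rfl

theorem gPerm_mem : gPerm ∈ Co0 := by
  refine ⟨fun v w => ?_, fun v => ?_⟩
  · apply Subtype.ext
    show Gv (v.1 + w.1) = Gv v.1 + Gv w.1
    exact Gv_add _ _
  · exact sqNorm_Gv v.1

theorem negPerm_mem : Equiv.neg ↥leechLattice ∈ Co0 := by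
  refine ⟨fun v w => ?_, fun v => ?_⟩
  · show -(v + w) = -v + -w
    abel
  · show sqNorm ((-v : ↥leechLattice) : GolayPt → ℤ) = sqNorm (v : GolayPt → ℤ)
    rw [AddSubgroup.coe_neg, sqNorm_neg]

theorem leech_const8 : (fun _ => 8 : GolayPt → ℤ) ∈ leechLattice := by
  apply Cfsg.Agent.Lib.Helper4.Leech.mem_leech_of_struct _ 0 (fun _ => 4)
  · intro i
    norm_num
  · have : zword (fun _ => 4) = 0 := by
      funext i
      show ((4 : ℤ) : ZMod 2) = 0
      decide
    rw [this]
    exact Submodule.zero_mem _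
  · rw [Finset.sum_const, Finset.card_univ, card_golayPt]
    decide

end Cfsg.Agent.Lib.Helper28
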