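import Cfsg.Prelude.Def_Sporadic_a
set_option autoImplicit false
open Cfsg
namespace Cfsg.Agent.Lib.Helper28.LeechU
open Finset

/-- The ambient module. -/
abbrev V24 : Type := Fin 24 → ℤ

/-- Hypotheses on the form. -/
def IsForm (b : V24 →ₗ[ℤ] V24 →ₗ[ℤ] ℤ) : Prop :=
  (∀ x y, b x y = b y x) ∧ (∀ x, x ≠ 0 → 0 < b x x) ∧ (∀ x, (2 : ℤ) ∣ b x x) ∧ (∀ x, b x x ≠ 2)

section form
variable (b : V24 →ₗ[ℤ] V24 →ₗ[ℤ] ℤ)

theorem nrm_add (hb : IsForm b) (x y : V24) :
    b (x + y) (x + y) = b x x + b y y + 2 * b x y := by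
  simp only [map_add, LinearMap.add_apply]
  rw [hb.1 y x]
  ring

theorem nrm_sub (hb : IsForm b) (x y : V24) :
    b (x - y) (x - y) = b x x + b y y - 2 * b x y := by
  simp only [map_sub, LinearMap.sub_apply]
  rw [hb.1 y x]
  ring

theorem nrm_two (z : V24) : b ((2 : ℤ) • z) ((2 : ℤ) • z) = 4 * b z z := by
  simp only [map_smul, LinearMap.smul_apply, smul_eq_mul]
  ring

theorem nrm_neg (y : V24) : b (-y) (-y) = b y y := by
  simp only [map_neg, LinearMap.neg_apply, neg_neg]

theorem nrm_ge (hb : IsForm b) {x : V24} (hx : x ≠ 0) : 4 ≤ b x x := by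
  have h1 := hb.2.1 x hx
  have h2 := hb.2.2.1 x
  have h3 := hb.2.2.2 x
  obtain ⟨k, hk⟩ := h2
  omega

theorem short_congr (hb : IsForm b) {x y z : V24} (hx : b x x ≤ 8) (hy : b y y ≤ 8)
    (hxy : x = y + (2 : ℤ) • z) (h1 : x ≠ y) (h2 : x ≠ -y) :
    b x x = 8 ∧ b y y = 8 ∧ b x y = 0 := by
  have hz : z ≠ 0 := by
    rintro rfl
    apply h1
    rw [hxy, smul_zero, add_zero]
  have hz' : y + z ≠ 0 := by
    intro h
    apply h2
    have h' : z = -y := eq_neg_of_add_eq_zero_right h
    rw [hxy, h', smul_neg, two_smul]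
    abel
  have e1 : x - y = (2 : ℤ) • z := by
    rw [hxy, add_sub_cancel_left]
  have e2 : x + y = (2 : ℤ) • (y + z) := by
    rw [hxy, smul_add, two_smul]
    abel
  have n1 := nrm_sub b hb x y
  rw [e1, nrm_two] at n1
  have n2 := nrm_add b hb x y
  rw [e2, nrm_two] at n2
  have g1 := nrm_ge b hb hz
  have g2 := nrm_ge b hb hz'
  refine ⟨?_, ?_, ?_⟩ <;> omega

theorem orth_card (hb : IsForm b) {ι : Type*} [Fintype ι] (w : ι → V24) (h0 : ∀ i, w i ≠ 0)
    (ho : ∀ i j, i ≠ j → b (w i) (w j) = 0) : Fintype.card ι ≤ 24 := by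
  classical
  have hli : LinearIndependent ℤ w := by
    rw [Fintype.linearIndependent_iff]
    intro g hg j
    have h1 : b (∑ i, g i • w i) (w j) = g j * b (w j) (w j) := by
      rw [map_sum, LinearMap.sum_apply, Finset.sum_eq_single j]
      · rw [map_smul, LinearMap.smul_apply, smul_eq_mul]
      · intro i _ hij
        rw [map_smul, LinearMap.smul_apply, ho i j hij, smul_zero]
      · intro h
        exact absurd (Finset.mem_univ j) h
    rw [hg, map_zero, LinearMap.zero_apply] at h1
    have hp := hb.2.1 (w j) (h0 j)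
    rcases mul_eq_zero.1 h1.symm with h | h
    · exact h
    · omega
  have h := hli.fintype_card_le_finrank
  rwa [Module.finrank_fin_fun] at h

/-- Reduction modulo two. -/
def red (x : V24) : Fin 24 → ZMod 2 := fun i => ((x i : ℤ) : ZMod 2)

theorem red_eq_iff (x y : V24) : red x = red y ↔ ∃ z : V24, x = y + (2 : ℤ) • z := by
  constructor
  · intro h
    have h' : ∀ i, (2 : ℤ) ∣ x i - y i := by
      intro i
      have h1 : ((x i : ℤ) : ZMod 2) = ((y i : ℤ) : ZMod 2) := congrFun h i
      have h2 := (ZMod.intCast_eq_intCast_iff_dvd_sub (x i) (y i) 2).1 h1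
      have h3 : (2 : ℤ) ∣ y i - x i := h2
      omega
    choose z hz using h'
    refine ⟨z, ?_⟩
    funext i
    show x i = y i + (2 : ℤ) * z i
    have := hz i
    omega
  · rintro ⟨z, rfl⟩
    funext i
    show (((y i + (2 : ℤ) * z i : ℤ)) : ZMod 2) = ((y i : ℤ) : ZMod 2)
    rw [ZMod.intCast_eq_intCast_iff_dvd_sub]
    exact ⟨-z i, by push_cast; ring⟩

theorem frame_exists (hb : IsForm b) (h4 : {x : V24 | b x x = 4}.ncard = 196560)
    (h6 : {x : V24 | b x x = 6}.ncard = 16773120)
    (h8 : {x : V24 | b x x = 8}.ncard = 398034000) :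
    ∃ F : Finset V24, F.card = 24 ∧ (∀ x ∈ F, b x x = 8) ∧
      (∀ x ∈ F, ∀ y ∈ F, x ≠ y → b x y = 0) ∧ (∀ x ∈ F, ∀ y ∈ F, red x = red y) := by
  classical
  have f4 : {x : V24 | b x x = 4}.Finite := Set.finite_of_ncard_ne_zero (by rw [h4]; norm_num)
  have f6 : {x : V24 | b x x = 6}.Finite := Set.finite_of_ncard_ne_zero (by rw [h6]; norm_num)
  have f8 : {x : V24 | b x x = 8}.Finite := Set.finite_of_ncard_ne_zero (by rw [h8]; norm_num)
  have c4 : f4.toFinset.card = 196560 := by
    rw [← Set.ncard_eq_toFinset_card _ f4]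
    exact h4
  have c6 : f6.toFinset.card = 16773120 := by
    rw [← Set.ncard_eq_toFinset_card _ f6]
    exact h6
  have c8 : f8.toFinset.card = 398034000 := by
    rw [← Set.ncard_eq_toFinset_card _ f8]
    exact h8
  generalize hS4 : f4.toFinset = S4 at c4
  generalize hS6 : f6.toFinset = S6 at c6
  generalize hS8 : f8.toFinset = S8 at c8
  have m4 : ∀ x, x ∈ S4 → b x x = 4 := by
    intro x hx
    rw [← hS4, Set.Finite.mem_toFinset] at hx
    exact hx
  have m6 : ∀ x, x ∈ S6 → b x x = 6 := by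
    intro x hx
    rw [← hS6, Set.Finite.mem_toFinset] at hx
    exact hx
  have m8 : ∀ x, x ∈ S8 → b x x = 8 := by
    intro x hx
    rw [← hS8, Set.Finite.mem_toFinset] at hx
    exact hx
  have key : ∀ x y : V24, b x x ≤ 8 → b y y ≤ 8 → red x = red y →
      x = y ∨ x = -y ∨ (b x x = 8 ∧ b y y = 8 ∧ b x y = 0) := by
    intro x y hx hy h
    obtain ⟨z, hz⟩ := (red_eq_iff x y).1 h
    by_cases h1 : x = y
    · exact Or.inl h1
    by_cases h2 : x = -y
    · exact Or.inr (Or.inl h2)
    exact Or.inr (Or.inr (short_congr b hb hx hy hz h1 h2))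
  have fib2 : ∀ (S : Finset V24) (n : ℤ), n < 8 → (∀ x ∈ S, b x x = n) →
      ∀ q ∈ S.image red, (S.filter (fun x => red x = q)).card ≤ 2 := by
    intro S n hn hS q hq
    obtain ⟨x0, hx0, rfl⟩ := Finset.mem_image.1 hq
    have hsub : S.filter (fun x => red x = red x0) ⊆ {x0, -x0} := by
      intro x hx
      have hx' := Finset.mem_filter.1 hx
      have e1 := hS x hx'.1
      have e2 := hS x0 hx0
      rcases key x x0 (by omega) (by omega) hx'.2 with h | h | h
      · rw [h]
        exact Finset.mem_insert_self _ _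
      · rw [h]
        exact Finset.mem_insert_of_mem (Finset.mem_singleton_self _)
      · omega
    exact le_trans (Finset.card_le_card hsub) Finset.card_le_two
  have i4 : 196560 ≤ 2 * (S4.image red).card := by
    rw [← c4]
    exact Finset.card_le_mul_card_image S4 2 (fib2 S4 4 (by norm_num) m4)
  have i6 : 16773120 ≤ 2 * (S6.image red).card := by
    rw [← c6]
    exact Finset.card_le_mul_card_image S6 2 (fib2 S6 6 (by norm_num) m6)
  have dis : ∀ (S T : Finset V24) (n m : ℤ), n ≤ 8 → m ≤ 8 → n ≠ m → (∀ x ∈ S, b x x = n) →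
      (∀ x ∈ T, b x x = m) → Disjoint (S.image red) (T.image red) := by
    intro S T n m hn hm hnm hS hT
    rw [Finset.disjoint_left]
    intro q hq1 hq2
    obtain ⟨x, hx, rfl⟩ := Finset.mem_image.1 hq1
    obtain ⟨y, hy, e⟩ := Finset.mem_image.1 hq2
    have hxn := hS x hx
    have hym := hT y hy
    rcases key x y (by omega) (by omega) e.symm with h | h | h
    · rw [h] at hxn
      omega
    · rw [h, nrm_neg] at hxn
      omega
    · omega
  have m0 : ∀ x ∈ ({0} : Finset V24), b x x = 0 := by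
    intro x hx
    rw [Finset.mem_singleton.1 hx]
    simp only [map_zero, LinearMap.zero_apply]
  have d04 := dis {0} S4 0 4 (by norm_num) (by norm_num) (by norm_num) m0 m4
  have d06 := dis {0} S6 0 6 (by norm_num) (by norm_num) (by norm_num) m0 m6
  have d08 := dis {0} S8 0 8 (by norm_num) (by norm_num) (by norm_num) m0 m8
  have d46 := dis S4 S6 4 6 (by norm_num) (by norm_num) (by norm_num) m4 m6
  have d48 := dis S4 S8 4 8 (by norm_num) (by norm_num) (by norm_num) m4 m8
  have d68 := dis S6 S8 6 8 (by norm_num) (by norm_num) (by norm_num) m6 m8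
  have cQ : Fintype.card (Fin 24 → ZMod 2) = 16777216 := by
    rw [Fintype.card_fun, ZMod.card, Fintype.card_fin]
    norm_num
  have tot := Finset.card_le_univ
    ((({0} : Finset V24).image red ∪ S4.image red) ∪ S6.image red ∪ S8.image red)
  rw [Finset.card_union_of_disjoint (Finset.disjoint_union_left.2
      ⟨Finset.disjoint_union_left.2 ⟨d08, d48⟩, d68⟩),
    Finset.card_union_of_disjoint (Finset.disjoint_union_left.2 ⟨d06, d46⟩),
    Finset.card_union_of_disjoint d04, Finset.image_singleton, Finset.card_singleton, cQ] at tot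
  have hex : ∃ q ∈ S8.image red, 48 ≤ (S8.filter (fun x => red x = q)).card := by
    by_contra hcon
    push Not at hcon
    have h47 : S8.card ≤ 47 * (S8.image red).card :=
      Finset.card_le_mul_card_image S8 47 (fun q hq => by have := hcon q hq; omega)
    omega
  obtain ⟨q, -, hq48⟩ := hex
  generalize hF : S8.filter (fun x => red x = q) = F at hq48
  have hF8 : ∀ x ∈ F, b x x = 8 := by
    intro x hx
    rw [← hF] at hx
    exact m8 x (Finset.mem_filter.1 hx).1
  have hFr : ∀ x ∈ F, red x = q := by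
    intro x hx
    rw [← hF] at hx
    exact (Finset.mem_filter.1 hx).2
  obtain ⟨P, hP⟩ : ∃ P : Finset (Finset V24), ∀ W, W ∈ P ↔
      (W ⊆ F ∧ ∀ x ∈ W, ∀ y ∈ W, x ≠ y → b x y = 0) :=
    ⟨F.powerset.filter (fun W => ∀ x ∈ W, ∀ y ∈ W, x ≠ y → b x y = 0), fun W => by
      rw [Finset.mem_filter, Finset.mem_powerset]⟩
  obtain ⟨W, hW, hmax⟩ := Finset.exists_max_image P Finset.card
    ⟨∅, (hP ∅).2 ⟨Finset.empty_subset F, fun x hx => absurd hx (Finset.notMem_empty x)⟩⟩
  have hWF : W ⊆ F := ((hP W).1 hW).1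
  have hWo := ((hP W).1 hW).2
  have hcov : F ⊆ W ∪ W.image Neg.neg := by
    intro x hx
    by_contra hcon
    rw [Finset.mem_union, not_or] at hcon
    have hxW : x ∉ W := hcon.1
    have hnx : ∀ y ∈ W, x ≠ -y := fun y hy e => hcon.2 (Finset.mem_image.2 ⟨y, hy, e.symm⟩)
    have horth : ∀ y ∈ W, b x y = 0 := by
      intro y hy
      have e1 := hF8 x hx
      have e2 := hF8 y (hWF hy)
      rcases key x y (by omega) (by omega) ((hFr x hx).trans (hFr y (hWF hy)).symm) with h | h | h
      · rw [h] at hxW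
        exact absurd hy hxW
      · exact absurd h (hnx y hy)
      · exact h.2.2
    have hins : insert x W ∈ P := by
      refine (hP _).2 ⟨Finset.insert_subset hx hWF, ?_⟩
      intro u hu v hv huv
      rw [Finset.mem_insert] at hu hv
      rcases hu with rfl | hu <;> rcases hv with rfl | hv
      · exact absurd rfl huv
      · exact horth v hv
      · rw [hb.1]
        exact horth u hu
      · exact hWo u hu v hv huv
    have h := hmax _ hins
    rw [Finset.card_insert_of_notMem hxW] at h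
    omega
  have hcard : F.card ≤ W.card + W.card :=
    le_trans (Finset.card_le_card hcov)
      (le_trans (Finset.card_union_le _ _) (Nat.add_le_add_left Finset.card_image_le _))
  have hW24 : W.card ≤ 24 := by
    have h := orth_card b hb (fun x : W => (x : V24)) (fun x hx0 => by
        have h8 := hF8 x.1 (hWF x.2)
        rw [hx0] at h8
        simp only [map_zero, LinearMap.zero_apply] at h8
        omega)
      (fun x y hxy => hWo x x.2 y y.2 (fun e => hxy (Subtype.ext e)))
    rwa [Fintype.card_coe] at h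
  exact ⟨W, by omega, fun x hx => hF8 x (hWF hx), hWo,
    fun x hx y hy => (hFr x (hWF hx)).trans (hFr y (hWF hy)).symm⟩

theorem frame_perp (hb : IsForm b) (v : Fin 24 → V24) (hv8 : ∀ i, b (v i) (v i) = 8)
    (hvo : ∀ i j, i ≠ j → b (v i) (v j) = 0) {x : V24} (hx : ∀ i, b x (v i) = 0) : x = 0 := by
  by_contra hx0
  have hv0 : ∀ i, v i ≠ 0 := by
    intro i h0
    have h8 := hv8 i
    rw [h0] at h8
    simp only [map_zero, LinearMap.zero_apply] at h8
    omega
  have h := orth_card b hb (fun o : Option (Fin 24) => o.elim x v) (by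
      intro o
      rcases o with _ | i
      · exact hx0
      · exact hv0 i) (by
      intro o o' hoo
      rcases o with _ | i <;> rcases o' with _ | j
      · exact absurd rfl hoo
      · exact hx j
      · show b (v i) x = 0
        rw [hb.1]
        exact hx i
      · exact hvo i j (fun e => hoo (by rw [e])))
  rw [Fintype.card_option, Fintype.card_fin] at h
  omega

theorem frame_expand (hb : IsForm b) (v : Fin 24 → V24) (hv8 : ∀ i, b (v i) (v i) = 8)
    (hvo : ∀ i j, i ≠ j → b (v i) (v j) = 0) (x : V24) :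
    (8 : ℤ) • x = ∑ i, b x (v i) • v i := by
  rw [← sub_eq_zero]
  apply frame_perp b hb v hv8 hvo
  intro j
  rw [map_sub, LinearMap.sub_apply, map_smul, LinearMap.smul_apply, map_sum, LinearMap.sum_apply,
    Finset.sum_eq_single j]
  · rw [map_smul, LinearMap.smul_apply, hv8 j, smul_eq_mul, smul_eq_mul]
    ring
  · intro i _ hij
    rw [map_smul, LinearMap.smul_apply, hvo i j hij, smul_zero]
  · intro h
    exact absurd (Finset.mem_univ j) h

theorem frame_dot (hb : IsForm b) (v : Fin 24 → V24) (hv8 : ∀ i, b (v i) (v i) = 8)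
    (hvo : ∀ i j, i ≠ j → b (v i) (v j) = 0) (x y : V24) :
    ∑ i, b x (v i) * b y (v i) = 8 * b x y := by
  have h : b ((8 : ℤ) • x) y = 8 * b x y := by
    rw [map_smul, LinearMap.smul_apply, smul_eq_mul]
  rw [← h, frame_expand b hb v hv8 hvo x, map_sum, LinearMap.sum_apply]
  apply Finset.sum_congr rfl
  intro i _
  rw [map_smul, LinearMap.smul_apply, smul_eq_mul, hb.1 (v i) y]

end form

/-- The unit vectors. -/
def ev (i : Fin 24) : V24 := fun j => if j = i then 1 else 0

/-- The lattices to be identified. -/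
def PL (M : AddSubgroup V24) : Prop :=
  (∀ y ∈ M, (16 : ℤ) ∣ sqNorm y) ∧ (∀ y ∈ M, sqNorm y ≠ 16) ∧
  (∀ y ∈ M, ∀ y' ∈ M, (8 : ℤ) ∣ dotInt y y') ∧
  (∀ i, (8 : ℤ) • ev i ∈ M) ∧ (∀ i j, i ≠ j → (4 : ℤ) • ev i - (4 : ℤ) • ev j ∈ M) ∧
  (∀ y ∈ M, ∀ i j, (2 : ℤ) ∣ y i - y j) ∧ {y : V24 | y ∈ M ∧ sqNorm y = 32}.ncard = 196560

theorem exists_PL (b : V24 →ₗ[ℤ] V24 →ₗ[ℤ] ℤ) (hb : IsForm b)
    (h4 : {x : V24 | b x x = 4}.ncard = 196560)
    (h6 : {x : V24 | b x x = 6}.ncard = 16773120)
    (h8 : {x : V24 | b x x = 8}.ncard = 398034000) :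
    ∃ c : V24 →+ V24, Function.Injective c ∧ (∀ x, sqNorm (c x) = 8 * b x x) ∧ PL c.range := by
  classical
  obtain ⟨F, hF24, hF8, hFo, hFr⟩ := frame_exists b hb h4 h6 h8
  have hcardF : Fintype.card ↥F = 24 := by rw [Fintype.card_coe, hF24]
  obtain ⟨v, hvinj, hvF⟩ : ∃ v : Fin 24 → V24, Function.Injective v ∧ ∀ i, v i ∈ F :=
    ⟨fun i => (((Fintype.equivFinOfCardEq hcardF).symm i : ↥F) : V24),
      Subtype.val_injective.comp (Fintype.equivFinOfCardEq hcardF).symm.injective,
      fun i => ((Fintype.equivFinOfCardEq hcardF).symm i).2⟩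
  have hv8 : ∀ i, b (v i) (v i) = 8 := fun i => hF8 _ (hvF i)
  have hvo : ∀ i j, i ≠ j → b (v i) (v j) = 0 := fun i j hij =>
    hFo _ (hvF i) _ (hvF j) (fun e => hij (hvinj e))
  have hvr : ∀ i j, red (v i) = red (v j) := fun i j => hFr _ (hvF i) _ (hvF j)
  have hdot := frame_dot b hb v hv8 hvo
  obtain ⟨c, hc⟩ : ∃ c : V24 →+ V24, ∀ x i, c x i = b x (v i) :=
    ⟨AddMonoidHom.mk' (fun x i => b x (v i)) (by
      intro x y
      funext i
      show b (x + y) (v i) = b x (v i) + b y (v i)
      rw [map_add, LinearMap.add_apply]), fun x i => rfl⟩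
  have hsq : ∀ x, sqNorm (c x) = 8 * b x x := by
    intro x
    rw [← hdot x x]
    show ∑ i, c x i ^ 2 = _
    apply Finset.sum_congr rfl
    intro i _
    rw [hc, sq]
  have hdi : ∀ x y, dotInt (c x) (c y) = 8 * b x y := by
    intro x y
    rw [← hdot x y]
    show ∑ i, c x i * c y i = _
    apply Finset.sum_congr rfl
    intro i _
    rw [hc, hc]
  have hinj : Function.Injective c := by
    rw [injective_iff_map_eq_zero]
    intro x hx
    apply frame_perp b hb v hv8 hvo
    intro i
    rw [← hc, hx]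
    rfl
  have hcv : ∀ i, c (v i) = (8 : ℤ) • ev i := by
    intro i
    funext j
    rw [hc]
    show b (v i) (v j) = (8 : ℤ) * ev i j
    unfold ev
    by_cases hji : j = i
    · rw [if_pos hji, hji, hv8]
      norm_num
    · rw [if_neg hji, hvo i j (fun e => hji e.symm)]
      norm_num
  refine ⟨c, hinj, hsq, ?_, ?_, ?_, ?_, ?_, ?_, ?_⟩
  · rintro y ⟨x, rfl⟩
    rw [hsq]
    obtain ⟨k, hk⟩ := hb.2.2.1 x
    exact ⟨k, by rw [hk]; ring⟩
  · rintro y ⟨x, rfl⟩
    rw [hsq]
    have := hb.2.2.2 x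
    omega
  · rintro y ⟨x, rfl⟩ y' ⟨x', rfl⟩
    rw [hdi]
    exact ⟨b x x', rfl⟩
  · intro i
    exact ⟨v i, hcv i⟩
  · intro i j _
    obtain ⟨u, hu⟩ := (red_eq_iff (v i) (v j)).1 (hvr i j)
    refine ⟨u, ?_⟩
    have h1 : c (v i) = c (v j) + (2 : ℤ) • c u := by
      rw [hu, map_add, map_zsmul]
    rw [hcv, hcv] at h1
    funext k
    have h2 := congrFun h1 k
    have h3 : (8 : ℤ) * ev i k = (8 : ℤ) * ev j k + (2 : ℤ) * c u k := h2
    show c u k = (4 : ℤ) * ev i k - (4 : ℤ) * ev j k
    omega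
  · rintro y ⟨x, rfl⟩ i j
    obtain ⟨u, hu⟩ := (red_eq_iff (v i) (v j)).1 (hvr i j)
    refine ⟨b x u, ?_⟩
    rw [hc, hc, hu, map_add, map_smul, smul_eq_mul]
    ring
  · have hset : {y : V24 | y ∈ c.range ∧ sqNorm y = 32} = c '' {x : V24 | b x x = 4} := by
      ext y
      constructor
      · rintro ⟨⟨x, rfl⟩, h32⟩
        rw [hsq] at h32
        exact ⟨x, by show b x x = 4; omega, rfl⟩
      · rintro ⟨x, hx, rfl⟩
        have hx' : b x x = 4 := hx
        exact ⟨⟨x, rfl⟩, by rw [hsq, hx']; norm_num⟩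
    rw [hset, Set.ncard_image_of_injective _ hinj, h4]


/-! ### Analysis of the coordinate lattice -/

theorem sum_ev (k : Fin 24) : ∑ i, ev k i = 1 := by
  unfold ev
  rw [Finset.sum_ite_eq' Finset.univ k (fun _ => (1 : ℤ)), if_pos (Finset.mem_univ k)]

theorem sqNorm_four_ev (k : Fin 24) : sqNorm ((4 : ℤ) • ev k) = 16 := by
  show ∑ i, ((4 : ℤ) * ev k i) ^ 2 = 16
  rw [Finset.sum_eq_single k]
  · unfold ev
    rw [if_pos rfl]
    norm_num
  · intro i _ hik
    unfold ev
    rw [if_neg hik]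
    norm_num
  · intro h
    exact absurd (Finset.mem_univ k) h

/-- Even vectors. -/
def Ev (y : V24) : Prop := ∀ i, (2 : ℤ) ∣ y i

/-- The coordinates not divisible by four. -/
def cls (y : V24) : Finset (Fin 24) := Finset.univ.filter (fun i => ¬ (4 : ℤ) ∣ y i)

theorem mem_cls {y : V24} {i : Fin 24} : i ∈ cls y ↔ ¬ (4 : ℤ) ∣ y i := by
  rw [cls, Finset.mem_filter]
  exact ⟨fun h => h.2, fun h => ⟨Finset.mem_univ _, h⟩⟩

section lat
variable {M : AddSubgroup V24}

/-- The auxiliary map `a ↦ 4a - 4(∑ a) e₀`. -/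
def gmap : V24 →+ V24 :=
  AddMonoidHom.mk' (fun a j => 4 * a j - (if j = 0 then 4 * ∑ i, a i else 0)) (by
    intro a a'
    funext j
    show 4 * (a j + a' j) - (if j = 0 then 4 * ∑ i, (a + a') i else 0)
      = (4 * a j - (if j = 0 then 4 * ∑ i, a i else 0))
        + (4 * a' j - (if j = 0 then 4 * ∑ i, a' i else 0))
    have hs : ∑ i, (a + a') i = ∑ i, a i + ∑ i, a' i := Finset.sum_add_distrib
    rw [hs]
    by_cases hj : j = 0
    · rw [if_pos hj, if_pos hj, if_pos hj]
      ring
    · rw [if_neg hj, if_neg hj, if_neg hj]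
      ring)

theorem gmap_apply (a : V24) (j : Fin 24) :
    gmap a j = 4 * a j - (if j = 0 then 4 * ∑ i, a i else 0) := rfl

theorem gmap_ev (hM : PL M) (i : Fin 24) : gmap (ev i) ∈ M := by
  by_cases hi : i = 0
  · have h : gmap (ev i) = 0 := by
      funext j
      rw [gmap_apply, sum_ev, hi]
      unfold ev
      by_cases hj : j = 0
      · rw [if_pos hj, if_pos hj]
        rfl
      · rw [if_neg hj, if_neg hj]
        rfl
    rw [h]
    exact M.zero_mem
  · have h : gmap (ev i) = (4 : ℤ) • ev i - (4 : ℤ) • ev 0 := by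
      funext j
      rw [gmap_apply, sum_ev]
      show 4 * ev i j - (if j = 0 then 4 * 1 else 0) = (4 : ℤ) * ev i j - (4 : ℤ) * ev 0 j
      unfold ev
      by_cases hj : j = 0
      · rw [if_pos hj, if_pos hj]
      · rw [if_neg hj, if_neg hj]
        ring
    rw [h]
    exact hM.2.2.2.2.1 i 0 hi

theorem gmap_mem (hM : PL M) (a : V24) : gmap a ∈ M := by
  have h : a = ∑ i, a i • ev i := by
    funext j
    rw [Finset.sum_apply]
    have h' : ∀ i, (a i • ev i) j = if j = i then a i else 0 := by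
      intro i
      show a i * ev i j = _
      unfold ev
      by_cases hji : j = i
      · rw [if_pos hji, if_pos hji, mul_one]
      · rw [if_neg hji, if_neg hji, mul_zero]
    rw [Finset.sum_congr rfl (fun i _ => h' i), Finset.sum_ite_eq Finset.univ j a,
      if_pos (Finset.mem_univ j)]
  rw [h, map_sum]
  apply AddSubgroup.sum_mem
  intro i _
  rw [map_zsmul]
  exact M.zsmul_mem (gmap_ev hM i) _

theorem four_mem (hM : PL M) {y : V24} (h4 : ∀ i, (4 : ℤ) ∣ y i) (h8 : (8 : ℤ) ∣ ∑ i, y i) :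
    y ∈ M := by
  choose a ha using h4
  have hs : ∑ i, y i = 4 * ∑ i, a i := by
    rw [Finset.mul_sum]
    exact Finset.sum_congr rfl (fun i _ => ha i)
  obtain ⟨t, ht⟩ : ∃ t, ∑ i, a i = 2 * t := by
    obtain ⟨k, hk⟩ := h8
    exact ⟨k, by omega⟩
  have hy : y = gmap a + t • ((8 : ℤ) • ev 0) := by
    funext j
    show y j = gmap a j + t * ((8 : ℤ) * ev 0 j)
    rw [gmap_apply, ht, ha j]
    unfold ev
    by_cases hj : j = 0
    · rw [if_pos hj, if_pos hj]
      ring
    · rw [if_neg hj, if_neg hj]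
      ring
  rw [hy]
  exact M.add_mem (gmap_mem hM a) (M.zsmul_mem (hM.2.2.2.1 0) t)

theorem four_ev_notMem (hM : PL M) (k : Fin 24) : (4 : ℤ) • ev k ∉ M :=
  fun h => hM.2.1 _ h (sqNorm_four_ev k)

theorem mod4_sum (hM : PL M) {y : V24} (hy : y ∈ M) (h4 : ∀ i, (4 : ℤ) ∣ y i) :
    (8 : ℤ) ∣ ∑ i, y i := by
  by_contra h8
  have h4s : (4 : ℤ) ∣ ∑ i, y i := Finset.dvd_sum (fun i _ => h4 i)
  have hmem : y - (4 : ℤ) • ev 0 ∈ M := by
    apply four_mem hM
    · intro i
      show (4 : ℤ) ∣ y i - (4 : ℤ) * ev 0 i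
      exact dvd_sub (h4 i) (dvd_mul_right _ _)
    · have hs : ∑ i, (y - (4 : ℤ) • ev 0) i = ∑ i, y i - 4 := by
        have h' : ∀ i, (y - (4 : ℤ) • ev 0) i = y i - 4 * ev 0 i := fun i => rfl
        rw [Finset.sum_congr rfl (fun i _ => h' i), Finset.sum_sub_distrib, ← Finset.mul_sum,
          sum_ev, mul_one]
      rw [hs]
      obtain ⟨k, hk⟩ := h4s
      omega
  apply four_ev_notMem hM 0
  have h := M.sub_mem hy hmem
  rwa [sub_sub_cancel] at h

theorem parity (hM : PL M) {y : V24} (hy : y ∈ M) : Ev y ∨ ∀ i, ¬ (2 : ℤ) ∣ y i := by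
  by_cases h0 : (2 : ℤ) ∣ y 0
  · left
    intro i
    have := hM.2.2.2.2.2.1 y hy i 0
    omega
  · right
    intro i
    have := hM.2.2.2.2.2.1 y hy i 0
    omega

/-- A representative with entries `±2` on the class-two set and zero elsewhere. -/
theorem two_rep (hM : PL M) {y : V24} (hy : y ∈ M) (he : Ev y) :
    ∃ t ∈ M, (∀ i ∈ cls y, t i = 2 ∨ t i = -2) ∧ ∀ i, i ∉ cls y → t i = 0 := by
  have hd4 : ∀ i, (4 : ℤ) ∣ y i - (if i ∈ cls y then 2 else 0) := by
    intro i
    have h2 := he i
    by_cases hi : i ∈ cls y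
    · rw [if_pos hi]
      have := mem_cls.1 hi
      omega
    · rw [if_neg hi]
      have : (4 : ℤ) ∣ y i := by
        by_contra h
        exact hi (mem_cls.2 h)
      omega
  by_cases h8 : (8 : ℤ) ∣ ∑ i, (y i - (if i ∈ cls y then 2 else 0))
  · have hmem : (fun i => y i - (if i ∈ cls y then (2 : ℤ) else 0)) ∈ M := four_mem hM hd4 h8
    refine ⟨fun i => if i ∈ cls y then 2 else 0, ?_, ?_, ?_⟩
    · have h := M.sub_mem hy hmem
      have e : y - (fun i => y i - (if i ∈ cls y then (2 : ℤ) else 0))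
          = fun i => if i ∈ cls y then 2 else 0 := by
        funext i
        show y i - (y i - (if i ∈ cls y then (2 : ℤ) else 0)) = _
        ring
      rwa [e] at h
    · intro i hi
      left
      show (if i ∈ cls y then (2 : ℤ) else 0) = 2
      rw [if_pos hi]
    · intro i hi
      show (if i ∈ cls y then (2 : ℤ) else 0) = 0
      rw [if_neg hi]
  · have h4s : (4 : ℤ) ∣ ∑ i, (y i - (if i ∈ cls y then 2 else 0)) :=
      Finset.dvd_sum (fun i _ => hd4 i)
    by_cases hne : (cls y).Nonempty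
    · obtain ⟨s, hs⟩ := hne
      have hd4' : ∀ i, (4 : ℤ) ∣ (y i - (if i ∈ cls y then 2 else 0)) + 4 * ev s i :=
        fun i => dvd_add (hd4 i) (dvd_mul_right _ _)
      have h8' : (8 : ℤ) ∣ ∑ i, ((y i - (if i ∈ cls y then 2 else 0)) + 4 * ev s i) := by
        rw [Finset.sum_add_distrib, ← Finset.mul_sum, sum_ev]
        obtain ⟨k, hk⟩ := h4s
        omega
      have hmem : (fun i => (y i - (if i ∈ cls y then (2 : ℤ) else 0)) + 4 * ev s i) ∈ M :=
        four_mem hM hd4' h8'
      refine ⟨fun i => (if i ∈ cls y then 2 else 0) - 4 * ev s i, ?_, ?_, ?_⟩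
      · have h := M.sub_mem hy hmem
        have e : y - (fun i => (y i - (if i ∈ cls y then (2 : ℤ) else 0)) + 4 * ev s i)
            = fun i => (if i ∈ cls y then 2 else 0) - 4 * ev s i := by
          funext i
          show y i - ((y i - (if i ∈ cls y then (2 : ℤ) else 0)) + 4 * ev s i) = _
          ring
        rwa [e] at h
      · intro i hi
        show (if i ∈ cls y then (2 : ℤ) else 0) - 4 * ev s i = 2
          ∨ (if i ∈ cls y then (2 : ℤ) else 0) - 4 * ev s i = -2
        rw [if_pos hi]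
        unfold ev
        by_cases his : i = s
        · rw [if_pos his]
          right
          norm_num
        · rw [if_neg his]
          left
          norm_num
      · intro i hi
        show (if i ∈ cls y then (2 : ℤ) else 0) - 4 * ev s i = 0
        rw [if_neg hi]
        have his : ¬ i = s := by
          intro e
          rw [e] at hi
          exact hi hs
        unfold ev
        rw [if_neg his]
        norm_num
    · exfalso
      rw [Finset.not_nonempty_iff_eq_empty] at hne
      apply h8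
      have e : ∀ i, y i - (if i ∈ cls y then (2 : ℤ) else 0) = y i := by
        intro i
        rw [hne, if_neg (Finset.notMem_empty i), sub_zero]
      rw [Finset.sum_congr rfl (fun i _ => e i)]
      apply mod4_sum hM hy
      intro i
      have := hd4 i
      rwa [e i] at this

theorem cls_card (hM : PL M) {y : V24} (hy : y ∈ M) (he : Ev y) :
    4 ∣ (cls y).card ∧ (cls y).card ≠ 4 := by
  obtain ⟨t, ht, h1, h2⟩ := two_rep hM hy he
  have hsq : sqNorm t = 4 * ((cls y).card : ℤ) := by
    have h' : ∀ i, t i ^ 2 = if i ∈ cls y then (4 : ℤ) else 0 := by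
      intro i
      by_cases hi : i ∈ cls y
      · rw [if_pos hi]
        rcases h1 i hi with h | h <;> rw [h] <;> norm_num
      · rw [if_neg hi, h2 i hi]
        norm_num
    show ∑ i, t i ^ 2 = _
    rw [Finset.sum_congr rfl (fun i _ => h' i), Finset.sum_ite_mem, Finset.univ_inter,
      Finset.sum_const, nsmul_eq_mul]
    ring
  have h16 := hM.1 t ht
  have hne := hM.2.1 t ht
  rw [hsq] at h16 hne
  constructor
  · obtain ⟨k, hk⟩ := h16
    exact ⟨k.toNat, by omega⟩
  · intro h
    apply hne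
    rw [h]
    norm_num

/-- The supports of the code attached to the lattice. -/
def OC (M : AddSubgroup V24) (S : Finset (Fin 24)) : Prop := ∃ y ∈ M, Ev y ∧ cls y = S

theorem oc_empty : OC M ∅ := by
  refine ⟨0, M.zero_mem, fun i => dvd_zero _, ?_⟩
  ext i
  rw [mem_cls]
  exact ⟨fun h => absurd (dvd_zero _) h, fun h => absurd h (Finset.notMem_empty i)⟩

theorem oc_sd {S S' : Finset (Fin 24)} (h : OC M S) (h' : OC M S') :
    OC M ((S \ S') ∪ (S' \ S)) := by
  obtain ⟨y, hy, he, rfl⟩ := h
  obtain ⟨y', hy', he', rfl⟩ := h'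
  refine ⟨y + y', M.add_mem hy hy', fun i => dvd_add (he i) (he' i), ?_⟩
  ext i
  rw [mem_cls, Finset.mem_union, Finset.mem_sdiff, Finset.mem_sdiff, mem_cls, mem_cls]
  have h2 := he i
  have h2' := he' i
  show ¬ (4 : ℤ) ∣ y i + y' i ↔ _
  constructor
  · intro h
    by_cases h4 : (4 : ℤ) ∣ y i
    · right
      exact ⟨fun h4' => h (dvd_add h4 h4'), fun hn => hn h4⟩
    · left
      refine ⟨h4, fun hn => hn ?_⟩
      by_contra h4'
      apply h
      omega
  · rintro (⟨h4, hn⟩ | ⟨h4, hn⟩)
    · have : (4 : ℤ) ∣ y' i := by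
        by_contra h'
        exact hn h'
      omega
    · have : (4 : ℤ) ∣ y i := by
        by_contra h'
        exact hn h'
      omega

theorem oc_card (hM : PL M) {S : Finset (Fin 24)} (h : OC M S) : 4 ∣ S.card ∧ S.card ≠ 4 := by
  obtain ⟨y, hy, he, rfl⟩ := h
  exact cls_card hM hy he

theorem oc_univ (hM : PL M) {x0 : V24} (hx0 : x0 ∈ M) (hodd : ∀ i, ¬ (2 : ℤ) ∣ x0 i) :
    OC M Finset.univ := by
  refine ⟨x0 + x0, M.add_mem hx0 hx0, fun i => ⟨x0 i, by show x0 i + x0 i = 2 * x0 i; ring⟩, ?_⟩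
  ext i
  rw [mem_cls]
  have := hodd i
  show ¬ (4 : ℤ) ∣ x0 i + x0 i ↔ _
  constructor
  · intro _
    exact Finset.mem_univ i
  · intro _
    omega

theorem sd_card' (s t : Finset (Fin 24)) :
    ((s \ t) ∪ (t \ s)).card + 2 * (s ∩ t).card = s.card + t.card := by
  have hd : Disjoint (s \ t) (t \ s) := by
    rw [Finset.disjoint_left]
    intro i hi hi'
    exact (Finset.mem_sdiff.1 hi).2 (Finset.mem_sdiff.1 hi').1
  have h1 := Finset.card_sdiff_add_card_inter s t
  have h2 := Finset.card_sdiff_add_card_inter t s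
  rw [Finset.inter_comm t s] at h2
  rw [Finset.card_union_of_disjoint hd]
  omega

theorem sd_empty {s t : Finset (Fin 24)} (h : ((s \ t) ∪ (t \ s)).card = 0) : s = t := by
  rw [Finset.card_eq_zero, Finset.union_eq_empty, Finset.sdiff_eq_empty_iff_subset,
    Finset.sdiff_eq_empty_iff_subset] at h
  exact Finset.Subset.antisymm h.1 h.2

/-- Two distinct supports are far apart. -/
theorem oc_far (hM : PL M) {S S' : Finset (Fin 24)} (h : OC M S) (h' : OC M S') (hne : S ≠ S') :
    8 ≤ ((S \ S') ∪ (S' \ S)).card := by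
  have hc := oc_card hM (oc_sd h h')
  by_contra hlt
  push Not at hlt
  apply hne
  apply sd_empty
  obtain ⟨k, hk⟩ := hc.1
  omega

end lat


/-! ### Shapes of the minimal vectors and the count -/

theorem coord_bd {y : V24} (h : sqNorm y = 32) (i : Fin 24) : -5 ≤ y i ∧ y i ≤ 5 := by
  have h1 : y i ^ 2 ≤ sqNorm y :=
    Finset.single_le_sum (f := fun j => y j ^ 2) (fun j _ => sq_nonneg (y j)) (Finset.mem_univ i)
  rw [h] at h1
  constructor <;> nlinarith

theorem sum_ind (p : Fin 24 → Prop) [DecidablePred p] (c : ℤ) :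
    ∑ i, (if p i then c else 0) = c * ((Finset.univ.filter p).card : ℤ) := by
  rw [Finset.sum_ite, Finset.sum_const, Finset.sum_const_zero, add_zero, nsmul_eq_mul, mul_comm]

theorem sum_ind_mem (S : Finset (Fin 24)) (c : ℤ) :
    ∑ i, (if i ∈ S then c else 0) = c * (S.card : ℤ) := by
  rw [Finset.sum_ite_mem, Finset.univ_inter, Finset.sum_const, nsmul_eq_mul, mul_comm]

section count
variable {M : AddSubgroup V24}

theorem shapeB (hM : PL M) {y : V24} (hy : y ∈ M) (he : Ev y) (h32 : sqNorm y = 32)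
    (hne : cls y ≠ ∅) :
    (cls y).card = 8 ∧ (∀ i ∈ cls y, y i = 2 ∨ y i = -2) ∧ ∀ i, i ∉ cls y → y i = 0 := by
  have hv : ∀ i, y i = -4 ∨ y i = -2 ∨ y i = 0 ∨ y i = 2 ∨ y i = 4 := by
    intro i
    have h1 := coord_bd h32 i
    have h2 := he i
    omega
  have hcl : ∀ i, i ∈ cls y ↔ (y i = 2 ∨ y i = -2) := by
    intro i
    rw [mem_cls]
    rcases hv i with h | h | h | h | h <;> rw [h] <;> norm_num
  have hsq : ∀ i, y i ^ 2 = (if i ∈ cls y then (4 : ℤ) else 0)
      + (if y i = 4 ∨ y i = -4 then (16 : ℤ) else 0) := by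
    intro i
    by_cases hi : i ∈ cls y
    · rw [if_pos hi]
      rcases (hcl i).1 hi with h | h <;> rw [h] <;> norm_num
    · rw [if_neg hi]
      rcases hv i with h | h | h | h | h
      · rw [h]; norm_num
      · exact absurd ((hcl i).2 (Or.inr h)) hi
      · rw [h]; norm_num
      · exact absurd ((hcl i).2 (Or.inl h)) hi
      · rw [h]; norm_num
  have hsum : (32 : ℤ) = 4 * ((cls y).card : ℤ)
      + 16 * ((Finset.univ.filter (fun i => y i = 4 ∨ y i = -4)).card : ℤ) := by
    rw [← h32]
    show ∑ i, y i ^ 2 = _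
    rw [Finset.sum_congr rfl (fun i _ => hsq i), Finset.sum_add_distrib, sum_ind_mem, sum_ind]
  have hc := cls_card hM hy he
  have hpos : 0 < (cls y).card := Finset.card_pos.2 (Finset.nonempty_iff_ne_empty.2 hne)
  obtain ⟨k, hk⟩ := hc.1
  have h8 : (cls y).card = 8 := by omega
  have h0 : (Finset.univ.filter (fun i => y i = 4 ∨ y i = -4)).card = 0 := by omega
  refine ⟨h8, fun i hi => (hcl i).1 hi, fun i hi => ?_⟩
  have hnot : ¬ (y i = 4 ∨ y i = -4) := by
    intro h
    have hm : i ∈ Finset.univ.filter (fun i => y i = 4 ∨ y i = -4) :=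
      Finset.mem_filter.2 ⟨Finset.mem_univ i, h⟩
    rw [Finset.card_eq_zero.1 h0] at hm
    exact absurd hm (Finset.notMem_empty i)
  rcases hv i with h | h | h | h | h
  · exact absurd (Or.inr h) hnot
  · exact absurd ((hcl i).2 (Or.inr h)) hi
  · exact h
  · exact absurd ((hcl i).2 (Or.inl h)) hi
  · exact absurd (Or.inl h) hnot

theorem shapeA {y : V24} (h32 : sqNorm y = 32) (hcl : cls y = ∅) :
    (∀ i, y i = 0 ∨ y i = 4 ∨ y i = -4) ∧ (Finset.univ.filter (fun i => y i ≠ 0)).card = 2 := by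
  have hv : ∀ i, y i = 0 ∨ y i = 4 ∨ y i = -4 := by
    intro i
    have h1 := coord_bd h32 i
    have h4 : (4 : ℤ) ∣ y i := by
      by_contra h
      have hm := mem_cls.2 h
      rw [hcl] at hm
      exact absurd hm (Finset.notMem_empty i)
    omega
  refine ⟨hv, ?_⟩
  have hsq : ∀ i, y i ^ 2 = if y i ≠ 0 then (16 : ℤ) else 0 := by
    intro i
    rcases hv i with h | h | h <;> rw [h] <;> norm_num
  have hsum : (32 : ℤ) = 16 * ((Finset.univ.filter (fun i => y i ≠ 0)).card : ℤ) := by
    rw [← h32]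
    show ∑ i, y i ^ 2 = _
    rw [Finset.sum_congr rfl (fun i _ => hsq i), sum_ind]
  omega

theorem shapeO {y : V24} (h32 : sqNorm y = 32) (hodd : ∀ i, ¬ (2 : ℤ) ∣ y i) :
    (Finset.univ.filter (fun i => y i = 3 ∨ y i = -3)).card = 1 ∧
      ∀ i, y i = 1 ∨ y i = -1 ∨ y i = 3 ∨ y i = -3 := by
  have hv : ∀ i, y i = 1 ∨ y i = -1 ∨ y i = 3 ∨ y i = -3 ∨ y i = 5 ∨ y i = -5 := by
    intro i
    have h1 := coord_bd h32 i
    have h2 := hodd i
    omega
  have hsq : ∀ i, y i ^ 2 = 1 + ((if y i = 3 ∨ y i = -3 then (8 : ℤ) else 0)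
      + (if y i = 5 ∨ y i = -5 then (24 : ℤ) else 0)) := by
    intro i
    rcases hv i with h | h | h | h | h | h <;> rw [h] <;> norm_num
  have hsum : (32 : ℤ) = 24 + (8 * ((Finset.univ.filter (fun i => y i = 3 ∨ y i = -3)).card : ℤ)
      + 24 * ((Finset.univ.filter (fun i => y i = 5 ∨ y i = -5)).card : ℤ)) := by
    rw [← h32]
    show ∑ i, y i ^ 2 = _
    rw [Finset.sum_congr rfl (fun i _ => hsq i), Finset.sum_add_distrib, Finset.sum_add_distrib,
      sum_ind, sum_ind, Finset.sum_const, Finset.card_univ, Fintype.card_fin]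
    norm_num
  have h1 : (Finset.univ.filter (fun i => y i = 3 ∨ y i = -3)).card = 1 := by omega
  have h0 : (Finset.univ.filter (fun i => y i = 5 ∨ y i = -5)).card = 0 := by omega
  refine ⟨h1, fun i => ?_⟩
  have hnot : ¬ (y i = 5 ∨ y i = -5) := by
    intro h
    have hm : i ∈ Finset.univ.filter (fun i => y i = 5 ∨ y i = -5) :=
      Finset.mem_filter.2 ⟨Finset.mem_univ i, h⟩
    rw [Finset.card_eq_zero.1 h0] at hm
    exact absurd hm (Finset.notMem_empty i)
  rcases hv i with h | h | h | h | h | h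
  · exact Or.inl h
  · exact Or.inr (Or.inl h)
  · exact Or.inr (Or.inr (Or.inl h))
  · exact Or.inr (Or.inr (Or.inr h))
  · exact absurd (Or.inl h) hnot
  · exact absurd (Or.inr h) hnot

theorem o8_card (hM : PL M) (O8 : Finset (Finset (Fin 24)))
    (h8 : ∀ S ∈ O8, OC M S ∧ S.card = 8) : O8.card ≤ 759 := by
  have hpd : (O8 : Set (Finset (Fin 24))).PairwiseDisjoint
      (fun S => Finset.powersetCard 5 S) := by
    intro S hS S' hS' hne
    show Disjoint (Finset.powersetCard 5 S) (Finset.powersetCard 5 S')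
    rw [Finset.disjoint_left]
    intro T hT hT'
    have h1 := Finset.mem_powersetCard.1 hT
    have h2 := Finset.mem_powersetCard.1 hT'
    have h5 : 5 ≤ (S ∩ S').card := by
      rw [← h1.2]
      exact Finset.card_le_card (Finset.subset_inter h1.1 h2.1)
    have hfar := oc_far hM (h8 S hS).1 (h8 S' hS').1 hne
    have hc := sd_card' S S'
    rw [(h8 S hS).2, (h8 S' hS').2] at hc
    omega
  have hcard := Finset.card_biUnion hpd
  have hsum : ∑ S ∈ O8, (Finset.powersetCard 5 S).card = O8.card * 56 :=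
    Finset.sum_const_nat (fun S hS => by
      rw [Finset.card_powersetCard, (h8 S hS).2]
      decide)
  have hsub : O8.biUnion (fun S => Finset.powersetCard 5 S)
      ⊆ Finset.powersetCard 5 (Finset.univ : Finset (Fin 24)) := by
    intro T hT
    obtain ⟨S, hS, hTS⟩ := Finset.mem_biUnion.1 hT
    exact Finset.mem_powersetCard.2 ⟨Finset.subset_univ _, (Finset.mem_powersetCard.1 hTS).2⟩
  have hle := Finset.card_le_card hsub
  rw [hcard, hsum, Finset.card_powersetCard, Finset.card_univ, Fintype.card_fin] at hle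
  have h24 : Nat.choose 24 5 = 42504 := by decide
  omega

theorem count_main (hM : PL M) (OCs : Finset (Finset (Fin 24))) (hOCs : ∀ S, S ∈ OCs ↔ OC M S) :
    (∃ x0 ∈ M, ∀ i, ¬ (2 : ℤ) ∣ x0 i) ∧ 4096 ≤ OCs.card := by
  classical
  have fX : {y : V24 | y ∈ M ∧ sqNorm y = 32}.Finite :=
    Set.finite_of_ncard_ne_zero (by rw [hM.2.2.2.2.2.2]; norm_num)
  have cX : fX.toFinset.card = 196560 := by
    rw [← Set.ncard_eq_toFinset_card _ fX]
    exact hM.2.2.2.2.2.2
  generalize hX : fX.toFinset = X at cX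
  have mX : ∀ y, y ∈ X → y ∈ M ∧ sqNorm y = 32 := by
    intro y hy
    rw [← hX, Set.Finite.mem_toFinset] at hy
    exact hy
  -- the three kinds
  have split1 := Finset.card_filter_add_card_filter_not (s := X) (fun y => Ev y)
  have split2 := Finset.card_filter_add_card_filter_not (s := X.filter (fun y => Ev y))
    (fun y => cls y = ∅)
  generalize hXA : (X.filter (fun y => Ev y)).filter (fun y => cls y = ∅) = XA at split2
  generalize hXB : (X.filter (fun y => Ev y)).filter (fun y => ¬ cls y = ∅) = XB at split2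
  generalize hXO : X.filter (fun y => ¬ Ev y) = XO at split1
  have mA : ∀ y, y ∈ XA → y ∈ M ∧ sqNorm y = 32 ∧ Ev y ∧ cls y = ∅ := by
    intro y hy
    rw [← hXA, Finset.mem_filter, Finset.mem_filter] at hy
    exact ⟨(mX y hy.1.1).1, (mX y hy.1.1).2, hy.1.2, hy.2⟩
  have mB : ∀ y, y ∈ XB → y ∈ M ∧ sqNorm y = 32 ∧ Ev y ∧ cls y ≠ ∅ := by
    intro y hy
    rw [← hXB, Finset.mem_filter, Finset.mem_filter] at hy
    exact ⟨(mX y hy.1.1).1, (mX y hy.1.1).2, hy.1.2, hy.2⟩
  have mO : ∀ y, y ∈ XO → y ∈ M ∧ sqNorm y = 32 ∧ ∀ i, ¬ (2 : ℤ) ∣ y i := by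
    intro y hy
    rw [← hXO, Finset.mem_filter] at hy
    refine ⟨(mX y hy.1).1, (mX y hy.1).2, ?_⟩
    rcases parity hM (mX y hy.1).1 with h | h
    · exact absurd h hy.2
    · exact h
  -- kind A
  have bA : XA.card ≤ 1104 := by
    have hfib : ∀ U ∈ XA.image (fun y : V24 => Finset.univ.filter (fun i => y i ≠ 0)),
        (XA.filter (fun y => Finset.univ.filter (fun i => y i ≠ 0) = U)).card ≤ 4 := by
      intro U hU
      obtain ⟨y0, hy0, rfl⟩ := Finset.mem_image.1 hU
      have hU2 := (shapeA (mA y0 hy0).2.1 (mA y0 hy0).2.2.2).2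
      have h4 : (Finset.univ.filter (fun i => y0 i ≠ 0)).powerset.card = 4 := by
        rw [Finset.card_powerset, hU2]
        norm_num
      rw [← h4]
      apply Finset.card_le_card_of_injOn (fun y : V24 => Finset.univ.filter (fun i => y i = -4))
      · intro y hy
        have hy' := Finset.mem_filter.1 (Finset.mem_coe.1 hy)
        apply Finset.mem_coe.2
        rw [Finset.mem_powerset, ← hy'.2]
        intro i hi
        have h := (Finset.mem_filter.1 hi).2
        exact Finset.mem_filter.2 ⟨Finset.mem_univ i, by rw [h]; norm_num⟩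
      · intro y hy y' hy' hyy
        have h1 := Finset.mem_filter.1 (Finset.mem_coe.1 hy)
        have h2 := Finset.mem_filter.1 (Finset.mem_coe.1 hy')
        have hyy' : Finset.univ.filter (fun i => y i = -4) = Finset.univ.filter (fun i => y' i = -4) := hyy
        funext i
        have s1 := (shapeA (mA y h1.1).2.1 (mA y h1.1).2.2.2).1 i
        have s2 := (shapeA (mA y' h2.1).2.1 (mA y' h2.1).2.2.2).1 i
        have e1 : y i ≠ 0 ↔ y' i ≠ 0 := by
          have e := h1.2.trans h2.2.symm
          have e' : i ∈ Finset.univ.filter (fun i => y i ≠ 0) ↔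
              i ∈ Finset.univ.filter (fun i => y' i ≠ 0) := by rw [e]
          rw [Finset.mem_filter, Finset.mem_filter] at e'
          exact ⟨fun h => (e'.1 ⟨Finset.mem_univ i, h⟩).2, fun h => (e'.2 ⟨Finset.mem_univ i, h⟩).2⟩
        have e2 : y i = -4 ↔ y' i = -4 := by
          have e' : i ∈ Finset.univ.filter (fun i => y i = -4) ↔
              i ∈ Finset.univ.filter (fun i => y' i = -4) := by rw [hyy']
          rw [Finset.mem_filter, Finset.mem_filter] at e'
          exact ⟨fun h => (e'.1 ⟨Finset.mem_univ i, h⟩).2, fun h => (e'.2 ⟨Finset.mem_univ i, h⟩).2⟩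
        omega
    have h1 := Finset.card_le_mul_card_image XA 4 hfib
    have hsub : XA.image (fun y : V24 => Finset.univ.filter (fun i => y i ≠ 0))
        ⊆ Finset.powersetCard 2 (Finset.univ : Finset (Fin 24)) := by
      intro U hU
      obtain ⟨y0, hy0, rfl⟩ := Finset.mem_image.1 hU
      exact Finset.mem_powersetCard.2 ⟨Finset.subset_univ _,
        (shapeA (mA y0 hy0).2.1 (mA y0 hy0).2.2.2).2⟩
    have h2 := Finset.card_le_card hsub
    rw [Finset.card_powersetCard, Finset.card_univ, Fintype.card_fin] at h2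
    have h276 : Nat.choose 24 2 = 276 := by decide
    omega
  -- kind B
  have bB : XB.card ≤ 128 * 759 := by
    have hfib : ∀ S ∈ XB.image cls, (XB.filter (fun y => cls y = S)).card ≤ 128 := by
      intro S hS
      obtain ⟨y0, hy0, rfl⟩ := Finset.mem_image.1 hS
      have hS8 := (shapeB hM (mB y0 hy0).1 (mB y0 hy0).2.2.1 (mB y0 hy0).2.1 (mB y0 hy0).2.2.2).1
      obtain ⟨s0, hs0⟩ : (cls y0).Nonempty := by
        rw [← Finset.card_pos, hS8]
        norm_num
      have h128 : ((cls y0).erase s0).powerset.card = 128 := by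
        rw [Finset.card_powerset, Finset.card_erase_of_mem hs0, hS8]
        norm_num
      rw [← h128]
      apply Finset.card_le_card_of_injOn
        (fun y : V24 => (Finset.univ.filter (fun i => y i = -2)).erase s0)
      · intro y hy
        have hy' := Finset.mem_filter.1 (Finset.mem_coe.1 hy)
        apply Finset.mem_coe.2
        rw [Finset.mem_powerset]
        intro i hi
        have h1 := Finset.mem_erase.1 hi
        have h2 := (Finset.mem_filter.1 h1.2).2
        refine Finset.mem_erase.2 ⟨h1.1, ?_⟩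
        rw [← hy'.2, mem_cls, h2]
        norm_num
      · intro y hy y' hy' hyy
        have h1 := Finset.mem_filter.1 (Finset.mem_coe.1 hy)
        have h2 := Finset.mem_filter.1 (Finset.mem_coe.1 hy')
        have hyy' : (Finset.univ.filter (fun i => y i = -2)).erase s0
            = (Finset.univ.filter (fun i => y' i = -2)).erase s0 := hyy
        have sb1 := shapeB hM (mB y h1.1).1 (mB y h1.1).2.2.1 (mB y h1.1).2.1 (mB y h1.1).2.2.2
        have sb2 := shapeB hM (mB y' h2.1).1 (mB y' h2.1).2.2.1 (mB y' h2.1).2.1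
          (mB y' h2.1).2.2.2
        have hoff : ∀ i, i ≠ s0 → y i = y' i := by
          intro i his
          by_cases hi : i ∈ cls y0
          · have a1 := sb1.2.1 i (by rw [h1.2]; exact hi)
            have a2 := sb2.2.1 i (by rw [h2.2]; exact hi)
            have e' : i ∈ (Finset.univ.filter (fun i => y i = -2)).erase s0 ↔
                i ∈ (Finset.univ.filter (fun i => y' i = -2)).erase s0 := by rw [hyy']
            rw [Finset.mem_erase, Finset.mem_erase, Finset.mem_filter, Finset.mem_filter] at e'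
            have e2 : y i = -2 ↔ y' i = -2 :=
              ⟨fun h => (e'.1 ⟨his, Finset.mem_univ i, h⟩).2.2,
                fun h => (e'.2 ⟨his, Finset.mem_univ i, h⟩).2.2⟩
            omega
          · rw [sb1.2.2 i (by rw [h1.2]; exact hi), sb2.2.2 i (by rw [h2.2]; exact hi)]
        have hd : y - y' ∈ M := M.sub_mem (mB y h1.1).1 (mB y' h2.1).1
        have hs0a : y s0 = 2 ∨ y s0 = -2 := sb1.2.1 s0 (by rw [h1.2]; exact hs0)
        have hs0b : y' s0 = 2 ∨ y' s0 = -2 := sb2.2.1 s0 (by rw [h2.2]; exact hs0)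
        have h4 : ∀ i, (4 : ℤ) ∣ (y - y') i := by
          intro i
          show (4 : ℤ) ∣ y i - y' i
          by_cases his : i = s0
          · rw [his]
            omega
          · rw [hoff i his, sub_self]
            exact dvd_zero _
        have h8 := mod4_sum hM hd h4
        have hsum : ∑ i, (y - y') i = y s0 - y' s0 := by
          rw [Finset.sum_eq_single s0]
          · rfl
          · intro i _ his
            show y i - y' i = 0
            rw [hoff i his, sub_self]
          · intro h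
            exact absurd (Finset.mem_univ s0) h
        rw [hsum] at h8
        funext i
        by_cases his : i = s0
        · rw [his]
          omega
        · exact hoff i his
    have h1 := Finset.card_le_mul_card_image XB 128 hfib
    have h2 : (XB.image cls).card ≤ 759 := by
      apply o8_card hM
      intro S hS
      obtain ⟨y0, hy0, rfl⟩ := Finset.mem_image.1 hS
      exact ⟨⟨y0, (mB y0 hy0).1, (mB y0 hy0).2.2.1, rfl⟩,
        (shapeB hM (mB y0 hy0).1 (mB y0 hy0).2.2.1 (mB y0 hy0).2.1 (mB y0 hy0).2.2.2).1⟩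
    omega
  -- kind O
  have bO : ∀ x0 ∈ XO, XO.card ≤ 24 * OCs.card := by
    intro x0 hx0
    have hfib : ∀ S ∈ XO.image (fun y : V24 => cls (y - x0)),
        (XO.filter (fun y => cls (y - x0) = S)).card ≤ 24 := by
      intro S _
      have h24 : ((Finset.univ : Finset (Fin 24)).image
          (fun k => ({k} : Finset (Fin 24)))).card ≤ 24 := by
        have h := Finset.card_image_le (s := (Finset.univ : Finset (Fin 24)))
          (f := fun k => ({k} : Finset (Fin 24)))
        rwa [Finset.card_univ, Fintype.card_fin] at h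
      refine le_trans ?_ h24
      apply Finset.card_le_card_of_injOn
        (fun y : V24 => Finset.univ.filter (fun i => y i = 3 ∨ y i = -3))
      · intro y hy
        have hy' := Finset.mem_filter.1 (Finset.mem_coe.1 hy)
        apply Finset.mem_coe.2
        obtain ⟨k, hk⟩ := Finset.card_eq_one.1 (shapeO (mO y hy'.1).2.1 (mO y hy'.1).2.2).1
        exact Finset.mem_image.2 ⟨k, Finset.mem_univ k, hk.symm⟩
      · intro y hy y' hy' hyy
        have h1 := Finset.mem_filter.1 (Finset.mem_coe.1 hy)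
        have h2 := Finset.mem_filter.1 (Finset.mem_coe.1 hy')
        have hyy' : Finset.univ.filter (fun i => y i = 3 ∨ y i = -3)
            = Finset.univ.filter (fun i => y' i = 3 ∨ y' i = -3) := hyy
        funext i
        have s1 := (shapeO (mO y h1.1).2.1 (mO y h1.1).2.2).2 i
        have s2 := (shapeO (mO y' h2.1).2.1 (mO y' h2.1).2.2).2 i
        have e2 : (y i = 3 ∨ y i = -3) ↔ (y' i = 3 ∨ y' i = -3) := by
          have e' : i ∈ Finset.univ.filter (fun i => y i = 3 ∨ y i = -3) ↔
              i ∈ Finset.univ.filter (fun i => y' i = 3 ∨ y' i = -3) := by rw [hyy']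
          rw [Finset.mem_filter, Finset.mem_filter] at e'
          exact ⟨fun h => (e'.1 ⟨Finset.mem_univ i, h⟩).2, fun h => (e'.2 ⟨Finset.mem_univ i, h⟩).2⟩
        have e3 : i ∈ cls (y - x0) ↔ i ∈ cls (y' - x0) := by rw [h1.2, h2.2]
        rw [mem_cls, mem_cls] at e3
        have e3' : ¬ (4 : ℤ) ∣ y i - x0 i ↔ ¬ (4 : ℤ) ∣ y' i - x0 i := e3
        have o1 := (mO y h1.1).2.2 i
        have o2 := (mO y' h2.1).2.2 i
        have o3 := (mO x0 hx0).2.2 i
        omega
    have h1 := Finset.card_le_mul_card_image XO 24 hfib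
    have hsub : XO.image (fun y : V24 => cls (y - x0)) ⊆ OCs := by
      intro S hS
      obtain ⟨y, hy, rfl⟩ := Finset.mem_image.1 hS
      rw [hOCs]
      refine ⟨y - x0, M.sub_mem (mO y hy).1 (mO x0 hx0).1, ?_, rfl⟩
      intro i
      have o1 := (mO y hy).2.2 i
      have o3 := (mO x0 hx0).2.2 i
      show (2 : ℤ) ∣ y i - x0 i
      omega
    have h2 := Finset.card_le_card hsub
    calc XO.card ≤ 24 * (XO.image (fun y : V24 => cls (y - x0))).card := h1
      _ ≤ 24 * OCs.card := Nat.mul_le_mul_left 24 h2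
  by_cases hne : XO.Nonempty
  · obtain ⟨x0, hx0⟩ := hne
    have h := bO x0 hx0
    exact ⟨⟨x0, (mO x0 hx0).1, (mO x0 hx0).2.2⟩, by omega⟩
  · exfalso
    rw [Finset.not_nonempty_iff_eq_empty] at hne
    rw [hne, Finset.card_empty] at split1
    omega

end count

end Cfsg.Agent.Lib.Helper28.LeechU
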