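import Cfsg.Agent.Lib.Helper4.GolayChain
import Cfsg.Agent.Lib.Helper28.M11Std

set_option autoImplicit false

namespace Cfsg.Agent.Lib.Helper28

open Cfsg Cfsg.Agent.Lib.Helper4.Golay
open Pointwise

/-- Two code automorphisms agreeing on the seven base points are equal. -/
theorem eq_of_base {g h : Equiv.Perm GolayPt} (hg : g ∈ M24) (hh : h ∈ M24)
    (e : ∀ f ∈ [7, 5, 4, 3, 2, 1, 0], g (pt f) = h (pt f)) : g = h := by
  have hk : h⁻¹ * g ∈ KK [7, 5, 4, 3, 2, 1, 0] := by
    refine mem_KK.2 ⟨Subgroup.mul_mem _ (Subgroup.inv_mem _ hh) hg, fun f hf => ?_⟩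
    rw [Equiv.Perm.mul_apply, e f hf]
    simp
  rw [KK7, Subgroup.mem_bot] at hk
  exact (inv_mul_eq_one.mp hk).symm

/-- Check of a candidate: a code automorphism with prescribed images of the first five points. -/
def entChk (img : List ℕ) (e : List ℕ × List ℕ) : Bool :=
  and (and (chk e.1 e.2) (memChk e.1))
    ((List.range 5).all (fun i => Nat.beq (nth e.1 i) (nth img i)))

/-- The key of a permutation list: its values at the base points `5` and `7`. -/
def keyOf (l : List ℕ) : ℕ := 24 * nth l 5 + nth l 7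

/-- Boolean test that a list of numbers has no repetition. -/
def nodupB : List ℕ → Bool
  | [] => true
  | a :: r => and (r.all (fun b => not (Nat.beq a b))) (nodupB r)

theorem nodupB_spec : ∀ l : List ℕ, nodupB l = true → l.Nodup
  | [], _ => List.nodup_nil
  | a :: r, h => by
    simp only [nodupB, Bool.and_eq_true, List.all_eq_true, Bool.not_eq_true'] at h
    refine List.nodup_cons.2 ⟨?_, nodupB_spec r h.2⟩
    intro ha
    have := h.1 a ha
    simp at this

/-- Check of a complete list of the forty-eight candidates with prescribed images. -/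
def candChk (img : List ℕ) (T : List (List ℕ × List ℕ)) : Bool :=
  and (and (T.all (entChk img)) (nodupB (T.map (fun e => keyOf e.1)))) (Nat.beq T.length 48)

theorem entChk_spec {img : List ℕ} {e : List ℕ × List ℕ} (h : entChk img e = true) :
    ∃ hc : chk e.1 e.2 = true, mkPerm e.1 e.2 hc ∈ M24 ∧
      ∀ i < 5, mkPerm e.1 e.2 hc (pt i) = pt (nth img i) := by
  simp only [entChk, Bool.and_eq_true, List.all_eq_true, List.mem_range, Nat.beq_eq] at h
  obtain ⟨⟨hc, hm⟩, himg⟩ := h
  refine ⟨hc, mkPerm_mem _ _ _ hm, fun i hi => ?_⟩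
  rw [mkPerm_pt _ _ _ i (by omega), himg i hi]

/-- Every code automorphism with the prescribed images of the first five points is one of the
listed candidates. -/
theorem cands (img : List ℕ) (T : List (List ℕ × List ℕ)) (h : candChk img T = true)
    (g : Equiv.Perm GolayPt) (hg : g ∈ M24) (hmap : ∀ i < 5, g (pt i) = pt (nth img i)) :
    ∃ e ∈ T, ∃ hc : chk e.1 e.2 = true, g = mkPerm e.1 e.2 hc := by
  classical
  simp only [candChk, Bool.and_eq_true, List.all_eq_true, Nat.beq_eq] at h
  obtain ⟨⟨hall, hnd⟩, hlen⟩ := h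
  let ψ : Equiv.Perm GolayPt → ℕ := fun x => 24 * code (x (pt 5)) + code (x (pt 7))
  let C : Set (Equiv.Perm GolayPt) := {x | x ∈ M24 ∧ ∀ i < 5, x (pt i) = pt (nth img i)}
  have hinj : ∀ x ∈ C, ∀ y ∈ C, ψ x = ψ y → x = y := by
    intro x hx y hy hxy
    have h5 : code (x (pt 5)) = code (y (pt 5)) ∧ code (x (pt 7)) = code (y (pt 7)) := by
      have a1 := code_lt (x (pt 7))
      have a2 := code_lt (y (pt 7))
      have hxy' : 24 * code (x (pt 5)) + code (x (pt 7))
          = 24 * code (y (pt 5)) + code (y (pt 7)) := hxy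
      omega
    apply eq_of_base hx.1 hy.1
    intro f hf
    simp only [List.mem_cons, List.not_mem_nil, or_false] at hf
    rcases hf with rfl | rfl | rfl | rfl | rfl | rfl | rfl
    · rw [← pt_code (x (pt 7)), ← pt_code (y (pt 7)), h5.2]
    · rw [← pt_code (x (pt 5)), ← pt_code (y (pt 5)), h5.1]
    · rw [hx.2 4 (by norm_num), hy.2 4 (by norm_num)]
    · rw [hx.2 3 (by norm_num), hy.2 3 (by norm_num)]
    · rw [hx.2 2 (by norm_num), hy.2 2 (by norm_num)]
    · rw [hx.2 1 (by norm_num), hy.2 1 (by norm_num)]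
    · rw [hx.2 0 (by norm_num), hy.2 0 (by norm_num)]
  have hCcard : C.ncard = 48 := by
    have hC : C = (fun κ => g * κ) '' ((KK [4, 3, 2, 1, 0] : Subgroup (Equiv.Perm GolayPt)) :
        Set (Equiv.Perm GolayPt)) := by
      ext x
      constructor
      · intro hx
        refine ⟨g⁻¹ * x, mem_KK.2 ⟨Subgroup.mul_mem _ (Subgroup.inv_mem _ hg) hx.1, ?_⟩, by simp⟩
        intro f hf
        have hf5 : f < 5 := by
          simp only [List.mem_cons, List.not_mem_nil, or_false] at hf
          omega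
        rw [Equiv.Perm.mul_apply, hx.2 f hf5, ← hmap f hf5]
        simp
      · rintro ⟨κ, hκ, rfl⟩
        have h1 := mem_KK.1 hκ
        refine ⟨Subgroup.mul_mem _ hg h1.1, fun i hi => ?_⟩
        have hi' : i ∈ [4, 3, 2, 1, 0] := by
          simp only [List.mem_cons, List.not_mem_nil, or_false]
          omega
        show g (κ (pt i)) = _
        rw [h1.2 i hi', hmap i hi]
    rw [hC, Set.ncard_image_of_injective _ (mul_right_injective g), ← card_KK5]
    exact (Nat.card_coe_set_eq _).symm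
  let A : Set ℕ := {k | k ∈ T.map (fun e => keyOf e.1)}
  have hkey : ∀ e ∈ T, ∀ hc : chk e.1 e.2 = true, ψ (mkPerm e.1 e.2 hc) = keyOf e.1 := by
    intro e _ hc
    have h5 := ((chk_spec hc).2 5 (by norm_num)).1
    have h7 := ((chk_spec hc).2 7 (by norm_num)).1
    show 24 * code (mkPerm e.1 e.2 hc (pt 5)) + code (mkPerm e.1 e.2 hc (pt 7)) = _
    rw [mkPerm_pt _ _ _ 5 (by norm_num), mkPerm_pt _ _ _ 7 (by norm_num), code_pt _ h5,
      code_pt _ h7]
    rfl
  have hA : A ⊆ ψ '' C := by
    intro k hk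
    obtain ⟨e, he, rfl⟩ := List.mem_map.1 hk
    obtain ⟨hc, hm, himg⟩ := entChk_spec (hall e he)
    exact ⟨mkPerm e.1 e.2 hc, ⟨hm, himg⟩, hkey e he hc⟩
  have hAcard : A.ncard = 48 := by
    have hA' : A = ↑(T.map (fun e => keyOf e.1)).toFinset := by
      ext k
      simp [A]
    rw [hA', Set.ncard_coe_finset, List.toFinset_card_of_nodup (nodupB_spec _ hnd),
      List.length_map, hlen]
  have hle : (ψ '' C).ncard ≤ A.ncard := by
    rw [hAcard, ← hCcard]
    exact Set.ncard_image_le (Set.toFinite C)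
  have hEq : A = ψ '' C := Set.eq_of_subset_of_ncard_le hA hle (Set.toFinite _)
  have hgC : g ∈ C := ⟨hg, hmap⟩
  have hgA : ψ g ∈ A := by
    rw [hEq]
    exact ⟨g, hgC, rfl⟩
  obtain ⟨e, he, hek⟩ := List.mem_map.1 hgA
  obtain ⟨hc, hm, himg⟩ := entChk_spec (hall e he)
  refine ⟨e, he, hc, ?_⟩
  apply hinj g hgC _ ⟨hm, himg⟩
  rw [hkey e he hc]
  exact hek.symm

/-- The value of an explicit permutation at a point. -/
theorem mkPerm_code (l l' : List ℕ) (h : chk l l' = true) (p : GolayPt) :
    code (mkPerm l l' h p) = nth l (code p) := by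
  rw [mkPerm_apply, code_pt _ ((chk_spec h).2 _ (code_lt p)).1]

theorem mkPerm_fix_iff (l l' : List ℕ) (h : chk l l' = true) (p : GolayPt) :
    mkPerm l l' h p = p ↔ nth l (code p) = code p := by
  constructor
  · intro e
    rw [← mkPerm_code l l' h p, e]
  · intro e
    rw [mkPerm_apply, e, pt_code]

/-- The inverse of an explicit permutation. -/
theorem mkPerm_inv (c c' : List ℕ) (h : chk c c' = true) (h' : chk c' c = true) :
    (mkPerm c c' h)⁻¹ = mkPerm c' c h' := Equiv.ext fun _ => rfl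

/-- Squaring check. -/
def sqB (l : List ℕ) : Bool := (List.range 24).all (fun i => Nat.beq (nth l (nth l i)) i)

theorem sqB_of_sq (l l' : List ℕ) (h : chk l l' = true)
    (e : mkPerm l l' h * mkPerm l l' h = 1) : sqB l = true := by
  simp only [sqB, List.all_eq_true, List.mem_range, Nat.beq_eq]
  intro i hi
  have h1 := ((chk_spec h).2 i hi).1
  have h2 := ((chk_spec h).2 _ h1).1
  have e1 : (mkPerm l l' h * mkPerm l l' h) (pt i) = pt i := by rw [e]; rfl
  rw [Equiv.Perm.mul_apply, mkPerm_pt _ _ _ i hi, mkPerm_pt _ _ _ _ h1] at e1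
  exact pt_inj h2 hi e1

theorem sq_of_sqB (l l' : List ℕ) (h : chk l l' = true) (hs : sqB l = true) :
    mkPerm l l' h * mkPerm l l' h = 1 := by
  simp only [sqB, List.all_eq_true, List.mem_range, Nat.beq_eq] at hs
  apply Equiv.ext
  intro p
  have hp := code_lt p
  have h1 := ((chk_spec h).2 _ hp).1
  rw [Equiv.Perm.mul_apply, mkPerm_apply l l' h p, mkPerm_pt _ _ _ _ h1, hs _ hp, pt_code]
  rfl

/-- Cubing check. -/
def cuB (l : List ℕ) : Bool :=
  (List.range 24).all (fun i => Nat.beq (nth l (nth l (nth l i))) i)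

theorem cuB_of_cube (l l' : List ℕ) (h : chk l l' = true)
    (e : mkPerm l l' h * (mkPerm l l' h * mkPerm l l' h) = 1) : cuB l = true := by
  simp only [cuB, List.all_eq_true, List.mem_range, Nat.beq_eq]
  intro i hi
  have h1 := ((chk_spec h).2 i hi).1
  have h2 := ((chk_spec h).2 _ h1).1
  have h3 := ((chk_spec h).2 _ h2).1
  have e1 : (mkPerm l l' h * (mkPerm l l' h * mkPerm l l' h)) (pt i) = pt i := by rw [e]; rfl
  rw [Equiv.Perm.mul_apply, Equiv.Perm.mul_apply, mkPerm_pt _ _ _ i hi, mkPerm_pt _ _ _ _ h1,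
    mkPerm_pt _ _ _ _ h2] at e1
  exact pt_inj h3 hi e1

theorem cube_of_cuB (l l' : List ℕ) (h : chk l l' = true) (hs : cuB l = true) :
    mkPerm l l' h * (mkPerm l l' h * mkPerm l l' h) = 1 := by
  simp only [cuB, List.all_eq_true, List.mem_range, Nat.beq_eq] at hs
  apply Equiv.ext
  intro p
  have hp := code_lt p
  have h1 := ((chk_spec h).2 _ hp).1
  have h2 := ((chk_spec h).2 _ h1).1
  rw [Equiv.Perm.mul_apply, Equiv.Perm.mul_apply, mkPerm_apply l l' h p, mkPerm_pt _ _ _ _ h1,
    mkPerm_pt _ _ _ _ h2, hs _ hp, pt_code]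
  rfl

/-- Existence of a fixed point among the indices. -/
def hasFix (l : List ℕ) : Bool := (List.range 24).any (fun i => Nat.beq (nth l i) i)

theorem hasFix_spec (l l' : List ℕ) (h : chk l l' = true) (hf : hasFix l = true) :
    ∃ p, mkPerm l l' h p = p := by
  simp only [hasFix, List.any_eq_true, List.mem_range, Nat.beq_eq] at hf
  obtain ⟨i, hi, e⟩ := hf
  exact ⟨pt i, by rw [mkPerm_pt _ _ _ i hi, e]⟩

theorem noFix_spec (l l' : List ℕ) (h : chk l l' = true) (hf : hasFix l = false) :
    ∀ p, mkPerm l l' h p ≠ p := by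
  intro p e
  have h1 := (mkPerm_fix_iff l l' h p).1 e
  have : hasFix l = true := by
    simp only [hasFix, List.any_eq_true, List.mem_range, Nat.beq_eq]
    exact ⟨code p, code_lt p, h1⟩
  rw [hf] at this
  exact Bool.false_ne_true this

/-- The mask of the fixed indices. -/
def fixMask (l : List ℕ) : ℕ :=
  (List.range 24).foldr (fun i acc => if nth l i = i then acc + 2 ^ i else acc) 0

/-- Check that a mask is the set of fixed indices. -/
def fixChk (l : List ℕ) (m : ℕ) : Bool :=
  (List.range 24).all (fun i => not (xor (Nat.beq (nth l i) i) (m.testBit i)))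

theorem fix_eq (l l' : List ℕ) (h : chk l l' = true) (m : ℕ) (hm : fixChk l m = true) :
    (Finset.univ.filter fun p => mkPerm l l' h p = p) = support₂ (word m) := by
  simp only [fixChk, List.all_eq_true, List.mem_range] at hm
  ext p
  rw [Finset.mem_filter, mem_support_word, mkPerm_fix_iff]
  have h1 := hm (code p) (code_lt p)
  constructor
  · rintro ⟨-, e⟩
    have e' : Nat.beq (nth l (code p)) (code p) = true := Nat.beq_eq ▸ e
    rw [e'] at h1
    revert h1
    cases Nat.testBit m (code p) <;> simp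
  · intro e
    rw [e] at h1
    refine ⟨Finset.mem_univ _, ?_⟩
    have : Nat.beq (nth l (code p)) (code p) = true := by
      revert h1
      cases Nat.beq (nth l (code p)) (code p) <;> simp
    exact Nat.beq_eq ▸ this

/-- Octad test for a mask. -/
def octB (m : ℕ) : Bool := and (Nat.beq (red basisP m) 0) (Nat.beq (pc m) 8)

theorem octB_spec {m : ℕ} (h : octB m = true) : support₂ (word m) ∈ octads := by
  simp only [octB, Bool.and_eq_true, Nat.beq_eq] at h
  refine ⟨⟨word m, ?_, rfl⟩, ?_⟩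
  · rw [SetLike.mem_coe, golay_eq]
    apply red_sound basisP m (sp basis) basisP_mem
    rw [h.1, word_zero]
    exact Submodule.zero_mem _
  · rw [card_support, hammingNorm_word]
    exact h.2

/-- Check of a conjugating element: `c * l * c⁻¹ = r`. -/
def conjChk (l r : List ℕ) (c : List ℕ × List ℕ) : Bool :=
  and (and (chk c.1 c.2) (chk c.2 c.1))
    (and (memChk c.1) (listBeq (compL c.1 (compL l c.2)) r))

theorem conjChk_spec (l l' r r' : List ℕ) (h : chk l l' = true) (hr : chk r r' = true)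
    (c : List ℕ × List ℕ) (hc : conjChk l r c = true) :
    ∃ k ∈ M24, k * mkPerm l l' h * k⁻¹ = mkPerm r r' hr := by
  simp only [conjChk, Bool.and_eq_true] at hc
  obtain ⟨⟨h1, h2⟩, hm, he⟩ := hc
  refine ⟨mkPerm c.1 c.2 h1, mkPerm_mem _ _ _ hm, ?_⟩
  rw [mkPerm_inv _ _ h1 h2]
  have e := listBeq_eq _ _ he
  apply Equiv.ext
  intro p
  have hp := code_lt p
  have a1 := ((chk_spec h2).2 _ hp).1
  have a2 := ((chk_spec h).2 _ a1).1
  rw [Equiv.Perm.mul_apply, Equiv.Perm.mul_apply, mkPerm_apply c.2, mkPerm_pt _ _ _ _ a1,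
    mkPerm_pt _ _ _ _ a2, mkPerm_apply r, ← e, nth_compL _ _ _ hp, nth_compL _ _ _ hp]

/-- The stabiliser of the first five points fixes them, also through its inverse. -/
theorem KK5_fix_inv {κ : Equiv.Perm GolayPt} (hκ : κ ∈ KK [4, 3, 2, 1, 0]) {i : ℕ} (hi : i < 5) :
    κ (pt i) = pt i ∧ κ⁻¹ (pt i) = pt i := by
  have h1 := (mem_KK.1 hκ).2 i (by
    simp only [List.mem_cons, List.not_mem_nil, or_false]
    omega)
  refine ⟨h1, ?_⟩
  rw [Equiv.Perm.inv_eq_iff_eq]
  exact h1.symm

/-- The stabiliser of the first five points has two orbits on the other points, represented by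
the points `5` and `7`. -/
theorem KK5_orbit (q : GolayPt) (hq : ∀ i < 5, q ≠ pt i) :
    ∃ κ ∈ KK [4, 3, 2, 1, 0], κ q = pt 5 ∨ κ q = pt 7 := by
  by_cases hb : Nat.testBit 5279 (code q) = false
  · have h1 : q ∈ MulAction.orbit (KK [4, 3, 2, 1, 0]) (pt 5) := by
      rw [orbit6]
      exact hb
    obtain ⟨κ, hκ, e⟩ := mem_orbit_KK.1 h1
    refine ⟨κ⁻¹, Subgroup.inv_mem _ hκ, Or.inl ?_⟩
    rw [← e]
    simp
  · have hb' : Nat.testBit 5279 (code q) = true := by
      revert hb
      cases Nat.testBit 5279 (code q) <;> simp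
    have h5 : 5 ≤ code q := by
      by_contra hlt
      exact hq (code q) (by omega) (pt_code q).symm
    have h1 : q ∈ MulAction.orbit (KK [5, 4, 3, 2, 1, 0]) (pt 7) := by
      rw [orbit7]
      exact ⟨hb', h5⟩
    obtain ⟨κ, hκ, e⟩ := mem_orbit_KK.1 h1
    have hκ5 : κ ∈ KK [4, 3, 2, 1, 0] := by
      have h2 := mem_KK.1 hκ
      exact mem_KK.2 ⟨h2.1, fun f hf => h2.2 f (List.mem_cons_of_mem _ hf)⟩
    refine ⟨κ⁻¹, Subgroup.inv_mem _ hκ5, Or.inr ?_⟩
    rw [← e]
    simp

/-- Conjugating so that five given points become the first five points. -/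
theorem normalize (g : Equiv.Perm GolayPt) (x : Fin 5 ↪ GolayPt) :
    ∃ k ∈ M24, (∀ i : Fin 5, k (x i) = pt i.val) ∧
      ∀ i : Fin 5, (k * g * k⁻¹) (pt i.val) = k (g (x i)) := by
  obtain ⟨k, hk, hmap⟩ := exists_map x stdE
  refine ⟨k, hk, fun i => by rw [hmap i, stdE_apply], fun i => ?_⟩
  have e : k⁻¹ (pt i.val) = x i := by
    rw [Equiv.Perm.inv_eq_iff_eq, hmap i, stdE_apply]
  rw [Equiv.Perm.mul_apply, Equiv.Perm.mul_apply, e]

/-- Fixed points of a conjugate. -/
theorem fix_conj (g k : Equiv.Perm GolayPt) :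
    (Finset.univ.filter fun p => g p = p)
      = k⁻¹ • (Finset.univ.filter fun p => (k * g * k⁻¹) p = p) := by
  ext p
  rw [Finset.mem_inv_smul_finset_iff, Finset.mem_filter, Finset.mem_filter]
  have e : k⁻¹ (k p) = p := by simp
  simp only [Finset.mem_univ, true_and, Equiv.Perm.smul_def, Equiv.Perm.mul_apply, e]
  exact ⟨fun h => by rw [h], fun h => k.injective h⟩

end Cfsg.Agent.Lib.Helper28
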