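import Cfsg.Agent.Lib.Helper28.M24Cand

set_option autoImplicit false

namespace Cfsg.Agent.Lib.Helper28

open Cfsg Cfsg.Agent.Lib.Helper4.Golay
open Pointwise

theorem conj_comp' {G : Type*} [Group G] (g k k2 r : G) (h : k2 * (k * g * k⁻¹) * k2⁻¹ = r) :
    (k2 * k) * g * (k2 * k)⁻¹ = r := by
  rw [← h, mul_inv_rev]
  simp only [mul_assoc]

theorem conj_of_two' {G : Type*} [Group G] (g h k1 k2 r : G) (e1 : k1 * g * k1⁻¹ = r)
    (e2 : k2 * h * k2⁻¹ = r) : (k2⁻¹ * k1) * g * (k2⁻¹ * k1)⁻¹ = h := by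
  have : h = k2⁻¹ * r * k2 := by rw [← e2]; group
  rw [this, ← e1]
  group

theorem conj_mem {g k : Equiv.Perm GolayPt} (hg : g ∈ M24) (hk : k ∈ M24) :
    k * g * k⁻¹ ∈ M24 :=
  Subgroup.mul_mem _ (Subgroup.mul_mem _ hk hg) (Subgroup.inv_mem _ hk)

/-- Second normalisation: the image of the fifth point is moved to the point `5` or `7` by an
element fixing the first five points. -/
theorem norm5 (g : Equiv.Perm GolayPt) (img : List ℕ)
    (h03 : ∀ i < 4, nth img i < 5 ∧ g (pt i) = pt (nth img i))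
    (hq : ∀ i < 5, g (pt 4) ≠ pt i) :
    ∃ κ ∈ M24, (∀ i < 4, (κ * g * κ⁻¹) (pt i) = pt (nth img i)) ∧
      ((κ * g * κ⁻¹) (pt 4) = pt 5 ∨ (κ * g * κ⁻¹) (pt 4) = pt 7) := by
  obtain ⟨κ, hκ, hκq⟩ := KK5_orbit _ hq
  have hval : ∀ i < 5, (κ * g * κ⁻¹) (pt i) = κ (g (pt i)) := by
    intro i hi
    rw [Equiv.Perm.mul_apply, Equiv.Perm.mul_apply, (KK5_fix_inv hκ hi).2]
  refine ⟨κ, (mem_KK.1 hκ).1, fun i hi => ?_, ?_⟩
  · rw [hval i (by omega), (h03 i hi).2]
    exact (KK5_fix_inv hκ (h03 i hi).1).1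
  · rw [hval 4 (by norm_num)]
    exact hκq

/-- The number of fixed points of an explicit permutation. -/
theorem fix_card (l l' : List ℕ) (h : chk l l' = true) (m : ℕ) (hm : fixChk l m = true) :
    (Finset.univ.filter fun p => mkPerm l l' h p = p).card = pc m := by
  rw [fix_eq l l' h m hm, card_support, hammingNorm_word]

/-- The number of fixed points is a conjugacy invariant. -/
theorem fix_card_conj (g k : Equiv.Perm GolayPt) :
    (Finset.univ.filter fun p => g p = p).card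
      = (Finset.univ.filter fun p => (k * g * k⁻¹) p = p).card := by
  rw [fix_conj g k, Finset.card_smul_finset]

theorem no_fix_conj {g k : Equiv.Perm GolayPt} (h0 : ∀ p, g p ≠ p) :
    ∀ p, (k * g * k⁻¹) p ≠ p := by
  intro q hq
  apply h0 (k⁻¹ q)
  have h1 : k (g (k⁻¹ q)) = q := hq
  apply k.injective
  rw [h1]
  simp

theorem order_two' (l : List ℕ) (h : chk l l = true) (hs : sqB l = true)
    (hne : nth l 0 ≠ 0) : orderOf (mkPerm l l h) = 2 := by
  apply orderOf_eq_prime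
  · rw [pow_two]
    exact sq_of_sqB _ _ h hs
  · intro e
    have e1 : mkPerm l l h (pt 0) = pt 0 := by rw [e]; rfl
    rw [mkPerm_pt _ _ _ 0 (by norm_num)] at e1
    exact hne (pt_inj ((chk_spec h).2 0 (by norm_num)).1 (by norm_num) e1)

theorem order_three (l l' : List ℕ) (h : chk l l' = true) (hs : cuB l = true)
    (hne : nth l 0 ≠ 0) : orderOf (mkPerm l l' h) = 3 := by
  haveI : Fact (Nat.Prime 3) := ⟨Nat.prime_three⟩
  apply orderOf_eq_prime
  · rw [pow_three]
    exact cube_of_cuB _ _ h hs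
  · intro e
    have e1 : mkPerm l l' h (pt 0) = pt 0 := by rw [e]; rfl
    rw [mkPerm_pt _ _ _ 0 (by norm_num)] at e1
    exact hne (pt_inj ((chk_spec h).2 0 (by norm_num)).1 (by norm_num) e1)

theorem sq_conj {g k : Equiv.Perm GolayPt} (h2 : orderOf g = 2) :
    k * g * k⁻¹ * (k * g * k⁻¹) = 1 := by
  have h := pow_orderOf_eq_one g
  rw [h2, pow_two] at h
  have : k * g * k⁻¹ * (k * g * k⁻¹) = k * (g * g) * k⁻¹ := by group
  rw [this, h]
  group

theorem cube_conj {g k : Equiv.Perm GolayPt} (h3 : orderOf g = 3) :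
    k * g * k⁻¹ * (k * g * k⁻¹ * (k * g * k⁻¹)) = 1 := by
  have h := pow_orderOf_eq_one g
  rw [h3, pow_three] at h
  have : k * g * k⁻¹ * (k * g * k⁻¹ * (k * g * k⁻¹)) = k * (g * (g * g)) * k⁻¹ := by group
  rw [this, h]
  group

theorem apply3 {g : Equiv.Perm GolayPt} (h3 : orderOf g = 3) (x : GolayPt) :
    g (g (g x)) = x := by
  have h := pow_orderOf_eq_one g
  rw [h3, pow_three] at h
  have h' := congrArg (fun f : Equiv.Perm GolayPt => f x) h
  simpa using h'

theorem apply2 {g : Equiv.Perm GolayPt} (h2 : orderOf g = 2) (x : GolayPt) : g (g x) = x := by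
  have h := pow_orderOf_eq_one g
  rw [h2, pow_two] at h
  have h' := congrArg (fun f : Equiv.Perm GolayPt => f x) h
  simpa using h'

theorem exists_moved_pt {g : Equiv.Perm GolayPt} (hg1 : g ≠ 1) : ∃ a, g a ≠ a := by
  by_contra hcon
  push Not at hcon
  exact hg1 (Equiv.ext hcon)

/-- A point outside a small set of points. -/
theorem exists_not_mem (S : Finset GolayPt) (hS : S.card ≤ 23) : ∃ c, c ∉ S := by
  classical
  have h1 := Finset.le_card_sdiff S Finset.univ
  have h4 : (Finset.univ : Finset GolayPt).card = 24 := by decide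
  obtain ⟨c, hc⟩ : (Finset.univ \ S).Nonempty := Finset.card_pos.mp (by omega)
  exact ⟨c, (Finset.mem_sdiff.mp hc).2⟩

end Cfsg.Agent.Lib.Helper28
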