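import Cfsg.Agent.Lib.Helper28.M24Cand2

set_option autoImplicit false

namespace Cfsg.Agent.Lib.Helper28

open Cfsg Cfsg.Agent.Lib.Helper4.Golay
open Pointwise

/-- The mask of the fixed indices of a function on indices. -/
def maskF (f : ℕ → ℕ) : ℕ :=
  (List.range 24).foldr (fun i acc => if f i = i then acc + 2 ^ i else acc) 0

/-- Check that a mask is the set of fixed indices of a function. -/
def fixChkF (f : ℕ → ℕ) (m : ℕ) : Bool :=
  (List.range 24).all (fun i => not (xor (Nat.beq (f i) i) (m.testBit i)))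

/-- A permutation is described on the indices by a function. -/
def Desc (φ : Equiv.Perm GolayPt) (f : ℕ → ℕ) : Prop :=
  ∀ i < 24, f i < 24 ∧ φ (pt i) = pt (f i)

theorem desc_fix_iff {φ : Equiv.Perm GolayPt} {f : ℕ → ℕ} (hφ : Desc φ f) (p : GolayPt) :
    φ p = p ↔ f (code p) = code p := by
  have h1 := hφ (code p) (code_lt p)
  rw [pt_code] at h1
  constructor
  · intro e
    rw [e] at h1
    have := congrArg code h1.2
    rw [code_pt _ h1.1] at this
    exact this.symm
  · intro e
    rw [h1.2, e, pt_code]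

theorem fix_eq_fn {φ : Equiv.Perm GolayPt} {f : ℕ → ℕ} (hφ : Desc φ f) (m : ℕ)
    (hm : fixChkF f m = true) :
    (Finset.univ.filter fun p => φ p = p) = support₂ (word m) := by
  simp only [fixChkF, List.all_eq_true, List.mem_range] at hm
  ext p
  rw [Finset.mem_filter, mem_support_word, desc_fix_iff hφ]
  have h1 := hm (code p) (code_lt p)
  constructor
  · rintro ⟨-, e⟩
    have e' : Nat.beq (f (code p)) (code p) = true := Nat.beq_eq ▸ e
    rw [e'] at h1
    revert h1
    cases Nat.testBit m (code p) <;> simp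
  · intro e
    rw [e] at h1
    refine ⟨Finset.mem_univ _, ?_⟩
    have : Nat.beq (f (code p)) (code p) = true := by
      revert h1
      cases Nat.beq (f (code p)) (code p) <;> simp
    exact Nat.beq_eq ▸ this

theorem fix_card_fn {φ : Equiv.Perm GolayPt} {f : ℕ → ℕ} (hφ : Desc φ f) (m : ℕ)
    (hm : fixChkF f m = true) : (Finset.univ.filter fun p => φ p = p).card = pc m := by
  rw [fix_eq_fn hφ m hm, card_support, hammingNorm_word]

/-- Identity test for a function on indices. -/
def idF (f : ℕ → ℕ) : Bool := (List.range 24).all (fun i => Nat.beq (f i) i)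

theorem eq_one_of_idF {φ : Equiv.Perm GolayPt} {f : ℕ → ℕ} (hφ : Desc φ f)
    (h : idF f = true) : φ = 1 := by
  simp only [idF, List.all_eq_true, List.mem_range, Nat.beq_eq] at h
  apply Equiv.ext
  intro p
  rw [(desc_fix_iff hφ p).2 (h _ (code_lt p))]
  rfl

theorem idF_of_eq_one {φ : Equiv.Perm GolayPt} {f : ℕ → ℕ} (hφ : Desc φ f) (h : φ = 1) :
    idF f = true := by
  simp only [idF, List.all_eq_true, List.mem_range, Nat.beq_eq]
  intro i hi
  have h1 := hφ i hi
  rw [h] at h1
  exact (pt_inj h1.1 hi h1.2.symm)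

theorem desc_mk (l l' : List ℕ) (h : chk l l' = true) : Desc (mkPerm l l' h) (nth l) :=
  fun i hi => ⟨((chk_spec h).2 i hi).1, mkPerm_pt _ _ _ i hi⟩

theorem desc_mul {φ ψ : Equiv.Perm GolayPt} {f g : ℕ → ℕ} (hφ : Desc φ f) (hψ : Desc ψ g) :
    Desc (φ * ψ) (fun i => f (g i)) := by
  intro i hi
  have h1 := hψ i hi
  have h2 := hφ _ h1.1
  exact ⟨h2.1, by rw [Equiv.Perm.mul_apply, h1.2, h2.2]⟩

theorem desc_one : Desc 1 (fun i => i) := fun _ hi => ⟨hi, rfl⟩

end Cfsg.Agent.Lib.Helper28
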