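import Cfsg.Agent.Lib.Helper28.M24Cand3
import Cfsg.Agent.Lib.Helper28.M24Lists
import Cfsg.Agent.Lib.Helper4.GolayDod2
import Cfsg.Agent.S1557
import Cfsg.Agent.S1550

set_option autoImplicit false

namespace Cfsg.Agent.Lib.Helper28

open Cfsg Cfsg.Agent.Lib.Helper4.Golay
open Pointwise

/-- Strictly increasing check, starting above a given number. -/
def incFrom : ℕ → List ℕ → Bool
  | _, [] => true
  | p, a :: r => and (Nat.blt p a) (incFrom a r)

theorem incFrom_spec : ∀ (l : List ℕ) (p : ℕ), incFrom p l = true →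
    (∀ x ∈ l, p < x) ∧ l.Nodup
  | [], _, _ => ⟨fun _ h => absurd h List.not_mem_nil, List.nodup_nil⟩
  | a :: r, p, h => by
    simp only [incFrom, Bool.and_eq_true, Nat.blt_eq] at h
    obtain ⟨h1, h2⟩ := incFrom_spec r a h.2
    refine ⟨?_, ?_⟩
    · intro x hx
      rcases List.mem_cons.1 hx with rfl | hx
      · exact h.1
      · exact lt_trans h.1 (h1 x hx)
    · rw [List.nodup_cons]
      exact ⟨fun ha => lt_irrefl _ (h1 a ha), h2⟩

/-- Counting the members of a set with a property, through an explicit list of codes. -/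
theorem enum_count {β κ : Type*} (X : Set β) (hfin : X.Finite) (L : List κ) (dec : κ → β)
    (hcard : X.ncard = L.length) (hnd : L.Nodup) (hmem : ∀ c ∈ L, dec c ∈ X)
    (hinj : ∀ c ∈ L, ∀ c' ∈ L, dec c = dec c' → c = c')
    (F : β → Prop) (f : κ → Bool) (hf : ∀ c ∈ L, f c = true ↔ F (dec c)) :
    {x | x ∈ X ∧ F x}.ncard = (L.filter f).length := by
  classical
  have hcardL : ∀ L' : List κ, L'.Nodup → {c | c ∈ L'}.ncard = L'.length := by
    intro L' hL'
    rw [← List.coe_toFinset, Set.ncard_coe_finset, List.toFinset_card_of_nodup hL']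
  have hinjOn : Set.InjOn dec {c | c ∈ L} := fun c hc c' hc' e => hinj c hc c' hc' e
  have himg : dec '' {c | c ∈ L} = X := by
    apply Set.eq_of_subset_of_ncard_le
    · rintro _ ⟨c, hc, rfl⟩
      exact hmem c hc
    · rw [Set.InjOn.ncard_image hinjOn, hcardL L hnd, hcard]
    · exact hfin
  have hset : {x | x ∈ X ∧ F x} = dec '' {c | c ∈ L.filter f} := by
    ext x
    constructor
    · rintro ⟨hx, hF⟩
      rw [← himg] at hx
      obtain ⟨c, hc, rfl⟩ := hx
      exact ⟨c, List.mem_filter.2 ⟨hc, (hf c hc).2 hF⟩, rfl⟩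
    · rintro ⟨c, hc, rfl⟩
      obtain ⟨hc1, hc2⟩ := List.mem_filter.1 hc
      exact ⟨hmem c hc1, (hf c hc1).1 hc2⟩
  have hsub : {c | c ∈ L.filter f} ⊆ {c | c ∈ L} := fun c hc => (List.mem_filter.1 hc).1
  rw [hset, Set.InjOn.ncard_image (hinjOn.mono hsub), hcardL _ (hnd.filter _)]

/-- The number of fixed members of an invariant set is a conjugacy invariant. -/
theorem ncard_fix_conj {G β : Type*} [Group G] [MulAction G β] (X : Set β) (k g : G)
    (hk : ∀ x ∈ X, k • x ∈ X) (hk' : ∀ x ∈ X, k⁻¹ • x ∈ X) :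
    {x | x ∈ X ∧ (k * g * k⁻¹) • x = x}.ncard = {x | x ∈ X ∧ g • x = x}.ncard := by
  have hset : {x | x ∈ X ∧ (k * g * k⁻¹) • x = x} = (fun x => k • x) '' {x | x ∈ X ∧ g • x = x} := by
    ext x
    constructor
    · rintro ⟨hx, hF⟩
      refine ⟨k⁻¹ • x, ⟨hk' x hx, ?_⟩, smul_inv_smul k x⟩
      rw [mul_smul, mul_smul] at hF
      calc g • k⁻¹ • x = k⁻¹ • (k • g • k⁻¹ • x) := (inv_smul_smul _ _).symm
        _ = k⁻¹ • x := by rw [hF]
    · rintro ⟨y, ⟨hy, hF⟩, rfl⟩
      refine ⟨hk y hy, ?_⟩
      rw [mul_smul, mul_smul, inv_smul_smul, hF]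
  rw [hset, Set.ncard_image_of_injective _ (MulAction.injective k)]

theorem pmL_lt (l : List ℕ) (b : ℕ) : pmL l b < 2 ^ l.length := by
  induction l with
  | nil => simp [pmL]
  | cons j r ih =>
    rw [pmL_cons, List.length_cons, pow_succ]
    split_ifs <;> omega

theorem pmL_lt' {l l' : List ℕ} (h : chk l l' = true) (b : ℕ) : pmL l b < 16777216 := by
  have h1 := pmL_lt l b
  rw [(chk_spec h).1] at h1
  exact h1

theorem inv_smul_word {l l' : List ℕ} (h : chk l l' = true) (a : ℕ) :
    (mkPerm l l' h)⁻¹ • support₂ (word a) = support₂ (word (pmL l a)) := by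
  rw [← support_comp, word_pmL]

theorem smul_eq_iff_inv {g : Equiv.Perm GolayPt} {β : Type*} [MulAction (Equiv.Perm GolayPt) β]
    (x : β) : g • x = x ↔ g⁻¹ • x = x := by
  constructor
  · intro h
    rw [inv_smul_eq_iff, h]
  · intro h
    rw [inv_smul_eq_iff] at h
    exact h.symm

theorem supp_lor (a b : ℕ) :
    support₂ (word (a ||| b)) = support₂ (word a) ∪ support₂ (word b) := by
  ext p
  rw [Finset.mem_union, mem_support_word, mem_support_word, mem_support_word, Nat.testBit_lor,
    Bool.or_eq_true]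

theorem supp_disjoint {a b : ℕ} (h : a &&& b = 0) :
    Disjoint (support₂ (word a)) (support₂ (word b)) := by
  rw [Finset.disjoint_left]
  intro p hp hq
  rw [mem_support_word] at hp hq
  have h1 : (a &&& b).testBit (code p) = true := by
    rw [Nat.testBit_land, hp, hq]
    rfl
  rw [h, Nat.zero_testBit] at h1
  exact Bool.false_ne_true h1

/-- Check that a mask is a word of the code of a given weight. -/
def wtB (n m : ℕ) : Bool :=
  and (and (Nat.beq (red basisP m) 0) (Nat.beq (pc m) n)) (Nat.blt m 16777216)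

theorem wtB_spec {n m : ℕ} (h : wtB n m = true) :
    support₂ (word m) ∈ wordsOfWeight (golayCode : Set (GolayPt → ZMod 2)) n ∧ m < 16777216 := by
  simp only [wtB, Bool.and_eq_true, Nat.beq_eq, Nat.blt_eq] at h
  refine ⟨⟨⟨word m, ?_, rfl⟩, ?_⟩, h.2⟩
  · rw [SetLike.mem_coe, golay_eq]
    apply red_sound basisP _ _ basisP_mem
    rw [h.1.1, word_zero]
    exact Submodule.zero_mem _
  · rw [card_support, hammingNorm_word]
    exact h.1.2

theorem red_all : allComb (fun a => and (Nat.beq (red basisP a) 0) (Nat.blt a 16777216)) basis 0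
    = true := by decide +kernel

theorem red_of_mem {m : ℕ} (hm : m < 16777216) (h : word m ∈ golayCode) : red basisP m = 0 := by
  obtain ⟨a, ha, e⟩ := exists_word h _ red_all
  simp only [Bool.and_eq_true, Nat.beq_eq, Nat.blt_eq] at ha
  have : m = a := word_inj hm ha.2 (by rw [e])
  rw [this]
  exact ha.1

theorem wtB_complete {n m : ℕ} (hm : m < 16777216)
    (h : support₂ (word m) ∈ wordsOfWeight (golayCode : Set (GolayPt → ZMod 2)) n) :
    wtB n m = true := by
  obtain ⟨⟨v, hv, e⟩, hc⟩ := h
  have hv' : v = word m := support_injective e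
  rw [hv'] at hv
  rw [card_support, hammingNorm_word] at hc
  simp only [wtB, Bool.and_eq_true, Nat.beq_eq, Nat.blt_eq]
  exact ⟨⟨red_of_mem hm hv, hc⟩, hm⟩

/-- Fixed words of a given weight. -/
theorem fixed_weight_count (n : ℕ) (L : List ℕ) (hL : L.all (wtB n) = true)
    (hinc : incFrom 0 L = true)
    (hlen : L.length = countComb (fun a => Nat.beq (pc a) n) basis 0)
    (l l' : List ℕ) (h : chk l l' = true) :
    {o | o ∈ wordsOfWeight (golayCode : Set (GolayPt → ZMod 2)) n ∧ mkPerm l l' h • o = o}.ncard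
      = (L.filter (fun a => Nat.beq (pmL l a) a)).length := by
  rw [List.all_eq_true] at hL
  apply enum_count _ (Set.toFinite _) L (fun a => support₂ (word a))
  · rw [ncard_weight, hlen]
  · exact (incFrom_spec L 0 hinc).2
  · intro c hc
    exact (wtB_spec (hL c hc)).1
  · intro c hc c' hc' e
    exact word_inj (wtB_spec (hL c hc)).2 (wtB_spec (hL c' hc')).2 e
  · intro c hc
    rw [smul_eq_iff_inv, inv_smul_word, Nat.beq_eq]
    constructor
    · intro e
      rw [e]
    · intro e
      exact word_inj (pmL_lt' h c) (wtB_spec (hL c hc)).2 e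

/-! ### Trios -/

theorem smul_trio {k : Equiv.Perm GolayPt} (hk : k ∈ M24) {T : Finset (Finset GolayPt)}
    (hT : T ∈ trios) : k • T ∈ trios := by
  obtain ⟨h3, hoct, hdis⟩ := hT
  refine ⟨?_, ?_, ?_⟩
  · rw [Finset.card_smul_finset]
    exact h3
  · intro o ho
    obtain ⟨o', ho', rfl⟩ := Finset.mem_smul_finset.1 ho
    exact smul_mem_weight hk (hoct o' ho')
  · intro o ho u hu hne
    obtain ⟨o', ho', rfl⟩ := Finset.mem_smul_finset.1 ho
    obtain ⟨u', hu', rfl⟩ := Finset.mem_smul_finset.1 hu
    have hne' : o' ≠ u' := fun e => hne (by rw [e])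
    have hd := hdis o' ho' u' hu' hne'
    rw [Finset.disjoint_left] at hd ⊢
    intro p hp hq
    rw [Finset.mem_smul_finset] at hp hq
    obtain ⟨p', hp', rfl⟩ := hp
    obtain ⟨q', hq', e⟩ := hq
    have : q' = p' := MulAction.injective k e
    rw [this] at hq'
    exact hd hp' hq'

/-- The set of three supports coded by a triple of masks. -/
def trioDec (c : ℕ × ℕ × ℕ) : Finset (Finset GolayPt) :=
  {support₂ (word c.1), support₂ (word c.2.1), support₂ (word c.2.2)}

/-- Check of a triple of masks: three pairwise disjoint octads in increasing order. -/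
def trioChk (c : ℕ × ℕ × ℕ) : Bool :=
  and (and (and (wtB 8 c.1) (wtB 8 c.2.1)) (and (wtB 8 c.2.2) (Nat.beq (Nat.land c.1 c.2.1) 0)))
    (and (and (Nat.beq (Nat.land c.1 c.2.2) 0) (Nat.beq (Nat.land c.2.1 c.2.2) 0))
      (and (Nat.blt c.1 c.2.1) (Nat.blt c.2.1 c.2.2)))

/-- The key of a triple. -/
def trioKey (c : ℕ × ℕ × ℕ) : ℕ := Nat.add (Nat.mul c.1 16777216) c.2.1

/-- Membership of a mask in a triple. -/
def mem3 (x : ℕ) (c : ℕ × ℕ × ℕ) : Bool :=
  or (Nat.beq x c.1) (or (Nat.beq x c.2.1) (Nat.beq x c.2.2))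

/-- Check that a triple is mapped to itself by the permutation with the given list. -/
def trioFix (l : List ℕ) (c : ℕ × ℕ × ℕ) : Bool :=
  and (mem3 (pmL l c.1) c) (and (mem3 (pmL l c.2.1) c) (mem3 (pmL l c.2.2) c))

theorem trioChk_spec {c : ℕ × ℕ × ℕ} (h : trioChk c = true) :
    (support₂ (word c.1) ∈ octads ∧ c.1 < 16777216) ∧
    (support₂ (word c.2.1) ∈ octads ∧ c.2.1 < 16777216) ∧
    (support₂ (word c.2.2) ∈ octads ∧ c.2.2 < 16777216) ∧
    Disjoint (support₂ (word c.1)) (support₂ (word c.2.1)) ∧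
    Disjoint (support₂ (word c.1)) (support₂ (word c.2.2)) ∧
    Disjoint (support₂ (word c.2.1)) (support₂ (word c.2.2)) ∧ c.1 < c.2.1 ∧ c.2.1 < c.2.2 := by
  simp only [trioChk, Bool.and_eq_true, Nat.beq_eq, Nat.blt_eq] at h
  obtain ⟨⟨⟨h1, h2⟩, h3, h4⟩, ⟨h5, h6⟩, h7, h8⟩ := h
  exact ⟨wtB_spec h1, wtB_spec h2, wtB_spec h3, supp_disjoint h4, supp_disjoint h5,
    supp_disjoint h6, h7, h8⟩

theorem supp_ne {a b : ℕ} (ha : a < 16777216) (hb : b < 16777216) (h : a ≠ b) :
    support₂ (word a) ≠ support₂ (word b) := fun e => h (word_inj ha hb e)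

theorem trioDec_card {c : ℕ × ℕ × ℕ} (h : trioChk c = true) : (trioDec c).card = 3 := by
  obtain ⟨h1, h2, h3, -, -, -, h7, h8⟩ := trioChk_spec h
  rw [Finset.card_eq_three]
  exact ⟨_, _, _, supp_ne h1.2 h2.2 (by omega), supp_ne h1.2 h3.2 (by omega),
    supp_ne h2.2 h3.2 (by omega), rfl⟩

theorem trioDec_mem {c : ℕ × ℕ × ℕ} (h : trioChk c = true) : trioDec c ∈ trios := by
  obtain ⟨h1, h2, h3, h4, h5, h6, h7, h8⟩ := trioChk_spec h
  refine ⟨trioDec_card h, ?_, ?_⟩
  · intro o ho
    simp only [trioDec, Finset.mem_insert, Finset.mem_singleton] at ho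
    rcases ho with rfl | rfl | rfl
    · exact h1.1
    · exact h2.1
    · exact h3.1
  · intro o ho u hu hne
    simp only [trioDec, Finset.mem_insert, Finset.mem_singleton] at ho hu
    rcases ho with rfl | rfl | rfl <;> rcases hu with rfl | rfl | rfl
    · exact absurd rfl hne
    · exact h4
    · exact h5
    · exact h4.symm
    · exact absurd rfl hne
    · exact h6
    · exact h5.symm
    · exact h6.symm
    · exact absurd rfl hne

theorem mem_trioDec {c : ℕ × ℕ × ℕ} (h : trioChk c = true) {x : ℕ} (hx : x < 16777216) :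
    support₂ (word x) ∈ trioDec c ↔ (x = c.1 ∨ x = c.2.1 ∨ x = c.2.2) := by
  obtain ⟨h1, h2, h3, -⟩ := trioChk_spec h
  simp only [trioDec, Finset.mem_insert, Finset.mem_singleton]
  constructor
  · rintro (e | e | e)
    · exact Or.inl (word_inj hx h1.2 e)
    · exact Or.inr (Or.inl (word_inj hx h2.2 e))
    · exact Or.inr (Or.inr (word_inj hx h3.2 e))
  · rintro (e | e | e)
    · exact Or.inl (by rw [e])
    · exact Or.inr (Or.inl (by rw [e]))
    · exact Or.inr (Or.inr (by rw [e]))

theorem trioDec_inj {c c' : ℕ × ℕ × ℕ} (h : trioChk c = true) (h' : trioChk c' = true)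
    (e : trioDec c = trioDec c') : c = c' := by
  obtain ⟨h1, h2, h3, -, -, -, h7, h8⟩ := trioChk_spec h
  obtain ⟨h1', h2', h3', -, -, -, h7', h8'⟩ := trioChk_spec h'
  have m1 : support₂ (word c.1) ∈ trioDec c' := by
    rw [← e]; exact (mem_trioDec h h1.2).2 (Or.inl rfl)
  have m2 : support₂ (word c.2.1) ∈ trioDec c' := by
    rw [← e]; exact (mem_trioDec h h2.2).2 (Or.inr (Or.inl rfl))
  have m3 : support₂ (word c.2.2) ∈ trioDec c' := by
    rw [← e]; exact (mem_trioDec h h3.2).2 (Or.inr (Or.inr rfl))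
  rw [mem_trioDec h' h1.2] at m1
  rw [mem_trioDec h' h2.2] at m2
  rw [mem_trioDec h' h3.2] at m3
  obtain ⟨a, b, d⟩ := c
  obtain ⟨a', b', d'⟩ := c'
  simp only at h7 h8 h7' h8' m1 m2 m3
  have ea : a = a' := by omega
  have eb : b = b' := by omega
  have ed : d = d' := by omega
  rw [ea, eb, ed]

theorem mem3_iff (x : ℕ) (c : ℕ × ℕ × ℕ) : mem3 x c = true ↔ (x = c.1 ∨ x = c.2.1 ∨ x = c.2.2) := by
  simp only [mem3, Bool.or_eq_true, Nat.beq_eq]

theorem trioFix_iff {l l' : List ℕ} (h : chk l l' = true) {c : ℕ × ℕ × ℕ}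
    (hc : trioChk c = true) : trioFix l c = true ↔ mkPerm l l' h • trioDec c = trioDec c := by
  rw [smul_eq_iff_inv]
  have hsm : (mkPerm l l' h)⁻¹ • trioDec c = {support₂ (word (pmL l c.1)),
      support₂ (word (pmL l c.2.1)), support₂ (word (pmL l c.2.2))} := by
    rw [trioDec, Finset.smul_finset_insert, Finset.smul_finset_insert,
      Finset.smul_finset_singleton, inv_smul_word, inv_smul_word, inv_smul_word]
  simp only [trioFix, Bool.and_eq_true, mem3_iff]
  rw [← mem_trioDec hc (pmL_lt' h _), ← mem_trioDec hc (pmL_lt' h _),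
    ← mem_trioDec hc (pmL_lt' h _)]
  constructor
  · rintro ⟨m1, m2, m3⟩
    apply Finset.eq_of_subset_of_card_le
    · rw [hsm]
      intro o ho
      simp only [Finset.mem_insert, Finset.mem_singleton] at ho
      rcases ho with rfl | rfl | rfl
      · exact m1
      · exact m2
      · exact m3
    · rw [Finset.card_smul_finset]
  · intro e
    rw [← e, hsm]
    simp only [Finset.mem_insert, Finset.mem_singleton, true_or, or_true, and_self]

/-- Fixed trios. -/
theorem fixed_trio_count (L : List (ℕ × ℕ × ℕ)) (hL : L.all trioChk = true)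
    (hinc : incFrom 0 (L.map trioKey) = true) (hlen : L.length = 3795)
    (l l' : List ℕ) (h : chk l l' = true) :
    {T | T ∈ trios ∧ mkPerm l l' h • T = T}.ncard = (L.filter (trioFix l)).length := by
  rw [List.all_eq_true] at hL
  apply enum_count _ (Set.toFinite _) L trioDec
  · rw [Cfsg.Agent.S1557.result.2, hlen]
  · exact List.Nodup.of_map _ (incFrom_spec _ 0 hinc).2
  · intro c hc
    exact trioDec_mem (hL c hc)
  · intro c hc c' hc' e
    exact trioDec_inj (hL c hc) (hL c' hc') e
  · intro c hc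
    exact trioFix_iff h (hL c hc)

/-! ### Sextets -/

theorem smul_sextet {k : Equiv.Perm GolayPt} (hk : k ∈ M24) {S : Finset (Finset GolayPt)}
    (hS : S ∈ sextets) : k • S ∈ sextets := by
  obtain ⟨h6, h4, hoct⟩ := hS
  refine ⟨?_, ?_, ?_⟩
  · rw [Finset.card_smul_finset]
    exact h6
  · intro t ht
    obtain ⟨t', ht', rfl⟩ := Finset.mem_smul_finset.1 ht
    rw [Finset.card_smul_finset]
    exact h4 t' ht'
  · intro t ht u hu hne
    obtain ⟨t', ht', rfl⟩ := Finset.mem_smul_finset.1 ht
    obtain ⟨u', hu', rfl⟩ := Finset.mem_smul_finset.1 hu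
    have hne' : t' ≠ u' := fun e => hne (by rw [e])
    rw [← Finset.smul_finset_union]
    exact smul_mem_weight hk (hoct t' ht' u' hu' hne')

/-- Check of a mask: a set of four points containing the first point. -/
def tetChk (t : ℕ) : Bool :=
  and (and (Nat.beq (pc t) 4) (Nat.testBit t 0)) (Nat.blt t 16777216)

/-- Check that the sextet of a tetrad is mapped to itself by the permutation with the given
list. -/
def sexFix (l : List ℕ) (t : ℕ) : Bool :=
  or (Nat.beq (pmL l t) t) (wtB 8 (Nat.lor (pmL l t) t))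

theorem supp_card (m : ℕ) : (support₂ (word m)).card = pc m := by
  rw [card_support, hammingNorm_word]

theorem tetChk_spec {t : ℕ} (h : tetChk t = true) :
    (support₂ (word t)).card = 4 ∧ pt 0 ∈ support₂ (word t) ∧ t < 16777216 := by
  simp only [tetChk, Bool.and_eq_true, Nat.beq_eq, Nat.blt_eq] at h
  refine ⟨by rw [supp_card]; exact h.1.1, ?_, h.2⟩
  rw [mem_support_word, code_pt 0 (by norm_num)]
  exact h.1.2

open Cfsg.Agent.S1550 in
theorem mem_sx_iff {t u : Finset GolayPt} (ht : t.card = 4) (hu : u.card = 4) :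
    u ∈ sx t ↔ (u = t ∨ t ∪ u ∈ octads) := by
  classical
  obtain ⟨h1, h2, h3⟩ := sx_spec t ht
  constructor
  · intro hmem
    by_cases e : u = t
    · exact Or.inl e
    · exact Or.inr (h1.2.2 t h2 u hmem (fun e' => e e'.symm))
  · rintro (e | ho)
    · rw [e]; exact h2
    · have hc := Finset.card_union_add_card_inter t u
      rw [ho.2, ht, hu] at hc
      have hdis : Disjoint t u := by
        rw [Finset.disjoint_iff_inter_eq_empty]
        apply Finset.card_eq_zero.mp
        omega
      unfold sx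
      apply Finset.mem_insert_of_mem
      refine Finset.mem_image.mpr ⟨t ∪ u, ?_, Finset.union_sdiff_cancel_left hdis⟩
      rw [Finset.mem_filter, Cfsg.Agent.Lib.Helper4.Steiner.mem_blocks]
      exact ⟨ho, Finset.subset_union_left⟩

open Cfsg.Agent.S1550 in
theorem sx_eq_iff {t u : Finset GolayPt} (ht : t.card = 4) (hu : u.card = 4) :
    sx u = sx t ↔ (u = t ∨ t ∪ u ∈ octads) := by
  rw [← mem_sx_iff ht hu]
  constructor
  · intro e
    rw [← e]
    exact (sx_spec u hu).2.1
  · intro hmem
    exact ((sx_spec u hu).2.2 (sx t) (sx_spec t ht).1 hmem).symm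

open Cfsg.Agent.S1550 in
theorem smul_sx {k : Equiv.Perm GolayPt} (hk : k ∈ M24) {t : Finset GolayPt} (ht : t.card = 4) :
    k • sx t = sx (k • t) := by
  have ht' : (k • t).card = 4 := by rw [Finset.card_smul_finset]; exact ht
  exact (sx_spec (k • t) ht').2.2 (k • sx t) (smul_sextet hk (sx_spec t ht).1)
    (Finset.smul_mem_smul_finset (sx_spec t ht).2.1)

open Cfsg.Agent.S1550 in
theorem sexFix_iff {l l' : List ℕ} (h : chk l l' = true) (hm : mkPerm l l' h ∈ M24) {t : ℕ}
    (ht : tetChk t = true) :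
    sexFix l t = true ↔ mkPerm l l' h • sx (support₂ (word t)) = sx (support₂ (word t)) := by
  obtain ⟨h4, -, hlt⟩ := tetChk_spec ht
  have hu4 : (support₂ (word (pmL l t))).card = 4 := by
    rw [← inv_smul_word h, Finset.card_smul_finset]
    exact h4
  rw [smul_eq_iff_inv, smul_sx (Subgroup.inv_mem _ hm) h4, inv_smul_word, sx_eq_iff h4 hu4]
  simp only [sexFix, Bool.or_eq_true, Nat.beq_eq]
  have hlor : pmL l t ||| t < 16777216 := by
    have h24 : (16777216 : ℕ) = 2 ^ 24 := by norm_num
    rw [h24]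
    apply Nat.or_lt_two_pow
    · rw [← h24]; exact pmL_lt' h t
    · rw [← h24]; exact hlt
  have hun : support₂ (word t) ∪ support₂ (word (pmL l t)) = support₂ (word (pmL l t ||| t)) := by
    rw [supp_lor, Finset.union_comm]
  constructor
  · rintro (e | e)
    · exact Or.inl (by rw [e])
    · right
      rw [hun]
      exact (wtB_spec e).1
  · rintro (e | e)
    · exact Or.inl (word_inj (pmL_lt' h t) hlt e)
    · right
      rw [hun] at e
      exact wtB_complete hlor e

open Cfsg.Agent.S1550 in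
/-- Fixed sextets. -/
theorem fixed_sextet_count (L : List ℕ) (hL : L.all tetChk = true)
    (hinc : incFrom 0 L = true) (hlen : L.length = 1771)
    (l l' : List ℕ) (h : chk l l' = true) (hm : mkPerm l l' h ∈ M24) :
    {S | S ∈ sextets ∧ mkPerm l l' h • S = S}.ncard = (L.filter (sexFix l)).length := by
  classical
  rw [List.all_eq_true] at hL
  apply enum_count _ (Set.toFinite _) L (fun t => sx (support₂ (word t)))
  · rw [Cfsg.Agent.S1550.result.2, hlen]
  · exact (incFrom_spec _ 0 hinc).2
  · intro c hc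
    exact (sx_spec _ (tetChk_spec (hL c hc)).1).1
  · intro c hc c' hc' e
    obtain ⟨h4, h0, hlt⟩ := tetChk_spec (hL c hc)
    obtain ⟨h4', h0', hlt'⟩ := tetChk_spec (hL c' hc')
    have e' : sx (support₂ (word c)) = sx (support₂ (word c')) := e
    rw [sx_eq_iff h4' h4] at e'
    rcases e' with e' | e'
    · exact word_inj hlt hlt' e'
    · exfalso
      have hc8 := e'.2
      have hcu := Finset.card_union_add_card_inter (support₂ (word c')) (support₂ (word c))
      rw [hc8, h4, h4'] at hcu
      have hpos : 0 < (support₂ (word c') ∩ support₂ (word c)).card :=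
        Finset.card_pos.2 ⟨pt 0, Finset.mem_inter.2 ⟨h0', h0⟩⟩
      omega
  · intro c hc
    exact sexFix_iff h hm (hL c hc)

/-! ### The lists -/

theorem octL_ok : octL.all (wtB 8) = true := by decide +kernel

theorem octL_inc : incFrom 0 octL = true := by decide +kernel

theorem octL_len : octL.length = countComb (fun a => Nat.beq (pc a) 8) basis 0 := by
  decide +kernel

theorem dodL_ok : dodL.all (wtB 12) = true := by decide +kernel

theorem dodL_inc : incFrom 0 dodL = true := by decide +kernel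

theorem dodL_len : dodL.length = countComb (fun a => Nat.beq (pc a) 12) basis 0 := by
  decide +kernel

theorem trioL_ok : trioL.all trioChk = true := by decide +kernel

theorem trioL_inc : incFrom 0 (trioL.map trioKey) = true := by decide +kernel

theorem trioL_len : trioL.length = 3795 := by decide +kernel

theorem tetL_ok : tetL.all tetChk = true := by decide +kernel

theorem tetL_inc : incFrom 0 tetL = true := by decide +kernel

theorem tetL_len : tetL.length = 1771 := by decide +kernel

/-- Fixed octads of an explicit permutation. -/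
theorem fixed_octads (l l' : List ℕ) (h : chk l l' = true) :
    {o | o ∈ octads ∧ mkPerm l l' h • o = o}.ncard
      = (octL.filter (fun a => Nat.beq (pmL l a) a)).length :=
  fixed_weight_count 8 octL octL_ok octL_inc octL_len l l' h

/-- Fixed dodecads of an explicit permutation. -/
theorem fixed_dodecads (l l' : List ℕ) (h : chk l l' = true) :
    {o | o ∈ dodecads ∧ mkPerm l l' h • o = o}.ncard
      = (dodL.filter (fun a => Nat.beq (pmL l a) a)).length :=
  fixed_weight_count 12 dodL dodL_ok dodL_inc dodL_len l l' h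

/-- Fixed trios of an explicit permutation. -/
theorem fixed_trios (l l' : List ℕ) (h : chk l l' = true) :
    {T | T ∈ trios ∧ mkPerm l l' h • T = T}.ncard = (trioL.filter (trioFix l)).length :=
  fixed_trio_count trioL trioL_ok trioL_inc trioL_len l l' h

/-- Fixed sextets of an explicit permutation of the code. -/
theorem fixed_sextets (l l' : List ℕ) (h : chk l l' = true) (hm : mkPerm l l' h ∈ M24) :
    {S | S ∈ sextets ∧ mkPerm l l' h • S = S}.ncard = (tetL.filter (sexFix l)).length :=
  fixed_sextet_count tetL tetL_ok tetL_inc tetL_len l l' h hm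

/-- Conjugation invariance of the four counts. -/
theorem fixed_octads_conj {k : Equiv.Perm GolayPt} (hk : k ∈ M24) (g : Equiv.Perm GolayPt) :
    {o | o ∈ octads ∧ (k * g * k⁻¹) • o = o}.ncard = {o | o ∈ octads ∧ g • o = o}.ncard :=
  ncard_fix_conj octads k g (fun _ hx => smul_mem_weight hk hx)
    (fun _ hx => smul_mem_weight (Subgroup.inv_mem _ hk) hx)

theorem fixed_dodecads_conj {k : Equiv.Perm GolayPt} (hk : k ∈ M24) (g : Equiv.Perm GolayPt) :
    {o | o ∈ dodecads ∧ (k * g * k⁻¹) • o = o}.ncard = {o | o ∈ dodecads ∧ g • o = o}.ncard :=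
  ncard_fix_conj dodecads k g (fun _ hx => smul_mem_weight hk hx)
    (fun _ hx => smul_mem_weight (Subgroup.inv_mem _ hk) hx)

theorem fixed_trios_conj {k : Equiv.Perm GolayPt} (hk : k ∈ M24) (g : Equiv.Perm GolayPt) :
    {T | T ∈ trios ∧ (k * g * k⁻¹) • T = T}.ncard = {T | T ∈ trios ∧ g • T = T}.ncard :=
  ncard_fix_conj trios k g (fun _ hx => smul_trio hk hx)
    (fun _ hx => smul_trio (Subgroup.inv_mem _ hk) hx)

theorem fixed_sextets_conj {k : Equiv.Perm GolayPt} (hk : k ∈ M24) (g : Equiv.Perm GolayPt) :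
    {S | S ∈ sextets ∧ (k * g * k⁻¹) • S = S}.ncard = {S | S ∈ sextets ∧ g • S = S}.ncard :=
  ncard_fix_conj sextets k g (fun _ hx => smul_sextet hk hx)
    (fun _ hx => smul_sextet (Subgroup.inv_mem _ hk) hx)

/-- Rewriting an element as a conjugate of a representative. -/
theorem eq_conj_of_conj {G : Type*} [Group G] {g k r : G} (h : k * g * k⁻¹ = r) :
    g = k⁻¹ * r * k⁻¹⁻¹ := by
  rw [← h]
  group

end Cfsg.Agent.Lib.Helper28
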