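import Cfsg.Agent.Lib.Helper28.M24Count
import Cfsg.Agent.Lib.Helper12.OctadOrb4

set_option autoImplicit false

namespace Cfsg.Agent.Lib.Helper28

open Cfsg Cfsg.Agent.Lib.Helper4.Golay
open Pointwise

/-- The orbit of `x` under the stabiliser of `o` in the group of the code. -/
def orbS {γ β : Type*} [MulAction (Equiv.Perm GolayPt) γ] [MulAction (Equiv.Perm GolayPt) β]
    (o : γ) (x : β) : Set β :=
  {y | ∃ g ∈ M24, g • o = o ∧ g • x = y}

theorem orb_eq {γ β : Type*} [MulAction (Equiv.Perm GolayPt) γ]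
    [MulAction (Equiv.Perm GolayPt) β] (o : γ) (x : β) :
    MulAction.orbit ↥(MulAction.stabilizer ↥M24 o) x = orbS o x := by
  ext y
  constructor
  · rintro ⟨g, rfl⟩
    exact ⟨g.1.1, g.1.2, g.2, rfl⟩
  · rintro ⟨g, hg, e1, rfl⟩
    exact ⟨⟨⟨g, hg⟩, e1⟩, rfl⟩

theorem orbS_smul {γ β : Type*} [MulAction (Equiv.Perm GolayPt) γ]
    [MulAction (Equiv.Perm GolayPt) β] {k : Equiv.Perm GolayPt} (hk : k ∈ M24) (o : γ) (x : β) :
    orbS (k • o) (k • x) = k • orbS o x := by
  ext y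
  constructor
  · rintro ⟨g, hg, e1, rfl⟩
    refine ⟨(k⁻¹ * g * k) • x, ⟨k⁻¹ * g * k,
      Subgroup.mul_mem _ (Subgroup.mul_mem _ (Subgroup.inv_mem _ hk) hg) hk, ?_, rfl⟩, ?_⟩
    · rw [mul_smul, mul_smul, e1, inv_smul_smul]
    · show k • (k⁻¹ * g * k) • x = g • k • x
      rw [mul_smul, mul_smul, smul_inv_smul]
  · rintro ⟨_, ⟨g, hg, e1, rfl⟩, rfl⟩
    refine ⟨k * g * k⁻¹, Subgroup.mul_mem _ (Subgroup.mul_mem _ hk hg) (Subgroup.inv_mem _ hk),
      ?_, ?_⟩
    · rw [mul_smul, mul_smul, inv_smul_smul, e1]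
    · show (k * g * k⁻¹) • k • x = k • g • x
      rw [mul_smul, mul_smul, inv_smul_smul]

theorem ncard_smul_set' {β : Type*} [MulAction (Equiv.Perm GolayPt) β] (k : Equiv.Perm GolayPt)
    (A : Set β) : (k • A).ncard = A.ncard := by
  rw [← Set.image_smul]
  exact Set.ncard_image_of_injective _ (MulAction.injective k)

theorem smul_set_self {β : Type*} [MulAction (Equiv.Perm GolayPt) β] (X : Set β)
    (hX : ∀ k ∈ M24, ∀ x ∈ X, k • x ∈ X) {k : Equiv.Perm GolayPt} (hk : k ∈ M24) : k • X = X := by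
  ext y
  constructor
  · rintro ⟨x, hx, rfl⟩
    exact hX k hk x hx
  · intro hy
    exact ⟨k⁻¹ • y, hX _ (Subgroup.inv_mem _ hk) y hy, smul_inv_smul k y⟩

/-- Three orbits of the stabiliser of `o` on `X`, of the given sizes. -/
def Orb3 {γ β : Type*} [MulAction (Equiv.Perm GolayPt) γ] [MulAction (Equiv.Perm GolayPt) β]
    (X : Set β) (o : γ) (n1 n2 n3 : ℕ) : Prop :=
  ∃ X₁ ∈ X, ∃ X₂ ∈ X, ∃ X₃ ∈ X, (orbS o X₁).ncard = n1 ∧ (orbS o X₂).ncard = n2 ∧
    (orbS o X₃).ncard = n3 ∧ X = orbS o X₁ ∪ orbS o X₂ ∪ orbS o X₃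

/-- Four orbits of the stabiliser of `o` on `X`, of the given sizes. -/
def Orb4 {γ β : Type*} [MulAction (Equiv.Perm GolayPt) γ] [MulAction (Equiv.Perm GolayPt) β]
    (X : Set β) (o : γ) (n1 n2 n3 n4 : ℕ) : Prop :=
  ∃ X₁ ∈ X, ∃ X₂ ∈ X, ∃ X₃ ∈ X, ∃ X₄ ∈ X, (orbS o X₁).ncard = n1 ∧ (orbS o X₂).ncard = n2 ∧
    (orbS o X₃).ncard = n3 ∧ (orbS o X₄).ncard = n4 ∧
    X = orbS o X₁ ∪ orbS o X₂ ∪ orbS o X₃ ∪ orbS o X₄

theorem Orb3.smul {γ β : Type*} [MulAction (Equiv.Perm GolayPt) γ]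
    [MulAction (Equiv.Perm GolayPt) β] {X : Set β} (hX : ∀ k ∈ M24, ∀ x ∈ X, k • x ∈ X) {o : γ}
    {n1 n2 n3 : ℕ} (h : Orb3 X o n1 n2 n3) {k : Equiv.Perm GolayPt} (hk : k ∈ M24) :
    Orb3 X (k • o) n1 n2 n3 := by
  obtain ⟨X₁, h1, X₂, h2, X₃, h3, c1, c2, c3, e⟩ := h
  refine ⟨k • X₁, hX k hk _ h1, k • X₂, hX k hk _ h2, k • X₃, hX k hk _ h3, ?_, ?_, ?_, ?_⟩
  · rw [orbS_smul hk, ncard_smul_set', c1]
  · rw [orbS_smul hk, ncard_smul_set', c2]
  · rw [orbS_smul hk, ncard_smul_set', c3]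
  · rw [orbS_smul hk, orbS_smul hk, orbS_smul hk, ← Set.smul_set_union, ← Set.smul_set_union, ← e,
      smul_set_self X hX hk]

theorem Orb4.smul {γ β : Type*} [MulAction (Equiv.Perm GolayPt) γ]
    [MulAction (Equiv.Perm GolayPt) β] {X : Set β} (hX : ∀ k ∈ M24, ∀ x ∈ X, k • x ∈ X) {o : γ}
    {n1 n2 n3 n4 : ℕ} (h : Orb4 X o n1 n2 n3 n4) {k : Equiv.Perm GolayPt} (hk : k ∈ M24) :
    Orb4 X (k • o) n1 n2 n3 n4 := by
  obtain ⟨X₁, h1, X₂, h2, X₃, h3, X₄, h4, c1, c2, c3, c4, e⟩ := h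
  refine ⟨k • X₁, hX k hk _ h1, k • X₂, hX k hk _ h2, k • X₃, hX k hk _ h3, k • X₄,
    hX k hk _ h4, ?_, ?_, ?_, ?_, ?_⟩
  · rw [orbS_smul hk, ncard_smul_set', c1]
  · rw [orbS_smul hk, ncard_smul_set', c2]
  · rw [orbS_smul hk, ncard_smul_set', c3]
  · rw [orbS_smul hk, ncard_smul_set', c4]
  · rw [orbS_smul hk, orbS_smul hk, orbS_smul hk, orbS_smul hk, ← Set.smul_set_union,
      ← Set.smul_set_union, ← Set.smul_set_union, ← e, smul_set_self X hX hk]

/-- The invariant: sum of the squares of the intersection sizes of the parts. -/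
def iotaF (A B : Finset (Finset GolayPt)) : ℕ := ∑ a ∈ A, ∑ b ∈ B, ((a ∩ b).card) ^ 2

theorem iotaF_smul (g : Equiv.Perm GolayPt) (A B : Finset (Finset GolayPt)) :
    iotaF (g • A) (g • B) = iotaF A B := by
  classical
  have hA : g • A = A.image (fun a => g • a) := rfl
  have hB : g • B = B.image (fun a => g • a) := rfl
  unfold iotaF
  rw [hA, Finset.sum_image (fun x _ y _ h => MulAction.injective g h)]
  apply Finset.sum_congr rfl
  intro a _
  rw [hB, Finset.sum_image (fun x _ y _ h => MulAction.injective g h)]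
  apply Finset.sum_congr rfl
  intro b _
  rw [← Finset.smul_finset_inter, Finset.card_smul_finset]

theorem iotaF_inv {γ β : Type*} [MulAction (Equiv.Perm GolayPt) γ]
    [MulAction (Equiv.Perm GolayPt) β] (pA : γ → Finset (Finset GolayPt))
    (pB : β → Finset (Finset GolayPt)) (o : γ)
    (hpA : ∀ g : Equiv.Perm GolayPt, pA (g • o) = g • pA o)
    (hpB : ∀ (g : Equiv.Perm GolayPt) (x : β), pB (g • x) = g • pB x) {x y : β}
    (hy : y ∈ orbS o x) : iotaF (pA o) (pB y) = iotaF (pA o) (pB x) := by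
  obtain ⟨g, -, e1, rfl⟩ := hy
  rw [hpB]
  nth_rewrite 1 [← e1]
  rw [hpA, iotaF_smul]

theorem orbS_sub {γ β : Type*} [MulAction (Equiv.Perm GolayPt) γ]
    [MulAction (Equiv.Perm GolayPt) β] {X : Set β} (hX : ∀ k ∈ M24, ∀ x ∈ X, k • x ∈ X) (o : γ)
    {x : β} (hx : x ∈ X) : orbS o x ⊆ X := by
  rintro y ⟨g, hg, -, rfl⟩
  exact hX g hg x hx

theorem orb3_of {γ β : Type*} [MulAction (Equiv.Perm GolayPt) γ]
    [MulAction (Equiv.Perm GolayPt) β] [Finite β] (X : Set β)
    (hX : ∀ k ∈ M24, ∀ x ∈ X, k • x ∈ X) (o : γ) (pA : γ → Finset (Finset GolayPt))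
    (pB : β → Finset (Finset GolayPt)) (hpA : ∀ g : Equiv.Perm GolayPt, pA (g • o) = g • pA o)
    (hpB : ∀ (g : Equiv.Perm GolayPt) (x : β), pB (g • x) = g • pB x) (X₁ X₂ X₃ : β)
    (h1 : X₁ ∈ X) (h2 : X₂ ∈ X) (h3 : X₃ ∈ X) (n1 n2 n3 : ℕ) (hn : X.ncard = n1 + n2 + n3)
    (l1 : n1 ≤ (orbS o X₁).ncard) (l2 : n2 ≤ (orbS o X₂).ncard) (l3 : n3 ≤ (orbS o X₃).ncard)
    (d12 : iotaF (pA o) (pB X₁) ≠ iotaF (pA o) (pB X₂))
    (d13 : iotaF (pA o) (pB X₁) ≠ iotaF (pA o) (pB X₃))
    (d23 : iotaF (pA o) (pB X₂) ≠ iotaF (pA o) (pB X₃)) : Orb3 X o n1 n2 n3 := by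
  have hdis : ∀ x y : β, iotaF (pA o) (pB x) ≠ iotaF (pA o) (pB y) →
      Disjoint (orbS o x) (orbS o y) := by
    intro x y hne
    rw [Set.disjoint_left]
    intro z hz1 hz2
    exact hne ((iotaF_inv pA pB o hpA hpB hz1).symm.trans (iotaF_inv pA pB o hpA hpB hz2))
  have s1 := orbS_sub hX o h1
  have s2 := orbS_sub hX o h2
  have s3 := orbS_sub hX o h3
  have hsub : orbS o X₁ ∪ orbS o X₂ ∪ orbS o X₃ ⊆ X := Set.union_subset (Set.union_subset s1 s2) s3
  have hd3 : Disjoint (orbS o X₁ ∪ orbS o X₂) (orbS o X₃) :=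
    Set.disjoint_union_left.2 ⟨hdis _ _ d13, hdis _ _ d23⟩
  have hc : (orbS o X₁ ∪ orbS o X₂ ∪ orbS o X₃).ncard
      = (orbS o X₁).ncard + (orbS o X₂).ncard + (orbS o X₃).ncard := by
    rw [Set.ncard_union_eq hd3 (Set.toFinite _) (Set.toFinite _),
      Set.ncard_union_eq (hdis _ _ d12) (Set.toFinite _) (Set.toFinite _)]
  have heq : orbS o X₁ ∪ orbS o X₂ ∪ orbS o X₃ = X :=
    Set.eq_of_subset_of_ncard_le hsub (by rw [hc, hn]; omega) (Set.toFinite _)
  have hc' := hc
  rw [heq, hn] at hc'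
  exact ⟨X₁, h1, X₂, h2, X₃, h3, by omega, by omega, by omega, heq.symm⟩

theorem orb4_of {γ β : Type*} [MulAction (Equiv.Perm GolayPt) γ]
    [MulAction (Equiv.Perm GolayPt) β] [Finite β] (X : Set β)
    (hX : ∀ k ∈ M24, ∀ x ∈ X, k • x ∈ X) (o : γ) (pA : γ → Finset (Finset GolayPt))
    (pB : β → Finset (Finset GolayPt)) (hpA : ∀ g : Equiv.Perm GolayPt, pA (g • o) = g • pA o)
    (hpB : ∀ (g : Equiv.Perm GolayPt) (x : β), pB (g • x) = g • pB x) (X₁ X₂ X₃ X₄ : β)
    (h1 : X₁ ∈ X) (h2 : X₂ ∈ X) (h3 : X₃ ∈ X) (h4 : X₄ ∈ X) (n1 n2 n3 n4 : ℕ)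
    (hn : X.ncard = n1 + n2 + n3 + n4)
    (l1 : n1 ≤ (orbS o X₁).ncard) (l2 : n2 ≤ (orbS o X₂).ncard) (l3 : n3 ≤ (orbS o X₃).ncard)
    (l4 : n4 ≤ (orbS o X₄).ncard)
    (d12 : iotaF (pA o) (pB X₁) ≠ iotaF (pA o) (pB X₂))
    (d13 : iotaF (pA o) (pB X₁) ≠ iotaF (pA o) (pB X₃))
    (d14 : iotaF (pA o) (pB X₁) ≠ iotaF (pA o) (pB X₄))
    (d23 : iotaF (pA o) (pB X₂) ≠ iotaF (pA o) (pB X₃))
    (d24 : iotaF (pA o) (pB X₂) ≠ iotaF (pA o) (pB X₄))
    (d34 : iotaF (pA o) (pB X₃) ≠ iotaF (pA o) (pB X₄)) : Orb4 X o n1 n2 n3 n4 := by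
  have hdis : ∀ x y : β, iotaF (pA o) (pB x) ≠ iotaF (pA o) (pB y) →
      Disjoint (orbS o x) (orbS o y) := by
    intro x y hne
    rw [Set.disjoint_left]
    intro z hz1 hz2
    exact hne ((iotaF_inv pA pB o hpA hpB hz1).symm.trans (iotaF_inv pA pB o hpA hpB hz2))
  have s1 := orbS_sub hX o h1
  have s2 := orbS_sub hX o h2
  have s3 := orbS_sub hX o h3
  have s4 := orbS_sub hX o h4
  have hsub : orbS o X₁ ∪ orbS o X₂ ∪ orbS o X₃ ∪ orbS o X₄ ⊆ X :=
    Set.union_subset (Set.union_subset (Set.union_subset s1 s2) s3) s4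
  have hd3 : Disjoint (orbS o X₁ ∪ orbS o X₂) (orbS o X₃) :=
    Set.disjoint_union_left.2 ⟨hdis _ _ d13, hdis _ _ d23⟩
  have hd4 : Disjoint (orbS o X₁ ∪ orbS o X₂ ∪ orbS o X₃) (orbS o X₄) :=
    Set.disjoint_union_left.2 ⟨Set.disjoint_union_left.2 ⟨hdis _ _ d14, hdis _ _ d24⟩,
      hdis _ _ d34⟩
  have hc : (orbS o X₁ ∪ orbS o X₂ ∪ orbS o X₃ ∪ orbS o X₄).ncard
      = (orbS o X₁).ncard + (orbS o X₂).ncard + (orbS o X₃).ncard + (orbS o X₄).ncard := by
    rw [Set.ncard_union_eq hd4 (Set.toFinite _) (Set.toFinite _),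
      Set.ncard_union_eq hd3 (Set.toFinite _) (Set.toFinite _),
      Set.ncard_union_eq (hdis _ _ d12) (Set.toFinite _) (Set.toFinite _)]
  have heq : orbS o X₁ ∪ orbS o X₂ ∪ orbS o X₃ ∪ orbS o X₄ = X :=
    Set.eq_of_subset_of_ncard_le hsub (by rw [hc, hn]; omega) (Set.toFinite _)
  have hc' := hc
  rw [heq, hn] at hc'
  exact ⟨X₁, h1, X₂, h2, X₃, h3, X₄, h4, by omega, by omega, by omega, by omega, heq.symm⟩

/-! ### Certificates -/

/-- Entry of a list of generators. -/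
def getG : List (List ℕ × List ℕ) → ℕ → Option (List ℕ × List ℕ)
  | [], _ => none
  | e :: _, 0 => some e
  | _ :: r, i + 1 => getG r i

theorem getG_mem : ∀ (gens : List (List ℕ × List ℕ)) (i : ℕ) (e : List ℕ × List ℕ),
    getG gens i = some e → e ∈ gens
  | [], _, _, h => by simp [getG] at h
  | e' :: _, 0, e, h => by
    simp only [getG, Option.some.injEq] at h
    rw [← h]
    exact List.mem_cons_self
  | _ :: r, i + 1, e, h => List.mem_cons_of_mem _ (getG_mem r i e h)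

/-- Application of a word in the generators to a code. -/
def applyW {κ : Type} (act : List ℕ → κ → κ) (gens : List (List ℕ × List ℕ)) : List ℕ → κ → κ
  | [], c => c
  | i :: w, c =>
    match getG gens i with
    | some e => applyW act gens w (act e.1 c)
    | none => applyW act gens w c

theorem applyW_spec {κ : Type} {β : Type*} [MulAction (Equiv.Perm GolayPt) β]
    (H : Subgroup (Equiv.Perm GolayPt)) (gens : List (List ℕ × List ℕ))
    (hgens : ∀ e ∈ gens, ∃ hc : chk e.1 e.2 = true, mkPerm e.1 e.2 hc ∈ H)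
    (act : List ℕ → κ → κ) (dec : κ → β) (V : κ → Prop)
    (hact : ∀ (l l' : List ℕ) (hc : chk l l' = true) (c : κ), V c → mkPerm l l' hc ∈ H →
      V (act l c) ∧ dec (act l c) = (mkPerm l l' hc)⁻¹ • dec c) :
    ∀ (w : List ℕ) (c : κ), V c →
      V (applyW act gens w c) ∧ ∃ g ∈ H, dec (applyW act gens w c) = g • dec c := by
  intro w
  induction w with
  | nil =>
    intro c hV
    exact ⟨hV, 1, Subgroup.one_mem _, (one_smul _ _).symm⟩
  | cons i w ih =>
    intro c hV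
    show V (match getG gens i with
      | some e => applyW act gens w (act e.1 c)
      | none => applyW act gens w c) ∧ ∃ g ∈ H, dec (match getG gens i with
      | some e => applyW act gens w (act e.1 c)
      | none => applyW act gens w c) = g • dec c
    cases hget : getG gens i with
    | none => exact ih c hV
    | some e =>
      obtain ⟨hc, hH⟩ := hgens e (getG_mem gens i e hget)
      obtain ⟨hV', e'⟩ := hact e.1 e.2 hc c hV hH
      obtain ⟨hV'', g, hg, e''⟩ := ih (act e.1 c) hV'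
      refine ⟨hV'', g * (mkPerm e.1 e.2 hc)⁻¹, Subgroup.mul_mem _ hg (Subgroup.inv_mem _ hH), ?_⟩
      show dec (applyW act gens w (act e.1 c)) = _
      rw [e'', e', mul_smul]

theorem mem_stabS {γ : Type*} [MulAction (Equiv.Perm GolayPt) γ] {o : γ} {g : Equiv.Perm GolayPt} :
    g ∈ M24 ⊓ MulAction.stabilizer (Equiv.Perm GolayPt) o ↔ g ∈ M24 ∧ g • o = o :=
  ⟨fun h => ⟨(Subgroup.mem_inf.1 h).1, MulAction.mem_stabilizer_iff.1 (Subgroup.mem_inf.1 h).2⟩,
    fun h => Subgroup.mem_inf.2 ⟨h.1, MulAction.mem_stabilizer_iff.2 h.2⟩⟩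

/-- Lower bound for an orbit of a stabiliser from a certificate. -/
theorem orb_lower {κ : Type} {γ β : Type*} [MulAction (Equiv.Perm GolayPt) γ]
    [MulAction (Equiv.Perm GolayPt) β] [Finite β] (o : γ) (gens : List (List ℕ × List ℕ))
    (hgens : ∀ e ∈ gens, ∃ hc : chk e.1 e.2 = true,
      mkPerm e.1 e.2 hc ∈ M24 ⊓ MulAction.stabilizer (Equiv.Perm GolayPt) o)
    (act : List ℕ → κ → κ) (dec : κ → β) (V : κ → Prop)
    (hact : ∀ (l l' : List ℕ) (hc : chk l l' = true) (c : κ), V c →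
      mkPerm l l' hc ∈ M24 ⊓ MulAction.stabilizer (Equiv.Perm GolayPt) o →
      V (act l c) ∧ dec (act l c) = (mkPerm l l' hc)⁻¹ • dec c)
    (valid : κ → Bool) (eqv : κ → κ → Bool)
    (heqv : ∀ u c, V u → valid c = true → eqv u c = true → dec u = dec c)
    (hinj : ∀ c c', valid c = true → valid c' = true → dec c = dec c' → c = c')
    (key : κ → ℕ) (c₀ : κ) (hV : V c₀) (cert : List (κ × List ℕ))
    (hcert : cert.all (fun p => and (valid p.1) (eqv (applyW act gens p.2 c₀) p.1)) = true)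
    (hinc : incFrom 0 (cert.map (fun p => key p.1)) = true) :
    cert.length ≤ (orbS o (dec c₀)).ncard := by
  classical
  rw [List.all_eq_true] at hcert
  have hnd : (cert.map Prod.fst).Nodup := by
    have h1 := (incFrom_spec _ 0 hinc).2
    have h2 : cert.map (fun p => key p.1) = (cert.map Prod.fst).map key := by
      rw [List.map_map]
      rfl
    rw [h2] at h1
    exact List.Nodup.of_map _ h1
  have hval : ∀ c ∈ cert.map Prod.fst, valid c = true := by
    intro c hc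
    obtain ⟨p, hp, rfl⟩ := List.mem_map.1 hc
    have := hcert p hp
    rw [Bool.and_eq_true] at this
    exact this.1
  have hsub : dec '' {c | c ∈ cert.map Prod.fst} ⊆ orbS o (dec c₀) := by
    rintro _ ⟨c, hc, rfl⟩
    obtain ⟨p, hp, rfl⟩ := List.mem_map.1 hc
    have h1 := hcert p hp
    rw [Bool.and_eq_true] at h1
    obtain ⟨hV', g, hg, e⟩ := applyW_spec _ gens hgens act dec V hact p.2 c₀ hV
    rw [mem_stabS] at hg
    refine ⟨g, hg.1, hg.2, ?_⟩
    rw [← e]
    exact heqv _ _ hV' h1.1 h1.2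
  have hinjOn : Set.InjOn dec {c | c ∈ cert.map Prod.fst} :=
    fun c hc c' hc' e => hinj c c' (hval c hc) (hval c' hc') e
  have hcard : (dec '' {c | c ∈ cert.map Prod.fst}).ncard = cert.length := by
    rw [Set.InjOn.ncard_image hinjOn, ← List.coe_toFinset, Set.ncard_coe_finset,
      List.toFinset_card_of_nodup hnd, List.length_map]
  rw [← hcard]
  exact Set.ncard_le_ncard hsub (Set.toFinite _)

/-! ### The three families of codes -/

/-- Action on triples of masks. -/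
def act3 (l : List ℕ) (c : ℕ × ℕ × ℕ) : ℕ × ℕ × ℕ := (pmL l c.1, pmL l c.2.1, pmL l c.2.2)

theorem trioDec_act {l l' : List ℕ} (h : chk l l' = true) (c : ℕ × ℕ × ℕ) :
    trioDec (act3 l c) = (mkPerm l l' h)⁻¹ • trioDec c := by
  rw [trioDec, trioDec, Finset.smul_finset_insert, Finset.smul_finset_insert,
    Finset.smul_finset_singleton, inv_smul_word, inv_smul_word, inv_smul_word]
  rfl

/-- Equality of the sets coded by two triples. -/
def eqv3 (u c : ℕ × ℕ × ℕ) : Bool := and (mem3 u.1 c) (and (mem3 u.2.1 c) (mem3 u.2.2 c))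

theorem eqv3_spec {u c : ℕ × ℕ × ℕ} (hu : (trioDec u).card = 3) (hc : trioChk c = true)
    (h : eqv3 u c = true) : trioDec u = trioDec c := by
  simp only [eqv3, Bool.and_eq_true, mem3_iff] at h
  obtain ⟨m1, m2, m3⟩ := h
  have hcc := trioDec_card hc
  apply Finset.eq_of_subset_of_card_le
  · intro x hx
    simp only [trioDec, Finset.mem_insert, Finset.mem_singleton] at hx ⊢
    rcases hx with rfl | rfl | rfl
    · rcases m1 with e | e | e <;> rw [e] <;> simp
    · rcases m2 with e | e | e <;> rw [e] <;> simp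
    · rcases m3 with e | e | e <;> rw [e] <;> simp
  · rw [hcc, hu]

/-- Equality of the sextets of two tetrads. -/
def eqvS (u c : ℕ) : Bool := or (Nat.beq u c) (wtB 8 (Nat.lor u c))

open Cfsg.Agent.S1550 in
theorem eqvS_spec {u c : ℕ} (hu : (support₂ (word u)).card = 4) (hc : tetChk c = true)
    (h : eqvS u c = true) : sx (support₂ (word u)) = sx (support₂ (word c)) := by
  obtain ⟨h4, -, -⟩ := tetChk_spec hc
  rw [sx_eq_iff h4 hu]
  simp only [eqvS, Bool.or_eq_true, Nat.beq_eq] at h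
  rcases h with e | e
  · exact Or.inl (by rw [e])
  · right
    have : support₂ (word c) ∪ support₂ (word u) = support₂ (word (u ||| c)) := by
      rw [supp_lor, Finset.union_comm]
    rw [this]
    exact (wtB_spec e).1

open Cfsg.Agent.S1550 in
theorem sexDec_inj {c c' : ℕ} (hc : tetChk c = true) (hc' : tetChk c' = true)
    (e : sx (support₂ (word c)) = sx (support₂ (word c'))) : c = c' := by
  obtain ⟨h4, h0, hlt⟩ := tetChk_spec hc
  obtain ⟨h4', h0', hlt'⟩ := tetChk_spec hc'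
  rw [sx_eq_iff h4' h4] at e
  rcases e with e' | e'
  · exact word_inj hlt hlt' e'
  · exfalso
    have hc8 := e'.2
    have hcu := Finset.card_union_add_card_inter (support₂ (word c')) (support₂ (word c))
    rw [hc8, h4, h4'] at hcu
    have hpos : 0 < (support₂ (word c') ∩ support₂ (word c)).card :=
      Finset.card_pos.2 ⟨pt 0, Finset.mem_inter.2 ⟨h0', h0⟩⟩
    omega

/-- Lower bound for an orbit on octads. -/
theorem lower_oct {γ : Type*} [MulAction (Equiv.Perm GolayPt) γ] (o : γ)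
    (gens : List (List ℕ × List ℕ))
    (hgens : ∀ e ∈ gens, ∃ hc : chk e.1 e.2 = true,
      mkPerm e.1 e.2 hc ∈ M24 ⊓ MulAction.stabilizer (Equiv.Perm GolayPt) o)
    (c₀ : ℕ) (cert : List (ℕ × List ℕ))
    (hcert : cert.all (fun p => and (wtB 8 p.1) (Nat.beq (applyW pmL gens p.2 c₀) p.1)) = true)
    (hinc : incFrom 0 (cert.map (fun p => p.1)) = true) :
    cert.length ≤ (orbS o (support₂ (word c₀))).ncard := by
  apply orb_lower o gens hgens pmL (fun a => support₂ (word a)) (fun _ => True) ?_ (wtB 8)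
    (fun u c => Nat.beq u c) ?_ ?_ (fun a => a) c₀ trivial cert hcert hinc
  · intro l l' hc c _ _
    exact ⟨trivial, (inv_smul_word hc c).symm⟩
  · intro u c _ _ h
    rw [Nat.beq_eq] at h
    rw [h]
  · intro c c' h h' e
    exact word_inj (wtB_spec h).2 (wtB_spec h').2 e

/-- Lower bound for an orbit on trios. -/
theorem lower_trio {γ : Type*} [MulAction (Equiv.Perm GolayPt) γ] (o : γ)
    (gens : List (List ℕ × List ℕ))
    (hgens : ∀ e ∈ gens, ∃ hc : chk e.1 e.2 = true,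
      mkPerm e.1 e.2 hc ∈ M24 ⊓ MulAction.stabilizer (Equiv.Perm GolayPt) o)
    (c₀ : ℕ × ℕ × ℕ) (h₀ : trioChk c₀ = true) (cert : List ((ℕ × ℕ × ℕ) × List ℕ))
    (hcert : cert.all (fun p => and (trioChk p.1) (eqv3 (applyW act3 gens p.2 c₀) p.1)) = true)
    (hinc : incFrom 0 (cert.map (fun p => trioKey p.1)) = true) :
    cert.length ≤ (orbS o (trioDec c₀)).ncard := by
  apply orb_lower o gens hgens act3 trioDec (fun c => (trioDec c).card = 3) ?_ trioChk
    eqv3 ?_ ?_ trioKey c₀ (trioDec_card h₀) cert hcert hinc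
  · intro l l' hc c hV _
    refine ⟨?_, trioDec_act hc c⟩
    rw [trioDec_act hc c, Finset.card_smul_finset]
    exact hV
  · intro u c hu hc h
    exact eqv3_spec hu hc h
  · intro c c' h h' e
    exact trioDec_inj h h' e

open Cfsg.Agent.S1550 in
/-- Lower bound for an orbit on sextets. -/
theorem lower_sext {γ : Type*} [MulAction (Equiv.Perm GolayPt) γ] (o : γ)
    (gens : List (List ℕ × List ℕ))
    (hgens : ∀ e ∈ gens, ∃ hc : chk e.1 e.2 = true,
      mkPerm e.1 e.2 hc ∈ M24 ⊓ MulAction.stabilizer (Equiv.Perm GolayPt) o)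
    (c₀ : ℕ) (h₀ : tetChk c₀ = true) (cert : List (ℕ × List ℕ))
    (hcert : cert.all (fun p => and (tetChk p.1) (eqvS (applyW pmL gens p.2 c₀) p.1)) = true)
    (hinc : incFrom 0 (cert.map (fun p => p.1)) = true) :
    cert.length ≤ (orbS o (sx (support₂ (word c₀)))).ncard := by
  apply orb_lower o gens hgens pmL (fun t => sx (support₂ (word t)))
    (fun t => (support₂ (word t)).card = 4) ?_ tetChk eqvS ?_ ?_ (fun a => a) c₀
    (tetChk_spec h₀).1 cert hcert hinc
  · intro l l' hc c hV hH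
    have h4 : (support₂ (word (pmL l c))).card = 4 := by
      rw [← inv_smul_word hc, Finset.card_smul_finset]
      exact hV
    refine ⟨h4, ?_⟩
    show sx (support₂ (word (pmL l c))) = (mkPerm l l' hc)⁻¹ • sx (support₂ (word c))
    rw [smul_sx (Subgroup.inv_mem _ (mem_stabS.1 hH).1) hV, inv_smul_word]
  · intro u c hu hc h
    exact eqvS_spec hu hc h
  · intro c c' h h' e
    exact sexDec_inj h h' e

/-! ### Explicit families and the evaluation of the invariant -/

/-- The family of supports of a list of masks. -/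
def finOf (L : List ℕ) : Finset (Finset GolayPt) :=
  (L.map (fun a => support₂ (word a))).toFinset

/-- Check that a list of masks is strictly increasing, with entries below `2 ^ 24`. -/
def distB (L : List ℕ) : Bool := and (incFrom 0 L) (L.all (fun a => Nat.blt a 16777216))

theorem distB_nodup {L : List ℕ} (h : distB L = true) :
    (L.map (fun a => support₂ (word a))).Nodup := by
  simp only [distB, Bool.and_eq_true, List.all_eq_true, Nat.blt_eq] at h
  apply List.Nodup.map_on _ (incFrom_spec L 0 h.1).2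
  intro a ha b hb e
  exact word_inj (h.2 a ha) (h.2 b hb) e

theorem supp_land' (a b : ℕ) :
    support₂ (word (a &&& b)) = support₂ (word a) ∩ support₂ (word b) := by
  ext p
  rw [Finset.mem_inter, mem_support_word, mem_support_word, mem_support_word, Nat.testBit_land,
    Bool.and_eq_true]

theorem inter_card' (a b : ℕ) :
    (support₂ (word a) ∩ support₂ (word b)).card = pc (a &&& b) := by
  rw [← supp_land', supp_card]

theorem iota_eval (LA LB : List ℕ) (hA : distB LA = true) (hB : distB LB = true) :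
    iotaF (finOf LA) (finOf LB)
      = (LA.map (fun a => (LB.map (fun b => (pc (a &&& b)) ^ 2)).sum)).sum := by
  unfold iotaF finOf
  rw [List.sum_toFinset _ (distB_nodup hA), List.map_map]
  congr 1
  apply List.map_congr_left
  intro a _
  show ∑ b ∈ (LB.map (fun a => support₂ (word a))).toFinset, ((support₂ (word a)) ∩ b).card ^ 2 = _
  rw [List.sum_toFinset _ (distB_nodup hB), List.map_map]
  congr 1
  apply List.map_congr_left
  intro b _
  show (support₂ (word a) ∩ support₂ (word b)).card ^ 2 = _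
  rw [inter_card']

theorem finOf_single (a : ℕ) : finOf [a] = {support₂ (word a)} := by
  simp [finOf]

theorem finOf_trio (c : ℕ × ℕ × ℕ) : finOf [c.1, c.2.1, c.2.2] = trioDec c := by
  simp [finOf, trioDec]

theorem mem_finOf {L : List ℕ} {x : Finset GolayPt} :
    x ∈ finOf L ↔ ∃ a ∈ L, support₂ (word a) = x := by
  simp [finOf]

/-- Check that a list of six masks is a sextet. -/
def sextB (L : List ℕ) : Bool :=
  and (and (Nat.beq L.length 6) (distB L))
    (and (L.all (fun a => Nat.beq (pc a) 4))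
      (L.all (fun a => L.all (fun b => or (Nat.beq a b) (wtB 8 (Nat.lor a b))))))

theorem finOf_sextet {L : List ℕ} (h : sextB L = true) : finOf L ∈ sextets := by
  simp only [sextB, Bool.and_eq_true, Nat.beq_eq, List.all_eq_true, Bool.or_eq_true] at h
  obtain ⟨⟨h6, hd⟩, h4, ho⟩ := h
  refine ⟨?_, ?_, ?_⟩
  · unfold finOf
    rw [List.toFinset_card_of_nodup (distB_nodup hd), List.length_map, h6]
  · intro t ht
    obtain ⟨a, ha, rfl⟩ := mem_finOf.1 ht
    rw [supp_card]
    exact h4 a ha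
  · intro t ht u hu hne
    obtain ⟨a, ha, rfl⟩ := mem_finOf.1 ht
    obtain ⟨b, hb, rfl⟩ := mem_finOf.1 hu
    rcases ho a ha b hb with e | e
    · exact absurd (by rw [e]) hne
    · rw [← supp_lor]
      exact (wtB_spec e).1

open Cfsg.Agent.S1550 in
theorem sx_eq_finOf {L : List ℕ} (h : sextB L = true) {t : ℕ} (ht : t ∈ L) :
    sx (support₂ (word t)) = finOf L := by
  have hS := finOf_sextet h
  have hmem : support₂ (word t) ∈ finOf L := mem_finOf.2 ⟨t, ht, rfl⟩
  exact ((sx_spec _ (hS.2.1 _ hmem)).2.2 _ hS hmem).symm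

theorem full_bit : ∀ p : GolayPt, (16777215 : ℕ).testBit (code p) = true := by decide

theorem supp_compl (d : ℕ) :
    Finset.univ \ support₂ (word d) = support₂ (word (16777215 ^^^ d)) := by
  ext p
  rw [Finset.mem_sdiff, mem_support_word, mem_support_word, Nat.testBit_xor, full_bit]
  cases d.testBit (code p) <;> simp

/-! ### Checks of generators of stabilisers -/

/-- Generators in the stabiliser of the support of a mask. -/
def gensB1 (m : ℕ) (gens : List (List ℕ × List ℕ)) : Bool :=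
  gens.all (fun e => and (and (chk e.1 e.2) (memChk e.1)) (Nat.beq (pmL e.1 m) m))

theorem gens1_spec {m : ℕ} {gens : List (List ℕ × List ℕ)} (h : gensB1 m gens = true) :
    ∀ e ∈ gens, ∃ hc : chk e.1 e.2 = true, mkPerm e.1 e.2 hc ∈
      M24 ⊓ MulAction.stabilizer (Equiv.Perm GolayPt) (support₂ (word m)) := by
  simp only [gensB1, List.all_eq_true, Bool.and_eq_true, Nat.beq_eq] at h
  intro e he
  obtain ⟨⟨hc, hm⟩, hs⟩ := h e he
  refine ⟨hc, mem_stabS.2 ⟨mkPerm_mem _ _ hc hm, ?_⟩⟩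
  rw [smul_eq_iff_inv, inv_smul_word, hs]

/-- Generators in the stabiliser of a trio. -/
def gensB3 (c : ℕ × ℕ × ℕ) (gens : List (List ℕ × List ℕ)) : Bool :=
  gens.all (fun e => and (and (chk e.1 e.2) (memChk e.1)) (trioFix e.1 c))

theorem gens3_spec {c : ℕ × ℕ × ℕ} (hc₀ : trioChk c = true) {gens : List (List ℕ × List ℕ)}
    (h : gensB3 c gens = true) :
    ∀ e ∈ gens, ∃ hc : chk e.1 e.2 = true, mkPerm e.1 e.2 hc ∈
      M24 ⊓ MulAction.stabilizer (Equiv.Perm GolayPt) (trioDec c) := by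
  simp only [gensB3, List.all_eq_true, Bool.and_eq_true] at h
  intro e he
  obtain ⟨⟨hc, hm⟩, hs⟩ := h e he
  exact ⟨hc, mem_stabS.2 ⟨mkPerm_mem _ _ hc hm, (trioFix_iff hc hc₀).1 hs⟩⟩

open Cfsg.Agent.S1550 in
/-- Generators in the stabiliser of a sextet. -/
def gensBS (t : ℕ) (gens : List (List ℕ × List ℕ)) : Bool :=
  gens.all (fun e => and (and (chk e.1 e.2) (memChk e.1)) (sexFix e.1 t))

open Cfsg.Agent.S1550 in
theorem gensS_spec {t : ℕ} (ht : tetChk t = true) {gens : List (List ℕ × List ℕ)}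
    (h : gensBS t gens = true) :
    ∀ e ∈ gens, ∃ hc : chk e.1 e.2 = true, mkPerm e.1 e.2 hc ∈
      M24 ⊓ MulAction.stabilizer (Equiv.Perm GolayPt) (sx (support₂ (word t))) := by
  simp only [gensBS, List.all_eq_true, Bool.and_eq_true] at h
  intro e he
  obtain ⟨⟨hc, hm⟩, hs⟩ := h e he
  exact ⟨hc, mem_stabS.2 ⟨mkPerm_mem _ _ hc hm,
    (sexFix_iff hc (mkPerm_mem _ _ hc hm) ht).1 hs⟩⟩

/-- Generators in the stabiliser of a complementary pair. -/
def gensBD (d : ℕ) (gens : List (List ℕ × List ℕ)) : Bool :=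
  gens.all (fun e => and (and (chk e.1 e.2) (memChk e.1))
    (or (Nat.beq (pmL e.1 d) d) (Nat.beq (pmL e.1 d) (Nat.xor 16777215 d))))

theorem gensD_spec {d : ℕ} {gens : List (List ℕ × List ℕ)} (h : gensBD d gens = true) :
    ∀ e ∈ gens, ∃ hc : chk e.1 e.2 = true, mkPerm e.1 e.2 hc ∈
      M24 ⊓ MulAction.stabilizer (Equiv.Perm GolayPt)
        ({support₂ (word d), Finset.univ \ support₂ (word d)} : Finset (Finset GolayPt)) := by
  simp only [gensBD, List.all_eq_true, Bool.and_eq_true, Bool.or_eq_true, Nat.beq_eq] at h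
  intro e he
  obtain ⟨⟨hc, hm⟩, hs⟩ := h e he
  refine ⟨hc, mem_stabS.2 ⟨mkPerm_mem _ _ hc hm, ?_⟩⟩
  rw [smul_eq_iff_inv, Finset.smul_finset_insert, Finset.smul_finset_singleton,
    Finset.smul_finset_sdiff, Finset.smul_finset_univ, inv_smul_word]
  rcases hs with e1 | e1
  · rw [e1]
  · have e2 : pmL e.1 d = 16777215 ^^^ d := e1
    have e3 : Finset.univ \ (Finset.univ \ support₂ (word d)) = support₂ (word d) := by
      ext p
      simp
    rw [e2, ← supp_compl, e3, Finset.pair_comm]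

/-! ### Transitivity -/

theorem octad_pair_trans (o o' : Finset GolayPt) (ho : o ∈ octads) (ho' : o' ∈ octads) (m m' : ℕ)
    (hm : support₂ (word m) ∈ octads) (hm' : support₂ (word m') ∈ octads)
    (h : (o ∩ o').card = (support₂ (word m) ∩ support₂ (word m')).card) :
    ∃ g ∈ M24, g • support₂ (word m) = o ∧ g • support₂ (word m') = o' := by
  obtain ⟨g, hg, e⟩ := octad_trans (support₂ (word m)) o hm ho
  have hp : g⁻¹ • o' ∈ octads := smul_mem_weight (Subgroup.inv_mem _ hg) ho'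
  have hc : (support₂ (word m) ∩ support₂ (word m')).card
      = (support₂ (word m) ∩ g⁻¹ • o').card := by
    rw [← h, ← e]
    have e3 : support₂ (word m) ∩ g⁻¹ • o' = g⁻¹ • (g • support₂ (word m) ∩ o') := by
      rw [Finset.smul_finset_inter, inv_smul_smul]
    rw [e3, Finset.card_smul_finset]
  obtain ⟨k, hk, e1, e2⟩ := Cfsg.Agent.Lib.Helper12.octad_orbits (support₂ (word m))
    (support₂ (word m')) (g⁻¹ • o') hm hm' hp hc
  refine ⟨g * k, Subgroup.mul_mem _ hg hk, ?_, ?_⟩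
  · rw [mul_smul, e1, e]
  · rw [mul_smul, e2, smul_inv_smul]

theorem trio_trans {T : Finset (Finset GolayPt)} (hT : T ∈ trios) {c : ℕ × ℕ × ℕ}
    (hc : trioChk c = true) : ∃ k ∈ M24, k • trioDec c = T := by
  obtain ⟨h1, h2, h3, h4, h5, h6, -, -⟩ := trioChk_spec hc
  obtain ⟨h3c, hoct, hdis⟩ := hT
  obtain ⟨x, y, z, hxy, hxz, hyz, rfl⟩ := Finset.card_eq_three.1 h3c
  have hx := hoct x (by simp)
  have hy := hoct y (by simp)
  have hz := hoct z (by simp)
  have dxy := hdis x (by simp) y (by simp) hxy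
  have dxz := hdis x (by simp) z (by simp) hxz
  have dyz := hdis y (by simp) z (by simp) hyz
  obtain ⟨g, hg, e1, e2⟩ := octad_pair_trans x y hx hy c.1 c.2.1 h1.1 h2.1 (by
    rw [Finset.disjoint_iff_inter_eq_empty.1 dxy, Finset.disjoint_iff_inter_eq_empty.1 h4])
  have e3 : g • support₂ (word c.2.2) = z := by
    have hz' := Cfsg.Agent.S1557.third_eq hx hy hz dxy dxz dyz
    have hc' := Cfsg.Agent.S1557.third_eq h1.1 h2.1 h3.1 h4 h5 h6
    have hc'' : (support₂ (word c.1) ∪ support₂ (word c.2.1))ᶜ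
        = Finset.univ \ (support₂ (word c.1) ∪ support₂ (word c.2.1)) :=
      Finset.compl_eq_univ_sdiff _
    rw [hz', hc', hc'', Finset.smul_finset_sdiff, Finset.smul_finset_univ,
      Finset.smul_finset_union, e1, e2, Finset.compl_eq_univ_sdiff]
  refine ⟨g, hg, ?_⟩
  rw [trioDec, Finset.smul_finset_insert, Finset.smul_finset_insert,
    Finset.smul_finset_singleton, e1, e2, e3]

open Cfsg.Agent.S1550 in
theorem sextet_trans {S : Finset (Finset GolayPt)} (hS : S ∈ sextets) {t : ℕ}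
    (ht : tetChk t = true) : ∃ k ∈ M24, k • sx (support₂ (word t)) = S := by
  classical
  obtain ⟨h4, -, -⟩ := tetChk_spec ht
  have hne : S.Nonempty := by
    rw [← Finset.card_pos, hS.1]
    norm_num
  obtain ⟨u, hu⟩ := hne
  have hu4 := hS.2.1 u hu
  obtain ⟨k, hk, e1, -⟩ := Cfsg.Agent.Lib.Helper12.pairs_trans (support₂ (word t)) ∅ u ∅
    (by rw [Finset.union_empty, h4]; norm_num) (by rw [h4, hu4]) rfl (by simp)
  refine ⟨k, hk, ?_⟩
  rw [smul_sx hk h4, e1]
  exact ((sx_spec u hu4).2.2 S hS hu).symm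

theorem three_trans {Y : Finset GolayPt} (hY : Y.card = 3) {y : ℕ} (hy : pc y = 3) :
    ∃ k ∈ M24, k • support₂ (word y) = Y := by
  classical
  have h3 : (support₂ (word y)).card = 3 := by rw [supp_card, hy]
  obtain ⟨k, hk, e1, -⟩ := Cfsg.Agent.Lib.Helper12.pairs_trans (support₂ (word y)) ∅ Y ∅
    (by rw [Finset.union_empty, h3]; norm_num) (by rw [h3, hY]) rfl (by simp)
  exact ⟨k, hk, e1⟩

/-! ### Parts -/

theorem single_smul (g : Equiv.Perm GolayPt) (x : Finset GolayPt) :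
    ({g • x} : Finset (Finset GolayPt)) = g • ({x} : Finset (Finset GolayPt)) := by
  rw [Finset.smul_finset_singleton]

theorem octads_inv : ∀ k ∈ M24, ∀ x ∈ octads, k • x ∈ octads :=
  fun _ hk _ hx => smul_mem_weight hk hx

theorem trios_inv : ∀ k ∈ M24, ∀ x ∈ trios, k • x ∈ trios :=
  fun _ hk _ hx => smul_trio hk hx

theorem sextets_inv : ∀ k ∈ M24, ∀ x ∈ sextets, k • x ∈ sextets :=
  fun _ hk _ hx => smul_sextet hk hx

/-- The value of the invariant on two lists of masks. -/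
def iotaL (LA LB : List ℕ) : ℕ :=
  (LA.map (fun a => (LB.map (fun b => (pc (a &&& b)) ^ 2)).sum)).sum

theorem iota_ne {LA LB LB' : List ℕ} (hA : distB LA = true) (hB : distB LB = true)
    (hB' : distB LB' = true) (h : Nat.beq (iotaL LA LB) (iotaL LA LB') = false) :
    iotaF (finOf LA) (finOf LB) ≠ iotaF (finOf LA) (finOf LB') := by
  rw [iota_eval _ _ hA hB, iota_eval _ _ hA hB']
  intro e
  have e' : iotaL LA LB = iotaL LA LB' := e
  rw [e', Nat.beq_refl] at h
  exact Bool.noConfusion h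

end Cfsg.Agent.Lib.Helper28
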