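import Cfsg.Agent.Lib.Helper28.M24Orb

set_option autoImplicit false

namespace Cfsg.Agent.Lib.Helper28

open Cfsg Cfsg.Agent.Lib.Helper4.Golay
open Pointwise

theorem pair_eq_finOf (d : ℕ) :
    ({support₂ (word d), Finset.univ \ support₂ (word d)} : Finset (Finset GolayPt))
      = finOf [d, 16777215 ^^^ d] := by
  rw [supp_compl]
  simp [finOf]

/-- Three orbits, with explicit base points. -/
theorem orb3_explicit {γ β : Type*} [MulAction (Equiv.Perm GolayPt) γ]
    [MulAction (Equiv.Perm GolayPt) β] [Finite β] (X : Set β)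
    (hX : ∀ k ∈ M24, ∀ x ∈ X, k • x ∈ X) (o : γ) (pA : γ → Finset (Finset GolayPt))
    (pB : β → Finset (Finset GolayPt)) (hpA : ∀ g : Equiv.Perm GolayPt, pA (g • o) = g • pA o)
    (hpB : ∀ (g : Equiv.Perm GolayPt) (x : β), pB (g • x) = g • pB x) (X₁ X₂ X₃ : β)
    (h1 : X₁ ∈ X) (h2 : X₂ ∈ X) (h3 : X₃ ∈ X) (n1 n2 n3 : ℕ) (hn : X.ncard = n1 + n2 + n3)
    (l1 : n1 ≤ (orbS o X₁).ncard) (l2 : n2 ≤ (orbS o X₂).ncard) (l3 : n3 ≤ (orbS o X₃).ncard)
    (d12 : iotaF (pA o) (pB X₁) ≠ iotaF (pA o) (pB X₂))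
    (d13 : iotaF (pA o) (pB X₁) ≠ iotaF (pA o) (pB X₃))
    (d23 : iotaF (pA o) (pB X₂) ≠ iotaF (pA o) (pB X₃)) :
    (orbS o X₁).ncard = n1 ∧ (orbS o X₂).ncard = n2 ∧ (orbS o X₃).ncard = n3 ∧
      X = orbS o X₁ ∪ orbS o X₂ ∪ orbS o X₃ := by
  have hdis : ∀ x y : β, iotaF (pA o) (pB x) ≠ iotaF (pA o) (pB y) →
      Disjoint (orbS o x) (orbS o y) := by
    intro x y hne
    rw [Set.disjoint_left]
    intro z hz1 hz2
    exact hne ((iotaF_inv pA pB o hpA hpB hz1).symm.trans (iotaF_inv pA pB o hpA hpB hz2))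
  have s1 := orbS_sub hX o h1
  have s2 := orbS_sub hX o h2
  have s3 := orbS_sub hX o h3
  have hsub : orbS o X₁ ∪ orbS o X₂ ∪ orbS o X₃ ⊆ X := Set.union_subset (Set.union_subset s1 s2) s3
  have hd3 : Disjoint (orbS o X₁ ∪ orbS o X₂) (orbS o X₃) :=
    Set.disjoint_union_left.2 ⟨hdis _ _ d13, hdis _ _ d23⟩
  have hc : (orbS o X₁ ∪ orbS o X₂ ∪ orbS o X₃).ncard
      = (orbS o X₁).ncard + (orbS o X₂).ncard + (orbS o X₃).ncard := by
    rw [Set.ncard_union_eq hd3 (Set.toFinite _) (Set.toFinite _),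
      Set.ncard_union_eq (hdis _ _ d12) (Set.toFinite _) (Set.toFinite _)]
  have heq : orbS o X₁ ∪ orbS o X₂ ∪ orbS o X₃ = X :=
    Set.eq_of_subset_of_ncard_le hsub (by rw [hc, hn]; omega) (Set.toFinite _)
  have hc' := hc
  rw [heq, hn] at hc'
  exact ⟨by omega, by omega, by omega, heq.symm⟩

/-- The number of members of a family that meet a given set. -/
def meetCount (Y : Finset GolayPt) (S : Finset (Finset GolayPt)) : ℕ :=
  (S.filter fun t => (t ∩ Y).Nonempty).card

theorem meetCount_smul (g : Equiv.Perm GolayPt) (Y : Finset GolayPt)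
    (S : Finset (Finset GolayPt)) : meetCount (g • Y) (g • S) = meetCount Y S := by
  classical
  have hS : g • S = S.image (fun a => g • a) := rfl
  unfold meetCount
  rw [hS, Finset.filter_image, Finset.card_image_of_injective _ (MulAction.injective g)]
  congr 1
  apply Finset.filter_congr
  intro t _
  rw [← Finset.smul_finset_inter, Finset.smul_finset_nonempty]

theorem meetCount_finOf {L : List ℕ} (hL : distB L = true) (y : ℕ) :
    meetCount (support₂ (word y)) (finOf L)
      = (L.filter (fun a => !(Nat.beq (pc (a &&& y)) 0))).length := by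
  classical
  unfold meetCount finOf
  have e1 : (L.map (fun a => support₂ (word a))).toFinset.filter
      (fun t => (t ∩ support₂ (word y)).Nonempty)
      = ((L.map (fun a => support₂ (word a))).filter
        (fun t => decide ((t ∩ support₂ (word y)).Nonempty))).toFinset := by
    rw [List.toFinset_filter]
    apply Finset.filter_congr
    intro t _
    simp
  rw [e1, List.toFinset_card_of_nodup ((distB_nodup hL).filter _), List.filter_map,
    List.length_map]
  congr 1
  apply List.filter_congr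
  intro a _
  have h1 : (support₂ (word a) ∩ support₂ (word y)).Nonempty ↔ pc (a &&& y) ≠ 0 := by
    rw [← Finset.card_pos, inter_card']
    omega
  by_cases h : pc (a &&& y) = 0
  · have h2 : ¬ (support₂ (word a) ∩ support₂ (word y)).Nonempty := fun hn => h1.1 hn h
    simp [h, h2]
  · have h2 : (support₂ (word a) ∩ support₂ (word y)).Nonempty := h1.2 h
    have h3 : Nat.beq (pc (a &&& y)) 0 = false := by
      cases hb : Nat.beq (pc (a &&& y)) 0
      · rfl
      · exact absurd (Nat.eq_of_beq_eq_true hb) h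
    simp [h3, h2]

end Cfsg.Agent.Lib.Helper28
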