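import Cfsg.Agent.Lib.Helper28.M24Orb2
import Cfsg.Agent.Lib.Helper12.OctadStab

set_option autoImplicit false

namespace Cfsg.Agent.Lib.Helper28

open Cfsg Cfsg.Agent.Lib.Helper4.Golay Cfsg.Agent.Lib.Helper12
open Pointwise

/-- The restriction of a subgroup of the code's group stabilising a set, to that set. -/
noncomputable def resTo {H : Subgroup ↥M24} {D : Finset GolayPt}
    (hle : H ≤ MulAction.stabilizer ↥M24 D) : ↥H →* Equiv.Perm ↥D :=
  (resHom D).comp (Subgroup.inclusion hle)

theorem resTo_apply {H : Subgroup ↥M24} {D : Finset GolayPt}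
    (hle : H ≤ MulAction.stabilizer ↥M24 D) (g : ↥H) (x : ↥D) :
    ((resTo hle g x : ↥D) : GolayPt) = (((g : ↥M24) : Equiv.Perm GolayPt)) x := rfl

theorem resTo_injective {H : Subgroup ↥M24} {D : Finset GolayPt}
    (hle : H ≤ MulAction.stabilizer ↥M24 D)
    (hinj : ∀ g ∈ H, (∀ p ∈ D, ((g : ↥M24) : Equiv.Perm GolayPt) p = p) → g = 1) :
    Function.Injective (resTo hle) := by
  rw [injective_iff_map_eq_one]
  intro g hg
  have h1 : ∀ p ∈ D, (((g : ↥M24) : Equiv.Perm GolayPt)) p = p := by
    intro p hp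
    have h2 := congrArg (fun e : Equiv.Perm ↥D => (e ⟨p, hp⟩ : GolayPt)) hg
    exact h2
  exact Subtype.ext (hinj g.1 g.2 h1)

/-- A subgroup of order 720 acting faithfully on an invariant set of six points is a symmetric
group of degree six. -/
theorem sym6_of_card {H : Subgroup ↥M24} {D : Finset GolayPt} (hD : D.card = 6)
    (hle : H ≤ MulAction.stabilizer ↥M24 D)
    (hinj : ∀ g ∈ H, (∀ p ∈ D, ((g : ↥M24) : Equiv.Perm GolayPt) p = p) → g = 1)
    (hcard : Nat.card H = 720) : Nonempty (↥H ≃* Equiv.Perm (Fin 6)) := by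
  classical
  have hi := resTo_injective hle hinj
  have hc : Nat.card (Equiv.Perm ↥D) = 720 := by
    rw [Nat.card_eq_fintype_card, Fintype.card_perm, Fintype.card_coe, hD]
    decide
  have hb : Function.Bijective (resTo hle) :=
    hi.bijective_of_nat_card_le (by rw [hc, hcard])
  exact ⟨(MulEquiv.ofBijective (resTo hle) hb).trans
    (Equiv.permCongrHom (D.equivFinOfCardEq hD))⟩

/-- A subgroup acting faithfully on an invariant set of six points and inducing every
permutation of it is a symmetric group of degree six. -/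
theorem sym6_of_surj {H : Subgroup ↥M24} {D : Finset GolayPt} (hD : D.card = 6)
    (hle : H ≤ MulAction.stabilizer ↥M24 D)
    (hinj : ∀ g ∈ H, (∀ p ∈ D, ((g : ↥M24) : Equiv.Perm GolayPt) p = p) → g = 1)
    (hsurj : ∀ σ : Equiv.Perm ↥D, ∃ g ∈ H, ∀ x : ↥D,
      ((g : ↥M24) : Equiv.Perm GolayPt) x = σ x) : Nonempty (↥H ≃* Equiv.Perm (Fin 6)) := by
  classical
  have hi := resTo_injective hle hinj
  have hs : Function.Surjective (resTo hle) := by
    intro σ
    obtain ⟨g, hg, e⟩ := hsurj σ
    refine ⟨⟨g, hg⟩, ?_⟩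
    apply Equiv.ext
    intro x
    apply Subtype.ext
    rw [resTo_apply]
    exact e x
  exact ⟨(MulEquiv.ofBijective (resTo hle) ⟨hi, hs⟩).trans
    (Equiv.permCongrHom (D.equivFinOfCardEq hD))⟩

end Cfsg.Agent.Lib.Helper28
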