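import Cfsg.Agent.Lib.Helper4.Stv9

set_option autoImplicit false
open Cfsg

namespace Cfsg.Agent.Lib.Helper28
namespace OctStab

open Cfsg.Agent.Lib.Helper4 Cfsg.Agent.Lib.Helper4.Golay Cfsg.Agent.Lib.Helper4.Stv
open scoped Pointwise

/-- Codes of the points of the standard octad. -/
def octL : List ℕ := [0, 1, 2, 3, 4, 7, 10, 12]

/-- Codes of the points outside the standard octad other than the base point. -/
def outL : List ℕ := [6, 8, 9, 11, 13, 14, 15, 16, 17, 18, 19, 20, 21, 22, 23]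

/-- Elements of the code group stabilising the standard octad and the point of code 5, moving
the point of code 6 to each other outside point. -/
def stTbl : List (ℕ × List ℕ × List ℕ) := [
  (6, [0, 1, 2, 3, 4, 5, 6, 7, 8, 9, 10, 11, 12, 13, 14, 15, 16, 17, 18, 19, 20, 21, 22, 23], [0, 1, 2, 3, 4, 5, 6, 7, 8, 9, 10, 11, 12, 13, 14, 15, 16, 17, 18, 19, 20, 21, 22, 23]),
  (8, [3, 10, 12, 7, 1, 5, 8, 4, 22, 14, 0, 20, 2, 15, 19, 23, 16, 18, 21, 13, 11, 17, 6, 9], [10, 4, 12, 0, 7, 5, 22, 3, 6, 23, 1, 20, 2, 19, 9, 13, 16, 21, 17, 14, 11, 18, 8, 15]),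
  (9, [4, 0, 3, 12, 10, 5, 9, 2, 6, 19, 1, 22, 7, 17, 18, 11, 15, 13, 14, 8, 20, 21, 16, 23], [1, 10, 7, 2, 0, 5, 8, 12, 19, 6, 4, 15, 3, 17, 18, 16, 22, 13, 14, 9, 20, 21, 11, 23]),
  (11, [2, 7, 12, 10, 3, 5, 11, 1, 9, 20, 0, 19, 4, 18, 16, 15, 14, 6, 17, 13, 8, 22, 23, 21], [10, 7, 0, 4, 12, 5, 17, 1, 20, 8, 3, 6, 2, 19, 16, 15, 14, 18, 13, 11, 9, 23, 21, 22]),
  (13, [10, 2, 0, 4, 12, 5, 13, 1, 17, 18, 7, 8, 3, 16, 23, 9, 22, 6, 20, 14, 21, 19, 15, 11], [2, 7, 1, 12, 3, 5, 17, 10, 11, 15, 0, 23, 4, 6, 19, 22, 13, 8, 9, 21, 18, 20, 16, 14]),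
  (14, [10, 1, 0, 12, 3, 5, 14, 2, 20, 15, 4, 8, 7, 9, 16, 6, 21, 23, 18, 11, 22, 13, 17, 19], [2, 1, 7, 4, 10, 5, 15, 12, 11, 13, 0, 19, 3, 21, 6, 9, 14, 22, 18, 23, 8, 16, 20, 17]),
  (15, [10, 12, 0, 1, 7, 5, 15, 3, 18, 8, 2, 17, 4, 21, 23, 9, 22, 16, 11, 13, 6, 20, 14, 19], [2, 3, 10, 7, 12, 5, 20, 4, 9, 15, 0, 18, 1, 19, 22, 6, 17, 11, 8, 23, 21, 13, 16, 14]),
  (16, [7, 1, 12, 10, 3, 5, 16, 2, 21, 11, 0, 14, 4, 13, 20, 9, 8, 22, 6, 23, 19, 17, 18, 15], [10, 1, 7, 4, 12, 5, 18, 0, 16, 15, 3, 9, 2, 13, 11, 23, 6, 21, 22, 20, 14, 8, 17, 19]),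
  (17, [10, 4, 0, 3, 2, 5, 17, 12, 22, 23, 7, 15, 1, 20, 14, 13, 21, 8, 6, 11, 9, 18, 16, 19], [2, 12, 4, 3, 1, 5, 18, 10, 17, 20, 0, 19, 7, 15, 14, 11, 22, 6, 21, 23, 13, 16, 8, 9]),
  (18, [2, 4, 0, 12, 7, 5, 18, 10, 20, 21, 3, 6, 1, 19, 17, 9, 11, 16, 14, 13, 23, 15, 22, 8], [2, 12, 0, 10, 1, 5, 11, 4, 23, 15, 7, 16, 3, 19, 18, 21, 17, 14, 6, 13, 8, 9, 22, 20]),
  (19, [3, 4, 0, 2, 7, 5, 19, 12, 21, 17, 1, 13, 10, 14, 15, 8, 23, 20, 11, 9, 18, 16, 6, 22], [2, 10, 3, 0, 1, 5, 22, 4, 15, 19, 12, 18, 7, 11, 13, 14, 21, 9, 20, 6, 17, 8, 23, 16]),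
  (20, [3, 0, 12, 10, 7, 5, 20, 4, 11, 15, 2, 13, 1, 8, 22, 9, 23, 6, 16, 14, 18, 21, 19, 17], [1, 12, 10, 0, 7, 5, 17, 4, 13, 15, 3, 8, 2, 11, 19, 9, 18, 23, 20, 22, 6, 21, 14, 16]),
  (21, [0, 12, 7, 4, 10, 5, 21, 2, 14, 11, 3, 23, 1, 17, 19, 18, 9, 6, 13, 8, 22, 15, 16, 20], [0, 12, 7, 10, 3, 5, 17, 2, 19, 16, 4, 9, 1, 18, 8, 21, 22, 13, 15, 14, 23, 6, 20, 11]),
  (22, [7, 12, 10, 4, 3, 5, 22, 0, 16, 9, 2, 11, 1, 20, 23, 15, 8, 17, 18, 19, 13, 21, 6, 14], [7, 12, 10, 4, 3, 5, 22, 0, 16, 9, 2, 11, 1, 20, 23, 15, 8, 17, 18, 19, 13, 21, 6, 14]),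
  (23, [12, 10, 3, 7, 4, 5, 23, 1, 6, 16, 0, 13, 2, 15, 19, 8, 14, 9, 11, 20, 21, 17, 22, 18], [10, 7, 12, 2, 4, 5, 8, 3, 15, 17, 1, 18, 0, 11, 16, 13, 9, 21, 23, 14, 19, 20, 22, 6])]

def stChk (e : ℕ × List ℕ × List ℕ) : Bool :=
  and (and (chk e.2.1 e.2.2) (memChk e.2.1))
    (and (and (Nat.beq (nth e.2.1 6) e.1) (Nat.beq (nth e.2.1 5) 5))
      (octL.all (fun f => octL.any (fun t => Nat.beq t (nth e.2.1 f)))))

theorem stTbl_ok : (stTbl.all stChk && outL.all (fun j => stTbl.any (fun e => Nat.beq e.1 j)))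
    = true := by decide +kernel

theorem st_spec : ∀ j ∈ outL, ∃ g ∈ M24, (∀ p ∈ O0s, g p ∈ O0s) ∧ g (pt 5) = pt 5 ∧
    g (pt 6) = pt j := by
  have h := stTbl_ok
  simp only [Bool.and_eq_true, List.all_eq_true, List.any_eq_true, Nat.beq_eq] at h
  intro j hj
  obtain ⟨e, he, rfl⟩ := h.2 j hj
  have h1 := h.1 e he
  simp only [stChk, Bool.and_eq_true, List.all_eq_true, List.any_eq_true, Nat.beq_eq] at h1
  refine ⟨mkPerm e.2.1 e.2.2 h1.1.1, mkPerm_mem _ _ _ h1.1.2, ?_, ?_, ?_⟩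
  · intro p hp
    rw [mem_O0s] at hp ⊢
    obtain ⟨t, ht, e'⟩ := h1.2.2 (code p) hp
    rw [mkPerm_apply, code_pt _ ((chk_spec h1.1.1).2 (code p) (code_lt p)).1, ← e']
    exact ht
  · rw [mkPerm_pt _ _ _ 5 (by norm_num), h1.2.1.2]
  · rw [mkPerm_pt _ _ _ 6 (by norm_num), h1.2.1.1]

theorem smul_eq_of_maps {g : Equiv.Perm GolayPt} {o : Finset GolayPt}
    (h : ∀ p ∈ o, g p ∈ o) : g • o = o := by
  apply Finset.eq_of_subset_of_card_le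
  · intro x hx
    obtain ⟨y, hy, rfl⟩ := Finset.mem_smul_finset.1 hx
    exact h y hy
  · rw [Finset.card_smul_finset]

theorem not_mem_smul {g : Equiv.Perm GolayPt} {o : Finset GolayPt} {x : GolayPt} (hx : x ∉ o) :
    g x ∉ g • o := by
  intro h
  apply hx
  rw [← Equiv.Perm.smul_def, Finset.smul_mem_smul_finset_iff] at h
  exact h

theorem out_codes : ∀ p : GolayPt, p ∉ O0s → p ≠ pt 5 → code p ∈ outL := by
  intro p hp
  rw [mem_O0s] at hp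
  revert p
  decide

theorem pt5_out : pt 5 ∉ O0s := by
  rw [mem_O0s]
  decide

/-- The stabiliser of an octad and of a point outside it is transitive on the remaining fifteen
points outside the octad. -/
theorem oct_pt_trans (o : Finset GolayPt) (ho : o ∈ octads) (p q q' : GolayPt) (hp : p ∉ o)
    (hq : q ∉ o) (hq' : q' ∉ o) (hqp : q ≠ p) (hqp' : q' ≠ p) :
    ∃ g ∈ M24, g • o = o ∧ g p = p ∧ g q = q' := by
  obtain ⟨k1, hk1, e1⟩ := octad_trans o O0s ho O0s_octad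
  have h1 : k1 p ∉ O0s := by
    rw [← e1]
    exact not_mem_smul hp
  obtain ⟨r, hr, rfix, rq⟩ := oct_fix_trans O0s O0s_octad (k1 p) (pt 5) h1 pt5_out
  have hrO : r • O0s = O0s := smul_eq_of_maps (fun x hx => by rw [rfix x hx]; exact hx)
  obtain ⟨k, hk⟩ : ∃ k : Equiv.Perm GolayPt, k = r * k1 := ⟨_, rfl⟩
  have hkM : k ∈ M24 := by
    rw [hk]
    exact M24.mul_mem hr hk1
  have hko : k • o = O0s := by
    rw [hk, mul_smul, e1, hrO]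
  have hkp : k p = pt 5 := by
    rw [hk, Equiv.Perm.mul_apply, rq]
  have hout : ∀ x : GolayPt, x ∉ o → x ≠ p → ∃ g ∈ M24, g • O0s = O0s ∧ g (pt 5) = pt 5 ∧
      g (pt 6) = k x := by
    intro x hx hxp
    have hx1 : k x ∉ O0s := by
      rw [← hko]
      exact not_mem_smul hx
    have hx2 : k x ≠ pt 5 := by
      rw [← hkp]
      exact fun h => hxp (k.injective h)
    obtain ⟨g, hg, g1, g2, g3⟩ := st_spec _ (out_codes _ hx1 hx2)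
    exact ⟨g, hg, smul_eq_of_maps g1, g2, by rw [g3, pt_code]⟩
  obtain ⟨gi, hgi, gi1, gi2, gi3⟩ := hout q hq hqp
  obtain ⟨gj, hgj, gj1, gj2, gj3⟩ := hout q' hq' hqp'
  refine ⟨k⁻¹ * gj * gi⁻¹ * k, M24.mul_mem (M24.mul_mem (M24.mul_mem (M24.inv_mem hkM) hgj)
    (M24.inv_mem hgi)) hkM, ?_, ?_, ?_⟩
  · have hgi' : gi⁻¹ • O0s = O0s := by
      rw [inv_smul_eq_iff, gi1]
    have hk' : k⁻¹ • O0s = o := by
      rw [inv_smul_eq_iff, hko]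
    rw [mul_smul, mul_smul, mul_smul, hko, hgi', gj1, hk']
  · have e : gi⁻¹ (pt 5) = pt 5 := by
      rw [Equiv.Perm.inv_eq_iff_eq, gi2]
    rw [Equiv.Perm.mul_apply, Equiv.Perm.mul_apply, Equiv.Perm.mul_apply, hkp, e, gj2,
      Equiv.Perm.inv_eq_iff_eq, hkp]
  · have e : gi⁻¹ (k q) = pt 6 := by
      rw [Equiv.Perm.inv_eq_iff_eq, gi3]
    rw [Equiv.Perm.mul_apply, Equiv.Perm.mul_apply, Equiv.Perm.mul_apply, e, gj3,
      Equiv.Perm.inv_eq_iff_eq]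

/-- Octads avoiding two given points are permuted transitively by the stabiliser of the two
points. -/
theorem octad_notpq (o o' : Finset GolayPt) (ho : o ∈ octads) (ho' : o' ∈ octads)
    (p q : GolayPt) (hpq : p ≠ q) (hp : p ∉ o) (hq : q ∉ o) (hp' : p ∉ o') (hq' : q ∉ o') :
    ∃ g ∈ M24, g p = p ∧ g q = q ∧ g • o = o' := by
  obtain ⟨g1, hg1, e1⟩ := octad_trans o o' ho ho'
  have h1 : g1 p ∉ o' := by
    rw [← e1]
    exact not_mem_smul hp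
  obtain ⟨r, hr, rfix, rp⟩ := oct_fix_trans o' ho' (g1 p) p h1 hp'
  have hro : r • o' = o' := smul_eq_of_maps (fun x hx => by rw [rfix x hx]; exact hx)
  obtain ⟨h, hh⟩ : ∃ h : Equiv.Perm GolayPt, h = r * g1 := ⟨_, rfl⟩
  have hhM : h ∈ M24 := by
    rw [hh]
    exact M24.mul_mem hr hg1
  have hho : h • o = o' := by
    rw [hh, mul_smul, e1, hro]
  have hhp : h p = p := by
    rw [hh, Equiv.Perm.mul_apply, rp]
  have hq1 : h q ∉ o' := by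
    rw [← hho]
    exact not_mem_smul hq
  have hq2 : h q ≠ p := by
    intro e
    rw [← hhp] at e
    exact hpq (h.injective e).symm
  obtain ⟨g3, hg3, e3, g3p, g3q⟩ := oct_pt_trans o' ho' p (h q) q hp' hq1 hq' hq2 (Ne.symm hpq)
  refine ⟨g3 * h, M24.mul_mem hg3 hhM, ?_, ?_, ?_⟩
  · rw [Equiv.Perm.mul_apply, hhp, g3p]
  · rw [Equiv.Perm.mul_apply, g3q]
  · rw [mul_smul, hho, e3]

end OctStab
end Cfsg.Agent.Lib.Helper28
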