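import Cfsg.Agent.Lib.Helper28.OctStab

set_option autoImplicit false
open Cfsg

namespace Cfsg.Agent.Lib.Helper28
namespace OctStab2

open Cfsg.Agent.Lib.Helper4 Cfsg.Agent.Lib.Helper4.Golay Cfsg.Agent.Lib.Helper4.Stv
open Cfsg.Agent.Lib.Helper28.OctStab
open scoped Pointwise

/-- Elements of the code group stabilising the standard octad, the point of code 5 outside it
and the point of code 0 inside it, moving the point of code 6 to each other outside point. -/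
def stTbl2 : List (ℕ × List ℕ × List ℕ) := [
  (6, [0, 1, 2, 3, 4, 5, 6, 7, 8, 9, 10, 11, 12, 13, 14, 15, 16, 17, 18, 19, 20, 21, 22, 23], [0, 1, 2, 3, 4, 5, 6, 7, 8, 9, 10, 11, 12, 13, 14, 15, 16, 17, 18, 19, 20, 21, 22, 23]),
  (8, [0, 2, 7, 4, 12, 5, 8, 1, 15, 22, 10, 11, 3, 18, 21, 6, 16, 14, 23, 9, 20, 17, 19, 13], [0, 7, 1, 12, 3, 5, 15, 2, 6, 19, 10, 11, 4, 23, 17, 8, 16, 21, 13, 22, 20, 14, 9, 18]),
  (9, [0, 10, 7, 3, 2, 5, 9, 4, 11, 15, 12, 22, 1, 14, 21, 6, 16, 20, 17, 19, 18, 13, 8, 23], [0, 12, 4, 3, 7, 5, 15, 2, 22, 6, 1, 8, 10, 21, 13, 9, 16, 18, 20, 19, 17, 14, 11, 23]),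
  (11, [0, 12, 3, 4, 1, 5, 11, 7, 17, 8, 10, 15, 2, 19, 13, 21, 14, 23, 9, 20, 16, 22, 6, 18], [0, 4, 12, 2, 3, 5, 22, 7, 9, 18, 10, 6, 1, 14, 16, 11, 20, 8, 23, 13, 19, 15, 21, 17]),
  (13, [0, 3, 10, 12, 4, 5, 13, 7, 11, 19, 1, 20, 2, 16, 22, 9, 23, 6, 8, 14, 21, 18, 15, 17], [0, 10, 12, 1, 4, 5, 17, 7, 18, 15, 2, 8, 3, 6, 19, 22, 13, 23, 21, 9, 11, 20, 14, 16]),
  (14, [0, 4, 7, 10, 3, 5, 14, 1, 6, 11, 12, 15, 2, 13, 22, 21, 8, 18, 9, 17, 23, 19, 20, 16], [0, 7, 12, 4, 1, 5, 8, 2, 16, 18, 3, 9, 10, 13, 6, 11, 23, 19, 17, 21, 22, 15, 14, 20]),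
  (15, [0, 12, 3, 1, 2, 5, 15, 10, 18, 21, 4, 22, 7, 16, 9, 14, 6, 8, 11, 19, 17, 13, 23, 20], [0, 3, 4, 2, 10, 5, 16, 12, 17, 14, 7, 18, 1, 21, 15, 6, 13, 20, 8, 19, 23, 9, 11, 22]),
  (16, [0, 2, 12, 10, 3, 5, 16, 1, 23, 11, 7, 15, 4, 8, 20, 17, 13, 18, 19, 21, 6, 9, 22, 14], [0, 7, 1, 4, 12, 5, 20, 10, 13, 21, 3, 9, 2, 16, 23, 11, 6, 15, 17, 18, 14, 19, 22, 8]),
  (17, [0, 2, 3, 12, 4, 5, 17, 10, 6, 15, 7, 9, 1, 14, 19, 23, 16, 21, 22, 20, 13, 8, 18, 11], [0, 12, 1, 2, 4, 5, 8, 10, 21, 11, 7, 23, 3, 20, 13, 9, 16, 6, 22, 14, 19, 17, 18, 15]),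
  (18, [0, 12, 2, 3, 4, 5, 18, 7, 6, 17, 1, 9, 10, 14, 21, 20, 23, 11, 8, 16, 22, 13, 15, 19], [0, 10, 2, 3, 4, 5, 8, 7, 18, 11, 12, 17, 1, 21, 13, 22, 19, 9, 6, 23, 15, 14, 20, 16]),
  (19, [0, 7, 2, 4, 12, 5, 19, 1, 18, 22, 3, 11, 10, 15, 13, 17, 20, 14, 9, 23, 16, 6, 8, 21], [0, 7, 2, 10, 3, 5, 21, 1, 22, 18, 12, 11, 4, 14, 17, 13, 20, 15, 8, 6, 16, 23, 9, 19]),
  (20, [0, 10, 3, 12, 2, 5, 20, 1, 8, 13, 4, 15, 7, 23, 17, 21, 18, 6, 9, 16, 11, 14, 19, 22], [0, 7, 4, 2, 10, 5, 17, 12, 8, 18, 1, 20, 3, 9, 21, 11, 19, 14, 16, 22, 6, 15, 23, 13]),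
  (21, [0, 12, 1, 4, 10, 5, 21, 3, 6, 19, 2, 8, 7, 18, 11, 17, 9, 14, 16, 23, 20, 15, 13, 22], [0, 2, 10, 7, 3, 5, 8, 12, 11, 16, 4, 14, 1, 22, 17, 21, 18, 15, 13, 9, 20, 6, 23, 19]),
  (22, [0, 3, 4, 1, 7, 5, 22, 12, 14, 17, 10, 18, 2, 20, 6, 15, 13, 21, 11, 9, 23, 19, 8, 16], [0, 3, 12, 1, 2, 5, 14, 4, 22, 19, 10, 18, 7, 16, 8, 15, 23, 9, 11, 21, 13, 17, 6, 20]),
  (23, [0, 4, 1, 12, 3, 5, 23, 10, 19, 6, 2, 17, 7, 15, 11, 8, 13, 22, 16, 21, 20, 18, 9, 14], [0, 2, 10, 4, 1, 5, 9, 12, 15, 22, 7, 14, 3, 16, 23, 13, 18, 11, 21, 8, 20, 19, 17, 6])]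

def stChk2 (e : ℕ × List ℕ × List ℕ) : Bool :=
  and (and (chk e.2.1 e.2.2) (memChk e.2.1))
    (and (and (and (Nat.beq (nth e.2.1 6) e.1) (Nat.beq (nth e.2.1 5) 5))
      (Nat.beq (nth e.2.1 0) 0))
      (octL.all (fun f => octL.any (fun t => Nat.beq t (nth e.2.1 f)))))

theorem stTbl2_ok : (stTbl2.all stChk2 && outL.all (fun j => stTbl2.any (fun e => Nat.beq e.1 j)))
    = true := by decide +kernel

theorem st_spec2 : ∀ j ∈ outL, ∃ g ∈ M24, (∀ p ∈ O0s, g p ∈ O0s) ∧ g (pt 5) = pt 5 ∧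
    g (pt 0) = pt 0 ∧ g (pt 6) = pt j := by
  have h := stTbl2_ok
  simp only [Bool.and_eq_true, List.all_eq_true, List.any_eq_true, Nat.beq_eq] at h
  intro j hj
  obtain ⟨e, he, rfl⟩ := h.2 j hj
  have h1 := h.1 e he
  simp only [stChk2, Bool.and_eq_true, List.all_eq_true, List.any_eq_true, Nat.beq_eq] at h1
  refine ⟨mkPerm e.2.1 e.2.2 h1.1.1, mkPerm_mem _ _ _ h1.1.2, ?_, ?_, ?_, ?_⟩
  · intro p hp
    rw [mem_O0s] at hp ⊢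
    obtain ⟨t, ht, e'⟩ := h1.2.2 (code p) hp
    rw [mkPerm_apply, code_pt _ ((chk_spec h1.1.1).2 (code p) (code_lt p)).1, ← e']
    exact ht
  · rw [mkPerm_pt _ _ _ 5 (by norm_num), h1.2.1.1.2]
  · rw [mkPerm_pt _ _ _ 0 (by norm_num), h1.2.1.2]
  · rw [mkPerm_pt _ _ _ 6 (by norm_num), h1.2.1.1.1]

theorem pt0_in : pt 0 ∈ O0s := by
  rw [mem_O0s]
  decide

/-- The stabiliser of an octad, of a point in it and of a point outside it is transitive on the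
remaining fifteen points outside the octad. -/
theorem oct_in_out_trans (o : Finset GolayPt) (ho : o ∈ octads) (p q r r' : GolayPt) (hp : p ∈ o)
    (hq : q ∉ o) (hr : r ∉ o) (hr' : r' ∉ o) (hrq : r ≠ q) (hrq' : r' ≠ q) :
    ∃ g ∈ M24, g • o = o ∧ g p = p ∧ g q = q ∧ g r = r' := by
  obtain ⟨k1, hk1, e1⟩ := octad_trans o O0s ho O0s_octad
  have hp1 : k1 p ∈ O0s := by
    rw [← e1]
    exact Finset.smul_mem_smul_finset hp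
  -- move the inside point to the base point of the octad
  obtain ⟨k2, hk2, e2, k2p⟩ : ∃ k2 ∈ M24, k2 • O0s = O0s ∧ k2 (k1 p) = pt 0 := by
    by_cases h0 : k1 p = pt 0
    · exact ⟨1, M24.one_mem, one_smul _ _, by rw [h0]; rfl⟩
    · obtain ⟨h, hh, h1, -⟩ := Orb.m24_two (k1 p) (pt 0) (pt 0) (k1 p) h0 (Ne.symm h0)
      have ho2 : h • O0s ∈ octads := smul_mem_weight hh O0s_octad
      have hp2 : pt 0 ∈ h • O0s := by
        rw [← h1]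
        exact Finset.smul_mem_smul_finset hp1
      obtain ⟨g', hg', g'p, e'⟩ := octad_p (h • O0s) O0s ho2 O0s_octad (pt 0) hp2 pt0_in
      refine ⟨g' * h, M24.mul_mem hg' hh, ?_, ?_⟩
      · rw [mul_smul, e']
      · rw [Equiv.Perm.mul_apply, h1, g'p]
  have hq2 : k2 (k1 q) ∉ O0s := by
    have : (k2 * k1) • o = O0s := by
      rw [mul_smul, e1, e2]
    rw [← this]
    exact not_mem_smul hq
  obtain ⟨s, hs, sfix, sq⟩ := oct_fix_trans O0s O0s_octad (k2 (k1 q)) (pt 5) hq2 pt5_out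
  have hsO : s • O0s = O0s := smul_eq_of_maps (fun x hx => by rw [sfix x hx]; exact hx)
  obtain ⟨k, hk⟩ : ∃ k : Equiv.Perm GolayPt, k = s * k2 * k1 := ⟨_, rfl⟩
  have hkM : k ∈ M24 := by
    rw [hk]
    exact M24.mul_mem (M24.mul_mem hs hk2) hk1
  have hko : k • o = O0s := by
    rw [hk, mul_smul, mul_smul, e1, e2, hsO]
  have hkp : k p = pt 0 := by
    rw [hk, Equiv.Perm.mul_apply, Equiv.Perm.mul_apply, k2p, sfix _ pt0_in]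
  have hkq : k q = pt 5 := by
    rw [hk, Equiv.Perm.mul_apply, Equiv.Perm.mul_apply, sq]
  have hout : ∀ x : GolayPt, x ∉ o → x ≠ q → ∃ g ∈ M24, g • O0s = O0s ∧ g (pt 5) = pt 5 ∧
      g (pt 0) = pt 0 ∧ g (pt 6) = k x := by
    intro x hx hxq
    have hx1 : k x ∉ O0s := by
      rw [← hko]
      exact not_mem_smul hx
    have hx2 : k x ≠ pt 5 := by
      rw [← hkq]
      exact fun h => hxq (k.injective h)
    obtain ⟨g, hg, g1, g2, g3, g4⟩ := st_spec2 _ (out_codes _ hx1 hx2)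
    exact ⟨g, hg, smul_eq_of_maps g1, g2, g3, by rw [g4, pt_code]⟩
  obtain ⟨gi, hgi, gi1, gi2, gi3, gi4⟩ := hout r hr hrq
  obtain ⟨gj, hgj, gj1, gj2, gj3, gj4⟩ := hout r' hr' hrq'
  refine ⟨k⁻¹ * gj * gi⁻¹ * k, M24.mul_mem (M24.mul_mem (M24.mul_mem (M24.inv_mem hkM) hgj)
    (M24.inv_mem hgi)) hkM, ?_, ?_, ?_, ?_⟩
  · have hgi' : gi⁻¹ • O0s = O0s := by
      rw [inv_smul_eq_iff, gi1]
    have hk' : k⁻¹ • O0s = o := by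
      rw [inv_smul_eq_iff, hko]
    rw [mul_smul, mul_smul, mul_smul, hko, hgi', gj1, hk']
  · have e : gi⁻¹ (pt 0) = pt 0 := by
      rw [Equiv.Perm.inv_eq_iff_eq, gi3]
    rw [Equiv.Perm.mul_apply, Equiv.Perm.mul_apply, Equiv.Perm.mul_apply, hkp, e, gj3,
      Equiv.Perm.inv_eq_iff_eq, hkp]
  · have e : gi⁻¹ (pt 5) = pt 5 := by
      rw [Equiv.Perm.inv_eq_iff_eq, gi2]
    rw [Equiv.Perm.mul_apply, Equiv.Perm.mul_apply, Equiv.Perm.mul_apply, hkq, e, gj2,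
      Equiv.Perm.inv_eq_iff_eq, hkq]
  · have e : gi⁻¹ (k r) = pt 6 := by
      rw [Equiv.Perm.inv_eq_iff_eq, gi4]
    rw [Equiv.Perm.mul_apply, Equiv.Perm.mul_apply, Equiv.Perm.mul_apply, e, gj4,
      Equiv.Perm.inv_eq_iff_eq]

end OctStab2
end Cfsg.Agent.Lib.Helper28
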