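import Mathlib
import Cfsg.Prelude.Def_Sporadic_a
import Cfsg.Agent.Lib.Helper28.Words

set_option autoImplicit false

namespace Cfsg.Agent.Lib.Helper28

open Cfsg

/-- Two distinct words of weight at most 4 in the same coset of a code of minimum weight 8
have weight exactly 4 and disjoint supports. -/
theorem coset_low_weight (C : Submodule (ZMod 2) (Fin 24 → ZMod 2))
    (hmin : ∀ w ∈ C, w ≠ 0 → 8 ≤ hammingNorm w) (u u' : Fin 24 → ZMod 2) (h : u - u' ∈ C)
    (hne : u ≠ u') (hu : hammingNorm u ≤ 4) (hu' : hammingNorm u' ≤ 4) :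
    hammingNorm u = 4 ∧ hammingNorm u' = 4 ∧ Disjoint (support₂ u) (support₂ u') := by
  have h8 := hmin _ h (sub_ne_zero.mpr hne)
  rw [hammingNorm_eq_card] at h8 hu hu'
  rw [support₂_sub, ← support₂_add] at h8
  have := card_support₂_add u u'
  refine ⟨by rw [hammingNorm_eq_card]; omega, by rw [hammingNorm_eq_card]; omega, ?_⟩
  rw [Finset.disjoint_iff_inter_eq_empty, ← Finset.card_eq_zero]
  omega

/-- The weight function used in the packing count. -/
def cmuW (k : ℕ) : ℕ := if k ≤ 3 then 6 else if k = 4 then 1 else 0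

theorem total_cmu : ∑ u : Fin 24 → ZMod 2, cmuW (hammingNorm u) = 6 * 2 ^ 12 := by
  classical
  have h1 : ∀ u : Fin 24 → ZMod 2, cmuW (hammingNorm u)
      = ∑ k ∈ Finset.range 5, if hammingNorm u = k then cmuW k else 0 := by
    intro u
    rw [Finset.sum_ite_eq]
    by_cases h : hammingNorm u ∈ Finset.range 5
    · rw [if_pos h]
    · rw [if_neg h]
      rw [Finset.mem_range] at h
      unfold cmuW
      rw [if_neg (by omega), if_neg (by omega)]
  have h2 : ∀ k : ℕ, ∑ u : Fin 24 → ZMod 2, (if hammingNorm u = k then cmuW k else 0)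
      = Nat.choose 24 k * cmuW k := by
    intro k
    rw [← Finset.sum_filter, Finset.sum_const, smul_eq_mul]
    have := card_words_of_weight (α := Fin 24) k
    rw [Fintype.card_fin] at this
    have h' : (Finset.univ.filter fun u : Fin 24 → ZMod 2 => hammingNorm u = k)
        = (Finset.univ.filter fun u : Fin 24 → ZMod 2 => (support₂ u).card = k) := by
      ext u
      simp only [Finset.mem_filter, Finset.mem_univ, true_and]
      rw [hammingNorm_eq_card]
    rw [h', this]
  simp only [h1]
  rw [Finset.sum_comm]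
  simp only [h2]
  decide

/-- The packing count: in a binary code of length 24, dimension 12 and minimum weight 8, for every
coset the words of weight at most 4 in the coset are either a single word of weight at most 3,
or exactly six words of weight 4. -/
theorem coset_cases (C : Submodule (ZMod 2) (Fin 24 → ZMod 2))
    (hdim : Module.finrank (ZMod 2) C = 12)
    (hmin : ∀ w ∈ C, w ≠ 0 → 8 ≤ hammingNorm w) (w : Fin 24 → ZMod 2) :
    (∃ u₀ : Fin 24 → ZMod 2, u₀ - w ∈ C ∧ hammingNorm u₀ ≤ 3 ∧
        ∀ u : Fin 24 → ZMod 2, u - w ∈ C → hammingNorm u ≤ 4 → u = u₀) ∨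
    ((∀ u : Fin 24 → ZMod 2, u - w ∈ C → hammingNorm u ≤ 4 → hammingNorm u = 4) ∧
      ∀ [DecidablePred fun u : Fin 24 → ZMod 2 => u - w ∈ C ∧ hammingNorm u ≤ 4],
        (Finset.univ.filter fun u : Fin 24 → ZMod 2 => u - w ∈ C ∧ hammingNorm u ≤ 4).card = 6) := by
  classical
  haveI : Fintype ((Fin 24 → ZMod 2) ⧸ C) := Fintype.ofFinite _
  have hQ : Fintype.card ((Fin 24 → ZMod 2) ⧸ C) = 2 ^ 12 := by
    have h1 := Submodule.card_eq_card_quotient_mul_card C
    have h2 : Nat.card (Fin 24 → ZMod 2) = 2 ^ 24 := by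
      rw [Nat.card_eq_fintype_card, Fintype.card_fun, ZMod.card, Fintype.card_fin]
    have h3 : Nat.card ↥C = 2 ^ 12 := by
      rw [Nat.card_eq_fintype_card, Module.card_eq_pow_finrank (K := ZMod 2) (V := ↥C), hdim,
        ZMod.card]
    rw [h2, h3] at h1
    rw [← Nat.card_eq_fintype_card]
    have h4 : (2:ℕ) ^ 12 * 2 ^ 12 = 2 ^ 12 * Nat.card ((Fin 24 → ZMod 2) ⧸ C) := by
      rw [← h1]; norm_num
    exact (Nat.eq_of_mul_eq_mul_left (by norm_num) h4).symm
  -- the fibres
  let F : ((Fin 24 → ZMod 2) ⧸ C) → Finset (Fin 24 → ZMod 2) := fun q =>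
    Finset.univ.filter fun u => (Submodule.Quotient.mk u : (Fin 24 → ZMod 2) ⧸ C) = q
  let T : ((Fin 24 → ZMod 2) ⧸ C) → ℕ := fun q => ∑ u ∈ F q, cmuW (hammingNorm u)
  have hFmem : ∀ q u, u ∈ F q ↔ (Submodule.Quotient.mk u : (Fin 24 → ZMod 2) ⧸ C) = q := by
    intro q u
    simp only [F, Finset.mem_filter, Finset.mem_univ, true_and]
  have hFsub : ∀ q, ∀ u ∈ F q, ∀ u' ∈ F q, u - u' ∈ C := by
    intro q u hu u' hu'
    rw [hFmem] at hu hu'
    rw [← Submodule.Quotient.eq, hu, hu']
  -- the two cases for each fibre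
  have hcase : ∀ q, (∃ u₀ ∈ F q, hammingNorm u₀ ≤ 3 ∧ (∀ u ∈ F q, hammingNorm u ≤ 4 → u = u₀)
        ∧ T q = 6) ∨
      ((∀ u ∈ F q, hammingNorm u ≤ 4 → hammingNorm u = 4) ∧
        T q = ((F q).filter fun u => hammingNorm u ≤ 4).card ∧ T q ≤ 6) := by
    intro q
    by_cases h3 : ∃ u₀ ∈ F q, hammingNorm u₀ ≤ 3
    · left
      obtain ⟨u₀, hu₀, hw₀⟩ := h3
      have huniq : ∀ u ∈ F q, hammingNorm u ≤ 4 → u = u₀ := by
        intro u hu hwu
        by_contra hne
        have := coset_low_weight C hmin u u₀ (hFsub q u hu u₀ hu₀) hne hwu (by omega)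
        omega
      refine ⟨u₀, hu₀, hw₀, huniq, ?_⟩
      show ∑ u ∈ F q, cmuW (hammingNorm u) = 6
      rw [Finset.sum_eq_single_of_mem u₀ hu₀]
      · unfold cmuW
        rw [if_pos hw₀]
      · intro u hu hne
        have : ¬ hammingNorm u ≤ 4 := fun h => hne (huniq u hu h)
        unfold cmuW
        rw [if_neg (by omega), if_neg (by omega)]
    · right
      push Not at h3
      have hall4 : ∀ u ∈ F q, hammingNorm u ≤ 4 → hammingNorm u = 4 := by
        intro u hu h4
        have := h3 u hu
        omega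
      have hT : T q = ((F q).filter fun u => hammingNorm u ≤ 4).card := by
        show ∑ u ∈ F q, cmuW (hammingNorm u) = _
        rw [Finset.card_filter]
        refine Finset.sum_congr rfl ?_
        intro u hu
        have h5 := h3 u hu
        by_cases h4 : hammingNorm u ≤ 4
        · rw [if_pos h4]
          have h6 : hammingNorm u = 4 := by omega
          rw [h6]
          rfl
        · rw [if_neg h4]
          unfold cmuW
          rw [if_neg (by omega), if_neg (by omega)]
      refine ⟨hall4, hT, ?_⟩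
      rw [hT]
      -- pairwise disjoint supports of size 4
      have hdisj : (((F q).filter fun u => hammingNorm u ≤ 4) : Set (Fin 24 → ZMod 2)).PairwiseDisjoint
          support₂ := by
        intro u hu u' hu' hne
        rw [Finset.mem_coe, Finset.mem_filter] at hu hu'
        exact (coset_low_weight C hmin u u' (hFsub q u hu.1 u' hu'.1) hne hu.2 hu'.2).2.2
      have hcard := Finset.card_biUnion hdisj
      have hsum : ∑ u ∈ (F q).filter fun u => hammingNorm u ≤ 4, (support₂ u).card
          = ((F q).filter fun u => hammingNorm u ≤ 4).card * 4 := by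
        rw [Finset.sum_const_nat]
        intro u hu
        rw [Finset.mem_filter] at hu
        rw [← hammingNorm_eq_card]
        exact hall4 u hu.1 hu.2
      have hle := Finset.card_le_univ (((F q).filter fun u => hammingNorm u ≤ 4).biUnion support₂)
      rw [hcard, hsum, Fintype.card_fin] at hle
      omega
  have hle : ∀ q, T q ≤ 6 := by
    intro q
    rcases hcase q with ⟨u₀, -, -, -, h⟩ | ⟨-, -, h⟩
    · rw [h]
    · exact h
  have htot : ∑ q, T q = 6 * 2 ^ 12 := by
    rw [← total_cmu]
    have h := Finset.sum_fiberwise (Finset.univ : Finset (Fin 24 → ZMod 2))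
      (fun u => (Submodule.Quotient.mk u : (Fin 24 → ZMod 2) ⧸ C))
      (fun u => cmuW (hammingNorm u))
    rw [← h]
  have hall : ∀ q, T q = 6 := by
    have h := (Finset.sum_eq_sum_iff_of_le (s := Finset.univ) (f := T) (g := fun _ => 6)
      (fun q _ => hle q)).mp (by
        rw [htot, Finset.sum_const, Finset.card_univ, hQ]; norm_num)
    exact fun q => h q (Finset.mem_univ q)
  have hmemw : ∀ u, u ∈ F (Submodule.Quotient.mk w) ↔ u - w ∈ C := by
    intro u
    rw [hFmem, Submodule.Quotient.eq]
  rcases hcase (Submodule.Quotient.mk w) with ⟨u₀, hu₀, hw₀, huniq, -⟩ | ⟨hall4, hT, -⟩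
  · left
    exact ⟨u₀, (hmemw u₀).mp hu₀, hw₀, fun u hu h4 => huniq u ((hmemw u).mpr hu) h4⟩
  · right
    refine ⟨fun u hu h4 => hall4 u ((hmemw u).mpr hu) h4, ?_⟩
    intro inst
    rw [hall] at hT
    rw [hT]
    congr 1
    ext u
    simp only [Finset.mem_filter, Finset.mem_univ, true_and]
    rw [hmemw]

end Cfsg.Agent.Lib.Helper28
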