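import Mathlib
import Cfsg.Prelude.Def_Sporadic_a
import Cfsg.Agent.Lib.Helper28.Words
import Cfsg.Agent.Lib.Helper28.Sextet

set_option autoImplicit false

namespace Cfsg.Agent.Lib.Helper28

open Cfsg

/-- In a binary code of length 24, dimension 12 and minimum weight 8, every 5-set of coordinates
lies in the support of a word of weight 8. -/
theorem exists_octad (C : Submodule (ZMod 2) (Fin 24 → ZMod 2))
    (hdim : Module.finrank (ZMod 2) C = 12)
    (hmin : ∀ w ∈ C, w ≠ 0 → 8 ≤ hammingNorm w) (s : Finset (Fin 24)) (hs : s.card = 5) :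
    ∃ c ∈ C, (support₂ c).card = 8 ∧ s ⊆ support₂ c := by
  classical
  have hne : s.Nonempty := by
    rw [← Finset.card_pos, hs]; norm_num
  obtain ⟨p, hp⟩ := hne
  have hT : (s.erase p).card = 4 := by rw [Finset.card_erase_of_mem hp, hs]
  have hwT : hammingNorm (wordOf (s.erase p)) = 4 := by
    rw [hammingNorm_eq_card, support₂_wordOf, hT]
  rcases coset_cases C hdim hmin (wordOf (s.erase p)) with ⟨u₀, hu₀, hw₀, huniq⟩ | ⟨hall4, hcard⟩
  · exfalso
    have := huniq (wordOf (s.erase p)) (by rw [sub_self]; exact C.zero_mem) (by omega)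
    rw [← this] at hw₀
    omega
  · have hcard' := hcard
    obtain ⟨L, hL⟩ : ∃ L : Finset (Fin 24 → ZMod 2), L = Finset.univ.filter
        fun u : Fin 24 → ZMod 2 => u - wordOf (s.erase p) ∈ C ∧ hammingNorm u ≤ 4 := ⟨_, rfl⟩
    rw [← hL] at hcard'
    have hLmem : ∀ u, u ∈ L ↔ (u - wordOf (s.erase p) ∈ C ∧ hammingNorm u ≤ 4) := by
      intro u
      simp [hL]
    have hdisj : (L : Set (Fin 24 → ZMod 2)).PairwiseDisjoint support₂ := by
      intro u hu u' hu' hne
      rw [Finset.mem_coe, hLmem] at hu hu'
      have hsub : u - u' ∈ C := by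
        have := C.sub_mem hu.1 hu'.1
        simpa using this
      exact (coset_low_weight C hmin u u' hsub hne hu.2 hu'.2).2.2
    have hU : L.biUnion support₂ = Finset.univ := by
      apply Finset.eq_univ_of_card
      rw [Finset.card_biUnion hdisj, Finset.sum_const_nat (m := 4), hcard', Fintype.card_fin]
      intro u hu
      rw [hLmem] at hu
      rw [← hammingNorm_eq_card]
      exact hall4 u hu.1 hu.2
    have hpU : p ∈ L.biUnion support₂ := by
      rw [hU]; exact Finset.mem_univ p
    obtain ⟨u', hu'L, hpu'⟩ := Finset.mem_biUnion.mp hpU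
    have hu' := (hLmem u').mp hu'L
    have hwL : wordOf (s.erase p) ∈ L :=
      (hLmem _).mpr ⟨by rw [sub_self]; exact C.zero_mem, by omega⟩
    have hne' : u' ≠ wordOf (s.erase p) := by
      intro h
      rw [h, support₂_wordOf] at hpu'
      exact (Finset.notMem_erase p s) hpu'
    have hd : Disjoint (support₂ u') (support₂ (wordOf (s.erase p))) := hdisj hu'L hwL hne'
    refine ⟨u' - wordOf (s.erase p), hu'.1, ?_, ?_⟩
    · have h1 := card_support₂_add u' (wordOf (s.erase p))
      have h2 : (support₂ u' ∩ support₂ (wordOf (s.erase p))).card = 0 := by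
        rw [Finset.card_eq_zero, ← Finset.disjoint_iff_inter_eq_empty]
        exact hd
      have h3 : (support₂ u').card = 4 := by
        rw [← hammingNorm_eq_card]
        exact hall4 u' hu'.1 hu'.2
      have h4 : (support₂ (wordOf (s.erase p))).card = 4 := by
        rw [support₂_wordOf, hT]
      rw [word_sub_eq_add]
      omega
    · intro i hi
      rw [support₂_sub, Finset.mem_symmDiff]
      by_cases hip : i = p
      · left
        rw [hip]
        refine ⟨hpu', ?_⟩
        rw [support₂_wordOf]
        exact Finset.notMem_erase p s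
      · right
        have hiT : i ∈ support₂ (wordOf (s.erase p)) := by
          rw [support₂_wordOf]
          exact Finset.mem_erase.mpr ⟨hip, hi⟩
        exact ⟨hiT, fun hiu => (Finset.disjoint_left.mp hd) hiu hiT⟩

end Cfsg.Agent.Lib.Helper28
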