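import Cfsg.Agent.Lib.Helper28.AutPlane

set_option autoImplicit false

namespace Cfsg.Agent.Lib.Helper28
namespace PG24

open Cfsg
open scoped LinearAlgebra.Projectivization Pointwise Matrix

variable {F : Type} [Field F] [Fintype F]

/-- The linear form given by a vector. -/
def dotForm (c : Fin 3 → F) : (Fin 3 → F) →ₗ[F] F where
  toFun v := c ⬝ᵥ v
  map_add' v w := dotProduct_add c v w
  map_smul' a v := by
    rw [RingHom.id_apply, dotProduct_smul]

theorem finrank_ker (c : Fin 3 → F) (hc : c ≠ 0) :
    Module.finrank F ↥(LinearMap.ker (dotForm c)) = 2 := by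
  have hsurj : Function.Surjective (dotForm c) := by
    obtain ⟨i, hi⟩ : ∃ i, c i ≠ 0 := by
      by_contra h
      push Not at h
      exact hc (funext h)
    intro a
    refine ⟨Pi.single i (a / c i), ?_⟩
    show c ⬝ᵥ Pi.single i (a / c i) = a
    rw [dotProduct_single]
    field_simp
  have h := LinearMap.finrank_range_add_finrank_ker (dotForm c)
  rw [LinearMap.range_eq_top.2 hsurj, finrank_top, Module.finrank_self,
    Module.finrank_fin_fun] at h
  omega

/-- A finiteness structure on the points of the plane. -/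
noncomputable def fintypePt (F : Type) [Field F] [Fintype F] : Fintype (ℙ F (Fin 3 → F)) :=
  Fintype.ofFinite _

attribute [local instance] fintypePt Classical.propDecidable

/-- The line with given dual coordinates. -/
noncomputable def lineF (c : ℙ F (Fin 3 → F)) : Finset (ℙ F (Fin 3 → F)) :=
  Finset.univ.filter (fun p => Projectivization.orthogonal c p)

/-- The lines of the plane. -/
noncomputable def L2 (F : Type) [Field F] [Fintype F] : Set (Finset (ℙ F (Fin 3 → F))) :=
  Set.range lineF

theorem mem_lineF (c p : ℙ F (Fin 3 → F)) : p ∈ lineF c ↔ Projectivization.orthogonal c p := by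
  unfold lineF
  rw [Finset.mem_filter]
  exact ⟨fun h => h.2, fun h => ⟨Finset.mem_univ _, h⟩⟩

theorem card_lineF (hF : Fintype.card F = 4) (c : ℙ F (Fin 3 → F)) : (lineF c).card = 5 := by
  induction c with | h c hc =>
  have h2 := finrank_ker c hc
  have hcard := Projectivization.card_of_finrank_two F ↥(LinearMap.ker (dotForm c)) h2
  have hFc : Nat.card F = 4 := by rw [Nat.card_eq_fintype_card, hF]
  rw [hFc] at hcard
  have hinj := Projectivization.map_injective (LinearMap.ker (dotForm c)).subtype
    (Submodule.injective_subtype _)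
  have hrange : Set.range (Projectivization.map (LinearMap.ker (dotForm c)).subtype
      (Submodule.injective_subtype _)) =
      {p | Projectivization.orthogonal (Projectivization.mk F c hc) p} := by
    ext p
    constructor
    · rintro ⟨q, rfl⟩
      induction q with | h w hw =>
      rw [Projectivization.map_mk]
      exact LinearMap.mem_ker.1 w.2
    · intro hp
      induction p with | h v hv =>
      have hv0 : c ⬝ᵥ v = 0 := hp
      refine ⟨Projectivization.mk F (⟨v, LinearMap.mem_ker.2 hv0⟩ :
        ↥(LinearMap.ker (dotForm c))) (fun h => hv (congrArg Subtype.val h)), ?_⟩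
      rw [Projectivization.map_mk]
      rfl
  have e1 : ((lineF (Projectivization.mk F c hc) : Finset (ℙ F (Fin 3 → F))) :
      Set (ℙ F (Fin 3 → F))) = Set.range (Projectivization.map
        (LinearMap.ker (dotForm c)).subtype (Submodule.injective_subtype _)) := by
    rw [hrange]
    ext p
    rw [Finset.mem_coe, mem_lineF]
    rfl
  have e2 : (lineF (Projectivization.mk F c hc)).card =
      Nat.card (ℙ F ↥(LinearMap.ker (dotForm c))) := by
    rw [← Set.ncard_coe_finset, e1, ← Set.image_univ, Set.ncard_image_of_injective _ hinj,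
      Set.ncard_univ]
  rw [e2, hcard]

theorem cross_unique (c P Q : ℙ F (Fin 3 → F)) (hPQ : P ≠ Q)
    (hP : Projectivization.orthogonal c P) (hQ : Projectivization.orthogonal c Q) :
    c = Projectivization.cross P Q := by
  induction c with | h u hu =>
  induction P with | h v hv =>
  induction Q with | h w hw =>
  have h1 : u ⬝ᵥ v = 0 := hP
  have h2 : u ⬝ᵥ w = 0 := hQ
  rw [Projectivization.cross_mk_of_ne hv hw hPQ,
    Projectivization.mk_eq_mk_iff_crossProduct_eq_zero, cross_cross_eq_smul_sub_smul', h2,
    dotProduct_comm v u, h1, zero_smul, zero_smul, sub_zero]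

theorem steiner (hF : Fintype.card F = 4) : IsSteinerSystem 2 5 (L2 F) := by
  refine ⟨?_, ?_⟩
  · rintro b ⟨c, rfl⟩
    exact card_lineF hF c
  · intro s hs
    obtain ⟨P, Q, hPQ, rfl⟩ := Finset.card_eq_two.1 hs
    refine ⟨lineF (Projectivization.cross P Q), ⟨⟨_, rfl⟩, ?_⟩, ?_⟩
    · intro x hx
      rw [Finset.mem_insert, Finset.mem_singleton] at hx
      rw [mem_lineF]
      rcases hx with rfl | rfl
      · exact Projectivization.cross_orthogonal_left hPQ
      · exact Projectivization.cross_orthogonal_right hPQ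
    · rintro b ⟨⟨c, rfl⟩, hsub⟩
      have hP : Projectivization.orthogonal c P :=
        (mem_lineF c P).1 (hsub (Finset.mem_insert_self _ _))
      have hQ : Projectivization.orthogonal c Q :=
        (mem_lineF c Q).1 (hsub (Finset.mem_insert_of_mem (Finset.mem_singleton_self _)))
      rw [cross_unique c P Q hPQ hP hQ]

theorem card_pt (hF : Fintype.card F = 4) : Fintype.card (ℙ F (Fin 3 → F)) = 21 := by
  have h := Projectivization.card_of_finrank F (Fin 3 → F) (Module.finrank_fin_fun F (n := 3))
  have hFc : Nat.card F = 4 := by rw [Nat.card_eq_fintype_card, hF]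
  rw [← Nat.card_eq_fintype_card, h, hFc]
  decide

theorem sl_smul_mk (g : Matrix.SpecialLinearGroup (Fin 3) F) (v : Fin 3 → F) (hv : v ≠ 0) :
    ∃ hv' : g.1 *ᵥ v ≠ 0,
      g • Projectivization.mk F v hv = Projectivization.mk F (g.1 *ᵥ v) hv' := by
  have hv' : g.1 *ᵥ v ≠ 0 := by
    intro h
    apply hv
    have h3 := congrArg (fun w => (g⁻¹).1 *ᵥ w) h
    simp only [Matrix.mulVec_mulVec, Matrix.mulVec_zero] at h3
    rw [← Matrix.SpecialLinearGroup.coe_mul, inv_mul_cancel, Matrix.SpecialLinearGroup.coe_one,
      Matrix.one_mulVec] at h3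
    exact h3
  exact ⟨hv', rfl⟩

/-- The image of a line under a special linear map is a line. -/
theorem orth_smul (g : Matrix.SpecialLinearGroup (Fin 3) F) (c : ℙ F (Fin 3 → F)) :
    ∃ c' : ℙ F (Fin 3 → F), ∀ p : ℙ F (Fin 3 → F),
      Projectivization.orthogonal c p ↔ Projectivization.orthogonal c' (g • p) := by
  induction c with | h u hu =>
  have hu' : u ᵥ* (g⁻¹).1 ≠ 0 := by
    intro h
    apply hu
    have h3 := congrArg (fun w => w ᵥ* g.1) h
    simp only [Matrix.vecMul_vecMul, Matrix.zero_vecMul] at h3
    rw [← Matrix.SpecialLinearGroup.coe_mul, inv_mul_cancel, Matrix.SpecialLinearGroup.coe_one,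
      Matrix.vecMul_one] at h3
    exact h3
  refine ⟨Projectivization.mk F (u ᵥ* (g⁻¹).1) hu', ?_⟩
  intro p
  induction p with | h v hv =>
  obtain ⟨hv', e⟩ := sl_smul_mk g v hv
  rw [e]
  show u ⬝ᵥ v = 0 ↔ (u ᵥ* (g⁻¹).1) ⬝ᵥ (g.1 *ᵥ v) = 0
  rw [Matrix.dotProduct_mulVec, Matrix.vecMul_vecMul, ← Matrix.SpecialLinearGroup.coe_mul,
    inv_mul_cancel, Matrix.SpecialLinearGroup.coe_one, Matrix.vecMul_one]

theorem perm_line (x : Matrix.ProjectiveSpecialLinearGroup (Fin 3) F)
    (b : Finset (ℙ F (Fin 3 → F))) (hb : b ∈ L2 F) :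
    Projectivization.PSLAction.toPermHom x • b ∈ L2 F := by
  obtain ⟨c, rfl⟩ := hb
  induction x using QuotientGroup.induction_on with | H g =>
  obtain ⟨c', hc'⟩ := orth_smul g c
  refine ⟨c', ?_⟩
  ext q
  rw [mem_lineF, ← Finset.inv_smul_mem_iff, mem_lineF, hc']
  have e : g • ((Projectivization.PSLAction.toPermHom
      (QuotientGroup.mk g : Matrix.ProjectiveSpecialLinearGroup (Fin 3) F))⁻¹ • q) = q := by
    show (Projectivization.PSLAction.toPermHom
      (QuotientGroup.mk g : Matrix.ProjectiveSpecialLinearGroup (Fin 3) F))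
      ((Projectivization.PSLAction.toPermHom
      (QuotientGroup.mk g : Matrix.ProjectiveSpecialLinearGroup (Fin 3) F))⁻¹ q) = q
    simp
  rw [e]

/-- The projective special linear group acts faithfully by automorphisms on a plane of order
four. -/
theorem psl_plane (hF : Fintype.card F = 4) :
    ∃ (β : Type) (_ : Fintype β) (_ : DecidableEq β) (L : Set (Finset β))
      (ψ : Matrix.ProjectiveSpecialLinearGroup (Fin 3) F →* ↥(setSystemAut L)),
      Fintype.card β = 21 ∧ IsSteinerSystem 2 5 L ∧ Function.Injective ψ := by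
  have hmem : ∀ x : Matrix.ProjectiveSpecialLinearGroup (Fin 3) F,
      Projectivization.PSLAction.toPermHom x ∈ setSystemAut (L2 F) := by
    intro x
    apply AutPlane.mem_aut_of_forall (L2 F) _ (perm_line x)
    intro b hb
    have h := perm_line x⁻¹ b hb
    rwa [map_inv] at h
  refine ⟨ℙ F (Fin 3 → F), fintypePt F, inferInstance, L2 F,
    (Projectivization.PSLAction.toPermHom (ι := Fin 3) (K := F)).codRestrict _ hmem,
    card_pt hF, steiner hF, ?_⟩
  intro x y hxy
  exact Matrix.ProjectiveSpecialLinearGroup.toPermHom_injective (congrArg Subtype.val hxy)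

end PG24
end Cfsg.Agent.Lib.Helper28
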