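import Cfsg.Agent.Lib.Helper28.Plane4

set_option autoImplicit false
set_option linter.unusedSectionVars false

namespace Cfsg.Agent.Lib.Helper28
namespace Plane4

open Cfsg Finset
open Cfsg.Agent.Lib.Helper4

variable {α : Type*} [Fintype α] [DecidableEq α]

theorem ln_comm {L : Set (Finset α)} (hL : IsSteinerSystem 2 5 L) {x y : α} (hxy : x ≠ y) :
    ln L x y = ln L y x :=
  ln_eq hL (ln_spec hL hxy.symm).1 hxy (ln_spec hL hxy.symm).2.2 (ln_spec hL hxy.symm).2.1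

/-- An arc: no three of its points on a line. -/
def IsArc (L : Set (Finset α)) (S : Finset α) : Prop := ∀ l ∈ L, (l ∩ S).card ≤ 2

/-- A point all of whose lines meet `S` in at most one point. -/
def Off (L : Set (Finset α)) (S : Finset α) (y : α) : Prop :=
  ∀ ℓ ∈ L, y ∈ ℓ → (ℓ ∩ S).card ≤ 1

theorem two_of_three {ℓ : Finset α} {p1 p2 p3 a b : α} (ha : a ∈ ℓ ∩ {p1, p2, p3})
    (hb : b ∈ ℓ ∩ {p1, p2, p3}) (hab : a ≠ b) :
    (p1 ∈ ℓ ∧ p2 ∈ ℓ) ∨ (p1 ∈ ℓ ∧ p3 ∈ ℓ) ∨ (p2 ∈ ℓ ∧ p3 ∈ ℓ) := by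
  simp only [mem_inter, mem_insert, mem_singleton] at ha hb
  obtain ⟨ha1, ha2⟩ := ha
  obtain ⟨hb1, hb2⟩ := hb
  rcases ha2 with rfl | rfl | rfl <;> rcases hb2 with rfl | rfl | rfl <;>
    first
    | exact absurd rfl hab
    | tauto

theorem arc_insert {L : Set (Finset α)} {S : Finset α} {y : α} (hS : IsArc L S)
    (hy : Off L S y) : IsArc L (insert y S) := by
  intro ℓ hℓ
  by_cases hyl : y ∈ ℓ
  · have h1 := hy ℓ hℓ hyl
    have h2 : ℓ ∩ insert y S ⊆ insert y (ℓ ∩ S) := by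
      intro z hz
      rw [mem_inter, mem_insert] at hz
      rw [mem_insert, mem_inter]
      rcases hz.2 with e | e
      · exact Or.inl e
      · exact Or.inr ⟨hz.1, e⟩
    have h3 := Finset.card_le_card h2
    have h4 := Finset.card_insert_le y (ℓ ∩ S)
    omega
  · have h2 : ℓ ∩ insert y S ⊆ ℓ ∩ S := by
      intro z hz
      rw [mem_inter, mem_insert] at hz
      rcases hz.2 with e | e
      · exact absurd (e ▸ hz.1) hyl
      · exact mem_inter.2 ⟨hz.1, e⟩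
    have h3 := Finset.card_le_card h2
    have h4 := hS ℓ hℓ
    omega

/-- A four-point arc exists. -/
theorem exists_arc4 (hα : Fintype.card α = 21) {L : Set (Finset α)}
    (hL : IsSteinerSystem 2 5 L) : ∃ S : Finset α, S.card = 4 ∧ IsArc L S := by
  have h1 : 1 < Fintype.card α := by rw [hα]; norm_num
  obtain ⟨p1, p2, h12⟩ := Fintype.exists_pair_of_one_lt_card h1
  obtain ⟨a1, a2, a3⟩ := ln_spec hL h12
  obtain ⟨p3, hp3⟩ : ∃ p3, p3 ∉ ln L p1 p2 := by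
    by_contra hcon
    push Not at hcon
    have hu : ln L p1 p2 = Finset.univ := Finset.eq_univ_iff_forall.2 hcon
    have hc := hL.1 _ a1
    rw [hu, Finset.card_univ, hα] at hc
    norm_num at hc
  have h13 : p1 ≠ p3 := fun e => hp3 (e ▸ a2)
  have h23 : p2 ≠ p3 := fun e => hp3 (e ▸ a3)
  obtain ⟨b1, b2, b3⟩ := ln_spec hL h13
  obtain ⟨c1, c2, c3⟩ := ln_spec hL h23
  obtain ⟨p4, hp4⟩ : ∃ p4, p4 ∉ ln L p1 p2 ∪ ln L p1 p3 ∪ ln L p2 p3 := by
    by_contra hcon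
    push Not at hcon
    have hu : ln L p1 p2 ∪ ln L p1 p3 ∪ ln L p2 p3 = Finset.univ :=
      Finset.eq_univ_iff_forall.2 hcon
    have hc1 := Finset.card_union_le (ln L p1 p2 ∪ ln L p1 p3) (ln L p2 p3)
    have hc2 := Finset.card_union_le (ln L p1 p2) (ln L p1 p3)
    rw [hu, Finset.card_univ, hα, hL.1 _ c1] at hc1
    rw [hL.1 _ a1, hL.1 _ b1] at hc2
    omega
  rw [mem_union, mem_union] at hp4
  push Not at hp4
  have hT : IsArc L {p1, p2, p3} := by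
    intro ℓ hℓ
    by_contra hcon
    have h3 : ({p1, p2, p3} : Finset α).card ≤ 3 := Finset.card_le_three
    have hsub : ℓ ∩ {p1, p2, p3} ⊆ {p1, p2, p3} := Finset.inter_subset_right
    have heq : ℓ ∩ {p1, p2, p3} = {p1, p2, p3} :=
      Finset.eq_of_subset_of_card_le hsub (by omega)
    have m1 : p1 ∈ ℓ := by
      have h5 : p1 ∈ ℓ ∩ {p1, p2, p3} := by rw [heq]; simp
      exact (mem_inter.1 h5).1
    have m2 : p2 ∈ ℓ := by
      have h5 : p2 ∈ ℓ ∩ {p1, p2, p3} := by rw [heq]; simp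
      exact (mem_inter.1 h5).1
    have m3 : p3 ∈ ℓ := by
      have h5 : p3 ∈ ℓ ∩ {p1, p2, p3} := by rw [heq]; simp
      exact (mem_inter.1 h5).1
    have e : ln L p1 p2 = ℓ := ln_eq hL hℓ h12 m1 m2
    exact hp3 (e ▸ m3)
  have hOff : Off L {p1, p2, p3} p4 := by
    intro ℓ hℓ h4
    rw [Finset.card_le_one]
    intro a ha b hb
    by_contra hab
    rcases two_of_three ha hb hab with ⟨m1, m2⟩ | ⟨m1, m3⟩ | ⟨m2, m3⟩
    · exact hp4.1.1 ((ln_eq hL hℓ h12 m1 m2) ▸ h4)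
    · exact hp4.1.2 ((ln_eq hL hℓ h13 m1 m3) ▸ h4)
    · exact hp4.2 ((ln_eq hL hℓ h23 m2 m3) ▸ h4)
  refine ⟨insert p4 {p1, p2, p3}, ?_, arc_insert hT hOff⟩
  rw [Finset.card_insert_of_notMem, Finset.card_eq_three.2 ⟨p1, p2, p3, h12, h13, h23, rfl⟩]
  simp only [mem_insert, mem_singleton, not_or]
  exact ⟨fun e => hp4.1.1 (e ▸ a2), fun e => hp4.1.1 (e ▸ a3), fun e => hp4.2 (e ▸ c3)⟩

/-- On a line through a point `p` of a four-point arc that meets the arc in `p` only, exactly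
one point is off the arc. -/
theorem off_on_line (hα : Fintype.card α = 21) {L : Set (Finset α)}
    (hL : IsSteinerSystem 2 5 L) {S : Finset α} (hS4 : S.card = 4) (hS : IsArc L S) {p : α}
    (hp : p ∈ S) {n : Finset α} (hn : n ∈ L) (hpn : p ∈ n) (hnS : ∀ z ∈ n, z ∈ S → z = p) :
    ∃ y ∈ n, Off L S y ∧ ∀ y' ∈ n, Off L S y' → y' = y := by
  have h3 : (S.erase p).card = 3 := by rw [Finset.card_erase_of_mem hp, hS4]
  obtain ⟨u, v, w, huv, huw, hvw, hT⟩ := Finset.card_eq_three.1 h3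
  have hu : u ∈ S ∧ u ≠ p := by
    have h5 : u ∈ S.erase p := by rw [hT]; simp
    exact ⟨(mem_erase.1 h5).2, (mem_erase.1 h5).1⟩
  have hv : v ∈ S ∧ v ≠ p := by
    have h5 : v ∈ S.erase p := by rw [hT]; simp
    exact ⟨(mem_erase.1 h5).2, (mem_erase.1 h5).1⟩
  have hw : w ∈ S ∧ w ≠ p := by
    have h5 : w ∈ S.erase p := by rw [hT]; simp
    exact ⟨(mem_erase.1 h5).2, (mem_erase.1 h5).1⟩
  have hSeq : ∀ z ∈ S, z ≠ p → z ∈ ({u, v, w} : Finset α) := by
    intro z hz e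
    rw [← hT]
    exact mem_erase.2 ⟨e, hz⟩
  obtain ⟨sw1, sw2, sw3⟩ := ln_spec hL huv
  obtain ⟨sv1, sv2, sv3⟩ := ln_spec hL huw
  obtain ⟨su1, su2, su3⟩ := ln_spec hL hvw
  have npw : p ∉ ln L u v := fun h => no_three hS sw1 sw2 sw3 h hu.1 hv.1 hp huv hu.2 hv.2
  have npv : p ∉ ln L u w := fun h => no_three hS sv1 sv2 sv3 h hu.1 hw.1 hp huw hu.2 hw.2
  have npu : p ∉ ln L v w := fun h => no_three hS su1 su2 su3 h hv.1 hw.1 hp hvw hv.2 hw.2
  have nww : w ∉ ln L u v := fun h => no_three hS sw1 sw2 sw3 h hu.1 hv.1 hw.1 huv huw hvw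
  have nvv : v ∉ ln L u w :=
    fun h => no_three hS sv1 sv2 sv3 h hu.1 hw.1 hv.1 huw huv (Ne.symm hvw)
  obtain ⟨aw, haw1, haw2⟩ := lines_meet hα hL hn sw1
  obtain ⟨av, hav1, hav2⟩ := lines_meet hα hL hn sv1
  obtain ⟨au, hau1, hau2⟩ := lines_meet hα hL hn su1
  have d1 : aw ≠ p := fun e => npw (e ▸ haw2)
  have d2 : av ≠ p := fun e => npv (e ▸ hav2)
  have d3 : au ≠ p := fun e => npu (e ▸ hau2)
  have d4 : aw ≠ av := by
    intro e
    by_cases c : aw = u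
    · exact hu.2 (hnS u (c ▸ haw1) hu.1)
    · have e2 : ln L u v = ln L u w := line_unique hL sw1 sv1 c haw2 sw2 (e ▸ hav2) sv2
      exact nww (e2 ▸ sv3)
  have d5 : aw ≠ au := by
    intro e
    by_cases c : aw = v
    · exact hv.2 (hnS v (c ▸ haw1) hv.1)
    · have e2 : ln L u v = ln L v w := line_unique hL sw1 su1 c haw2 sw3 (e ▸ hau2) su2
      exact nww (e2 ▸ su3)
  have d6 : av ≠ au := by
    intro e
    by_cases c : av = w
    · exact hw.2 (hnS w (c ▸ hav1) hw.1)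
    · have e2 : ln L u w = ln L v w := line_unique hL sv1 su1 c hav2 sv3 (e ▸ hau2) su3
      exact nvv (e2 ▸ su2)
  have hQ : ({p, aw, av, au} : Finset α) ⊆ n := by
    intro z hz
    simp only [mem_insert, mem_singleton] at hz
    rcases hz with rfl | rfl | rfl | rfl
    · exact hpn
    · exact haw1
    · exact hav1
    · exact hau1
  have hQc : ({p, aw, av, au} : Finset α).card = 4 := by
    rw [card_insert_of_notMem, card_insert_of_notMem, card_pair d6]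
    · simp only [mem_insert, mem_singleton, not_or]
      exact ⟨d4, d5⟩
    · simp only [mem_insert, mem_singleton, not_or]
      exact ⟨d1.symm, d2.symm, d3.symm⟩
  have hR : (n \ {p, aw, av, au}).card = 1 := by
    rw [Finset.card_sdiff_of_subset hQ, hQc, hL.1 n hn]
  obtain ⟨y, hy⟩ := Finset.card_eq_one.1 hR
  have hyn : y ∈ n ∧ y ∉ ({p, aw, av, au} : Finset α) := by
    have h5 : y ∈ n \ {p, aw, av, au} := by rw [hy]; exact mem_singleton_self y
    exact mem_sdiff.1 h5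
  have hoff : ∀ z ∈ n, z ∉ ({p, aw, av, au} : Finset α) → Off L S z := by
    intro z hz hzQ ℓ hℓ hzℓ
    simp only [mem_insert, mem_singleton, not_or] at hzQ
    rw [Finset.card_le_one]
    intro a ha b hb
    by_contra hab
    obtain ⟨ha1, ha2⟩ := mem_inter.1 ha
    obtain ⟨hb1, hb2⟩ := mem_inter.1 hb
    by_cases hpl : p ∈ ℓ
    · have e : ℓ = n := line_unique hL hℓ hn hzQ.1 hzℓ hpl hz hpn
      have ea := hnS a (e ▸ ha1) ha2
      have eb := hnS b (e ▸ hb1) hb2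
      exact hab (ea.trans eb.symm)
    · have ha3 : a ∈ ℓ ∩ {u, v, w} :=
        mem_inter.2 ⟨ha1, hSeq a ha2 (fun e => hpl (e ▸ ha1))⟩
      have hb3 : b ∈ ℓ ∩ {u, v, w} :=
        mem_inter.2 ⟨hb1, hSeq b hb2 (fun e => hpl (e ▸ hb1))⟩
      rcases two_of_three ha3 hb3 hab with ⟨m1, m2⟩ | ⟨m1, m3⟩ | ⟨m2, m3⟩
      · have e : ln L u v = ℓ := ln_eq hL hℓ huv m1 m2
        have e2 : ln L u v = n := line_unique hL sw1 hn hzQ.2.1 (e ▸ hzℓ) haw2 hz haw1
        exact hu.2 (hnS u (e2 ▸ sw2) hu.1)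
      · have e : ln L u w = ℓ := ln_eq hL hℓ huw m1 m3
        have e2 : ln L u w = n := line_unique hL sv1 hn hzQ.2.2.1 (e ▸ hzℓ) hav2 hz hav1
        exact hu.2 (hnS u (e2 ▸ sv2) hu.1)
      · have e : ln L v w = ℓ := ln_eq hL hℓ hvw m2 m3
        have e2 : ln L v w = n := line_unique hL su1 hn hzQ.2.2.2 (e ▸ hzℓ) hau2 hz hau1
        exact hv.2 (hnS v (e2 ▸ su2) hv.1)
  refine ⟨y, hyn.1, hoff y hyn.1 hyn.2, ?_⟩
  intro y' hy' hoff'
  have h5 : y' ∈ n \ {p, aw, av, au} := by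
    rw [mem_sdiff]
    refine ⟨hy', ?_⟩
    simp only [mem_insert, mem_singleton, not_or]
    refine ⟨?_, ?_, ?_, ?_⟩
    · intro e
      have hpu : p ≠ u := hu.2.symm
      obtain ⟨t1, t2, t3⟩ := ln_spec hL hpu
      have h6 := hoff' _ t1 (e ▸ t2)
      exact absurd h6 (not_le.2 (Finset.one_lt_card.2
        ⟨p, mem_inter.2 ⟨t2, hp⟩, u, mem_inter.2 ⟨t3, hu.1⟩, hpu⟩))
    · intro e
      have h6 := hoff' _ sw1 (e ▸ haw2)
      exact absurd h6 (not_le.2 (Finset.one_lt_card.2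
        ⟨u, mem_inter.2 ⟨sw2, hu.1⟩, v, mem_inter.2 ⟨sw3, hv.1⟩, huv⟩))
    · intro e
      have h6 := hoff' _ sv1 (e ▸ hav2)
      exact absurd h6 (not_le.2 (Finset.one_lt_card.2
        ⟨u, mem_inter.2 ⟨sv2, hu.1⟩, w, mem_inter.2 ⟨sv3, hw.1⟩, huw⟩))
    · intro e
      have h6 := hoff' _ su1 (e ▸ hau2)
      exact absurd h6 (not_le.2 (Finset.one_lt_card.2
        ⟨v, mem_inter.2 ⟨su2, hv.1⟩, w, mem_inter.2 ⟨su3, hw.1⟩, hvw⟩))
  rw [hy] at h5
  exact mem_singleton.1 h5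

/-- Every four-point arc lies in exactly one hyperoval. -/
theorem arc4_hyp (hα : Fintype.card α = 21) {L : Set (Finset α)}
    (hL : IsSteinerSystem 2 5 L) {S : Finset α} (hS4 : S.card = 4) (hS : IsArc L S) :
    ∃! K : Finset α, (K.card = 6 ∧ ∀ l ∈ L, (l ∩ K).card ≤ 2) ∧ S ⊆ K := by
  classical
  obtain ⟨p, hp⟩ : ∃ p, p ∈ S := Finset.card_pos.1 (by rw [hS4]; norm_num)
  have hF : ((Steiner.blocks L).filter (fun ℓ => p ∈ ℓ)).card = 5 := deg_point hα hL p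
  have hNmem : ∀ n, n ∈ ((Steiner.blocks L).filter (fun ℓ => p ∈ ℓ)).filter
      (fun n => ∀ z ∈ n, z ∈ S → z = p) ↔ (n ∈ L ∧ p ∈ n) ∧ ∀ z ∈ n, z ∈ S → z = p := by
    intro n
    rw [mem_filter, mem_filter, Steiner.mem_blocks]
  have hside : (Steiner.blocks L).filter (fun ℓ => p ∈ ℓ) \
      ((Steiner.blocks L).filter (fun ℓ => p ∈ ℓ)).filter (fun n => ∀ z ∈ n, z ∈ S → z = p)
      = (S.erase p).image (fun t => ln L p t) := by
    ext ℓ
    rw [mem_sdiff, hNmem, mem_filter, Steiner.mem_blocks, mem_image]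
    constructor
    · rintro ⟨⟨hℓ, hpl⟩, hnot⟩
      have hex : ∃ z ∈ ℓ, z ∈ S ∧ z ≠ p := by
        by_contra hc
        push Not at hc
        exact hnot ⟨⟨hℓ, hpl⟩, hc⟩
      obtain ⟨z, hz, hzS, hzp⟩ := hex
      exact ⟨z, mem_erase.2 ⟨hzp, hzS⟩, ln_eq hL hℓ (Ne.symm hzp) hpl hz⟩
    · rintro ⟨t, ht, rfl⟩
      obtain ⟨htp, htS⟩ := mem_erase.1 ht
      obtain ⟨t1, t2, t3⟩ := ln_spec hL (Ne.symm htp)
      exact ⟨⟨t1, t2⟩, fun hc => htp (hc.2 t t3 htS)⟩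
  have hinj : Set.InjOn (fun t => ln L p t) ((S.erase p : Finset α) : Set α) := by
    intro t ht t' ht' e
    by_contra hne
    obtain ⟨htp, htS⟩ := mem_erase.1 (mem_coe.1 ht)
    obtain ⟨htp', htS'⟩ := mem_erase.1 (mem_coe.1 ht')
    obtain ⟨t1, t2, t3⟩ := ln_spec hL (Ne.symm htp)
    obtain ⟨t1', t2', t3'⟩ := ln_spec hL (Ne.symm htp')
    have e' : ln L p t = ln L p t' := e
    rw [← e'] at t3'
    exact no_three hS t1 t2 t3 t3' hp htS htS' (Ne.symm htp) (Ne.symm htp') hne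
  have hN2 : (((Steiner.blocks L).filter (fun ℓ => p ∈ ℓ)).filter
      (fun n => ∀ z ∈ n, z ∈ S → z = p)).card = 2 := by
    have h1 := congrArg Finset.card hside
    rw [card_image_of_injOn hinj, card_erase_of_mem hp, hS4] at h1
    have h2 : ((Steiner.blocks L).filter (fun ℓ => p ∈ ℓ)).filter
        (fun n => ∀ z ∈ n, z ∈ S → z = p) ⊆ (Steiner.blocks L).filter (fun ℓ => p ∈ ℓ) :=
      filter_subset _ _
    have h3 := Finset.card_sdiff_of_subset h2
    have h4 := Finset.card_le_card h2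
    omega
  obtain ⟨m1, m2, hm12, hNeq⟩ := Finset.card_eq_two.1 hN2
  have hm1 := (hNmem m1).1 (by rw [hNeq]; simp)
  have hm2 := (hNmem m2).1 (by rw [hNeq]; simp)
  obtain ⟨q1, hq1, hq1off, hq1u⟩ := off_on_line hα hL hS4 hS hp hm1.1.1 hm1.1.2 hm1.2
  obtain ⟨q2, hq2, hq2off, hq2u⟩ := off_on_line hα hL hS4 hS hp hm2.1.1 hm2.1.2 hm2.2
  have hoffS : ∀ y, Off L S y → y ∉ S := by
    intro y hy hyS
    obtain ⟨t, ht, hty⟩ : ∃ t ∈ S, t ≠ y := by
      have h1 : 1 < S.card := by rw [hS4]; norm_num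
      obtain ⟨a, ha, b, hb, hab⟩ := Finset.one_lt_card.1 h1
      by_cases c : a = y
      · exact ⟨b, hb, fun e => hab (c.trans e.symm)⟩
      · exact ⟨a, ha, c⟩
    obtain ⟨t1, t2, t3⟩ := ln_spec hL (Ne.symm hty)
    have h6 := hy _ t1 t2
    exact absurd h6 (not_le.2 (Finset.one_lt_card.2
      ⟨y, mem_inter.2 ⟨t2, hyS⟩, t, mem_inter.2 ⟨t3, ht⟩, Ne.symm hty⟩))
  have hq1S := hoffS q1 hq1off
  have hq2S := hoffS q2 hq2off
  have hq1p : q1 ≠ p := fun e => hq1S (e ▸ hp)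
  have hq12 : q1 ≠ q2 := by
    intro e
    exact hm12 (line_unique hL hm1.1.1 hm2.1.1 hq1p hq1 hm1.1.2 (e ▸ hq2) hm2.1.2)
  have hall : ∀ y, Off L S y → y = q1 ∨ y = q2 := by
    intro y hy
    have hyS := hoffS y hy
    have hyp : p ≠ y := fun e => hyS (e ▸ hp)
    obtain ⟨t1, t2, t3⟩ := ln_spec hL hyp
    have hmem : ln L p y ∈ ((Steiner.blocks L).filter (fun ℓ => p ∈ ℓ)).filter
        (fun n => ∀ z ∈ n, z ∈ S → z = p) := by
      rw [hNmem]
      refine ⟨⟨t1, t2⟩, ?_⟩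
      intro z hz hzS
      have hc := hy _ t1 t3
      exact Finset.card_le_one.1 hc z (mem_inter.2 ⟨hz, hzS⟩) p (mem_inter.2 ⟨t2, hp⟩)
    rw [hNeq, mem_insert, mem_singleton] at hmem
    rcases hmem with e | e
    · exact Or.inl (hq1u y (e ▸ t3) hy)
    · exact Or.inr (hq2u y (e ▸ t3) hy)
  have hKarc : IsArc L (insert q1 (insert q2 S)) := by
    apply arc_insert (arc_insert hS hq2off)
    intro ℓ hℓ hq1ℓ
    by_cases hq2ℓ : q2 ∈ ℓ
    · have hempty : ℓ ∩ S = ∅ := by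
        by_contra hne
        obtain ⟨c, hc⟩ := Finset.nonempty_iff_ne_empty.2 hne
        obtain ⟨hc1, hc2⟩ := mem_inter.1 hc
        have hone := hq1off ℓ hℓ hq1ℓ
        have hcS : ∀ z ∈ ℓ, z ∈ S → z = c := fun z hz hzS =>
          Finset.card_le_one.1 hone z (mem_inter.2 ⟨hz, hzS⟩) c hc
        obtain ⟨y, -, -, hyu⟩ := off_on_line hα hL hS4 hS hc2 hℓ hc1 hcS
        exact hq12 ((hyu q1 hq1ℓ hq1off).trans (hyu q2 hq2ℓ hq2off).symm)
      have hsub : ℓ ∩ insert q2 S ⊆ {q2} := by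
        intro z hz
        rw [mem_inter, mem_insert] at hz
        rcases hz.2 with e | e
        · exact mem_singleton.2 e
        · have h7 : z ∈ ℓ ∩ S := mem_inter.2 ⟨hz.1, e⟩
          rw [hempty] at h7
          exact absurd h7 (Finset.notMem_empty z)
      exact (Finset.card_le_card hsub).trans (by simp)
    · have hsub : ℓ ∩ insert q2 S ⊆ ℓ ∩ S := by
        intro z hz
        rw [mem_inter, mem_insert] at hz
        rcases hz.2 with e | e
        · exact absurd (e ▸ hz.1) hq2ℓ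
        · exact mem_inter.2 ⟨hz.1, e⟩
      exact (Finset.card_le_card hsub).trans (hq1off ℓ hℓ hq1ℓ)
  have hKcard : (insert q1 (insert q2 S)).card = 6 := by
    rw [card_insert_of_notMem, card_insert_of_notMem hq2S, hS4]
    simp only [mem_insert, not_or]
    exact ⟨hq12, hq1S⟩
  refine ⟨insert q1 (insert q2 S), ⟨⟨hKcard, hKarc⟩, ?_⟩, ?_⟩
  · exact (subset_insert _ _).trans (subset_insert _ _)
  · rintro K' ⟨⟨hK6, hKarc'⟩, hSK⟩
    have hoffK : ∀ y ∈ K', y ∉ S → Off L S y := by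
      intro y hyK hyS ℓ hℓ hyℓ
      by_contra hcon
      obtain ⟨a, ha, b, hb, hab⟩ := Finset.one_lt_card.1 (not_le.1 hcon)
      obtain ⟨ha1, ha2⟩ := mem_inter.1 ha
      obtain ⟨hb1, hb2⟩ := mem_inter.1 hb
      exact no_three hKarc' hℓ ha1 hb1 hyℓ (hSK ha2) (hSK hb2) hyK hab
        (fun e => hyS (e ▸ ha2)) (fun e => hyS (e ▸ hb2))
    apply Finset.eq_of_subset_of_card_le
    · intro y hy
      by_cases hyS : y ∈ S
      · exact mem_insert_of_mem (mem_insert_of_mem hyS)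
      · rcases hall y (hoffK y hy hyS) with e | e
        · rw [e]
          exact mem_insert_self _ _
        · rw [e]
          exact mem_insert_of_mem (mem_insert_self _ _)
    · rw [hKcard, hK6]

/-- A hyperoval exists. -/
theorem exists_hyp (hα : Fintype.card α = 21) {L : Set (Finset α)}
    (hL : IsSteinerSystem 2 5 L) : ∃ H : Finset α, IsHyp L H := by
  obtain ⟨S, hS4, hS⟩ := exists_arc4 hα hL
  obtain ⟨K, ⟨hK, -⟩, -⟩ := arc4_hyp hα hL hS4 hS
  exact ⟨K, hK⟩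

end Plane4
end Cfsg.Agent.Lib.Helper28
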