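import Cfsg.Agent.Lib.Helper4.Steiner

set_option autoImplicit false

namespace Cfsg.Agent.Lib.Helper28
namespace Plane4

open Cfsg Finset

/-! ### The model of the plane of order four built on six points

The points are six points together with the fifteen fixed-point-free involutions of the six
points; the lines are the fifteen pairs of points (each with the three involutions swapping
the pair) and the six families of five pairwise disjoint involutions. -/

/-- The fifteen fixed-point-free involutions of six points, as a flat table. -/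
def synFlat : List ℕ := [1, 0, 3, 2, 5, 4, 1, 0, 4, 5, 2, 3, 1, 0, 5, 4, 3, 2, 2, 3, 0, 1, 5, 4, 2, 4, 0, 5, 1, 3, 2, 5, 0, 4, 3, 1, 3, 2, 1, 0, 5, 4, 3, 4, 5, 0, 1, 2, 3, 5, 4, 0, 2, 1, 4, 2, 1, 5, 0, 3, 4, 3, 5, 1, 0, 2, 4, 5, 3, 2, 0, 1, 5, 2, 1, 4, 3, 0, 5, 3, 4, 1, 2, 0, 5, 4, 3, 2, 1, 0]

/-- The `k`-th fixed-point-free involution of six points. -/
def synF (k : Fin 15) (i : Fin 6) : Fin 6 :=
  ⟨synFlat.getD (6 * k.val + i.val) 0 % 6, Nat.mod_lt _ (by norm_num)⟩

/-- The six families of five pairwise disjoint involutions, as a flat table. -/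
def totFlat : List ℕ := [0, 4, 8, 10, 12, 0, 5, 7, 9, 13, 1, 3, 7, 11, 12, 1, 5, 6, 10, 14, 2, 3, 8, 9, 14, 2, 4, 6, 11, 13]

/-- Membership of an involution in a family. -/
def inTot (t : Fin 6) (k : Fin 15) : Bool :=
  (List.range 5).any (fun r => totFlat.getD (5 * t.val + r) 0 == k.val)

/-- The points of the model. -/
abbrev M : Type := Fin 6 ⊕ Fin 15

/-- The line of the model through two of the six points. -/
def secSet (i j : Fin 6) : Finset M :=
  {Sum.inl i, Sum.inl j} ∪ (univ.filter (fun k : Fin 15 => synF k i = j)).map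
    ⟨Sum.inr, Sum.inr_injective⟩

/-- The line of the model given by a family. -/
def totSet (t : Fin 6) : Finset M :=
  (univ.filter (fun k : Fin 15 => inTot t k = true)).map ⟨Sum.inr, Sum.inr_injective⟩

/-- The lines of the model. -/
def LM : Set (Finset M) :=
  {B | (∃ i j : Fin 6, i ≠ j ∧ B = secSet i j) ∨ ∃ t : Fin 6, B = totSet t}

/-- The function on six points with prescribed values. -/
def mk6 (a b c d e f : Fin 6) : Fin 6 → Fin 6 := fun i =>
  match i with
  | 0 => a
  | 1 => b
  | 2 => c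
  | 3 => d
  | 4 => e
  | 5 => f

theorem mk6_eq (π : Fin 6 → Fin 6) : mk6 (π 0) (π 1) (π 2) (π 3) (π 4) (π 5) = π := by
  funext i
  fin_cases i <;> rfl

theorem synF_ne : ∀ (k : Fin 15) (i : Fin 6), synF k i ≠ i := by decide +kernel

theorem synF_inj : ∀ k k' : Fin 15, (∀ i, synF k i = synF k' i) → k = k' := by decide +kernel

theorem synF_complete : ∀ a b c d e f : Fin 6,
    (∀ i, mk6 a b c d e f i ≠ i) → (∀ i, mk6 a b c d e f (mk6 a b c d e f i) = i) →
    ∃ k : Fin 15, ∀ i, synF k i = mk6 a b c d e f i := by decide +kernel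

theorem tot_exists : ∀ k1 k2 : Fin 15, (∀ i, synF k1 i ≠ synF k2 i) →
    ∃ t, inTot t k1 = true ∧ inTot t k2 = true := by decide +kernel

theorem tot_four : ∀ k1 k2 k3 k4 : Fin 15, (∀ i, synF k1 i ≠ synF k2 i) →
    (∀ i, synF k1 i ≠ synF k3 i) → (∀ i, synF k2 i ≠ synF k3 i) →
    (∀ i, synF k1 i ≠ synF k4 i) → (∀ i, synF k2 i ≠ synF k4 i) →
    (∀ i, synF k3 i ≠ synF k4 i) →
    ∀ t, inTot t k1 = true → inTot t k2 = true → inTot t k3 = true := by decide +kernel

theorem tot_disj : ∀ (t : Fin 6) (k k' : Fin 15), inTot t k = true → inTot t k' = true →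
    k ≠ k' → ∀ i, synF k i ≠ synF k' i := by decide +kernel

theorem tot_unique : ∀ (t t' : Fin 6) (k1 k2 : Fin 15), k1 ≠ k2 → inTot t k1 = true →
    inTot t k2 = true → inTot t' k1 = true → inTot t' k2 = true → t = t' := by decide +kernel

theorem tot_two : ∀ t : Fin 6, ∃ k1 k2 : Fin 15, k1 ≠ k2 ∧ inTot t k1 = true ∧
    inTot t k2 = true := by decide +kernel

theorem secSet_card : ∀ i j : Fin 6, i ≠ j → (secSet i j).card = 5 := by decide +kernel

theorem totSet_card : ∀ t : Fin 6, (totSet t).card = 5 := by decide +kernel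

theorem mem_secSet_inr {i j : Fin 6} {k : Fin 15} : Sum.inr k ∈ secSet i j ↔ synF k i = j := by
  simp [secSet]

theorem mem_secSet_inl {i j i' : Fin 6} : Sum.inl i' ∈ secSet i j ↔ (i' = i ∨ i' = j) := by
  simp [secSet]

theorem mem_totSet_inr {t : Fin 6} {k : Fin 15} : Sum.inr k ∈ totSet t ↔ inTot t k = true := by
  simp [totSet]

theorem card_M : Fintype.card M = 21 := by
  simp [Fintype.card_sum]

end Plane4
end Cfsg.Agent.Lib.Helper28
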