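import Mathlib

set_option autoImplicit false

namespace Cfsg.Agent.Lib.Helper28
namespace Rank3

open MulAction

variable {H X : Type*} [Group H] [MulAction H X]

/-- A nontrivial normal subgroup of a faithful transitive group of degree 100 whose point
stabiliser has orbits of sizes 1, 22, 77 is transitive. -/
theorem normal_trans [IsPretransitive H X] (x : X) (hX : Nat.card X = 100)
    (hf : ∀ h : H, (∀ y : X, h • y = y) → h = 1)
    (P : X → Prop) (hPx : ¬ P x) (h22 : {y : X | P y}.ncard = 22)
    (h77 : {y : X | y ≠ x ∧ ¬ P y}.ncard = 77)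
    (htr : ∀ y y' : X, y ≠ x → y' ≠ x → (P y ↔ P y') → ∃ h : H, h • x = x ∧ h • y = y')
    (N : Subgroup H) [hNn : N.Normal] (hN : N ≠ ⊥) :
    ∀ y : X, ∃ n ∈ N, n • x = y := by
  classical
  have : Finite X := Nat.finite_of_card_ne_zero (by rw [hX]; norm_num)
  -- some element of N moves x
  have hmove : ∃ n ∈ N, n • x ≠ x := by
    by_contra hcon
    push Not at hcon
    apply hN
    rw [Subgroup.eq_bot_iff_forall]
    intro n hn
    apply hf
    intro y
    obtain ⟨g, rfl⟩ := MulAction.exists_smul_eq H x y
    have h1 := hcon (g⁻¹ * n * g) (hNn.conj_mem' n hn g)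
    have h2 : n • g • x = g • ((g⁻¹ * n * g) • x) := by
      rw [← mul_smul, ← mul_smul]
      congr 1
      group
    rw [h2, h1]
  obtain ⟨n0, hn0, hn0x⟩ := hmove
  have hB : IsBlock H (orbit N x) := IsBlock.orbit_of_normal x
  have hdvd : (orbit N x).ncard ∣ 100 := by
    rw [← hX]
    exact hB.ncard_dvd_card ⟨x, mem_orbit_self x⟩
  have hmem : ∀ y : X, y ∈ orbit N x ↔ ∃ n ∈ N, n • x = y := by
    intro y
    rw [mem_orbit_iff]
    constructor
    · rintro ⟨n, hn⟩
      exact ⟨n.1, n.2, hn⟩
    · rintro ⟨n, hn, e⟩
      exact ⟨⟨n, hn⟩, e⟩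
  have hinv : ∀ h : H, h • x = x → ∀ y ∈ orbit N x, h • y ∈ orbit N x := by
    intro h hx y hy
    rw [hmem] at hy ⊢
    obtain ⟨n, hn, rfl⟩ := hy
    refine ⟨h * n * h⁻¹, hNn.conj_mem n hn h, ?_⟩
    have h2 : (h * n * h⁻¹) • x = h • n • (h⁻¹ • x) := by
      rw [← mul_smul, ← mul_smul]
    rw [h2]
    have h3 : h⁻¹ • x = x := by
      rw [inv_smul_eq_iff, hx]
    rw [h3]
  have hxB : x ∈ orbit N x := mem_orbit_self x
  have hy0 : n0 • x ∈ orbit N x := (hmem _).2 ⟨n0, hn0, rfl⟩
  intro y
  rw [← hmem]
  by_contra hy1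
  have hy1x : y ≠ x := by
    intro h
    rw [h] at hy1
    exact hy1 hxB
  by_cases hP : P (n0 • x)
  · have hPy1 : ¬ P y := by
      intro h
      obtain ⟨h', e1, e2⟩ := htr (n0 • x) y hn0x hy1x (by simp [hP, h])
      apply hy1
      rw [← e2]
      exact hinv h' e1 _ hy0
    have e : orbit N x = insert x {y : X | P y} := by
      ext z
      rw [Set.mem_insert_iff, Set.mem_ofPred_eq]
      constructor
      · intro hz
        by_cases hzx : z = x
        · exact Or.inl hzx
        · right
          by_contra hPz
          obtain ⟨h', e1, e2⟩ := htr z y hzx hy1x (by simp [hPz, hPy1])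
          apply hy1
          rw [← e2]
          exact hinv h' e1 _ hz
      · rintro (hz | hz)
        · rw [hz]
          exact hxB
        · have hzx : z ≠ x := by
            intro h
            rw [h] at hz
            exact hPx hz
          obtain ⟨h', e1, e2⟩ := htr (n0 • x) z hn0x hzx (by simp [hP, hz])
          rw [← e2]
          exact hinv h' e1 _ hy0
    rw [e, Set.ncard_insert_of_notMem (by simpa using hPx) (Set.toFinite _), h22] at hdvd
    norm_num at hdvd
  · have hPy1 : P y := by
      by_contra h
      obtain ⟨h', e1, e2⟩ := htr (n0 • x) y hn0x hy1x (by simp [hP, h])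
      apply hy1
      rw [← e2]
      exact hinv h' e1 _ hy0
    have e : orbit N x = insert x {y : X | y ≠ x ∧ ¬ P y} := by
      ext z
      rw [Set.mem_insert_iff, Set.mem_ofPred_eq]
      constructor
      · intro hz
        by_cases hzx : z = x
        · exact Or.inl hzx
        · right
          refine ⟨hzx, ?_⟩
          intro hPz
          obtain ⟨h', e1, e2⟩ := htr z y hzx hy1x (by simp [hPz, hPy1])
          apply hy1
          rw [← e2]
          exact hinv h' e1 _ hz
      · rintro (hz | ⟨hzx, hz⟩)
        · rw [hz]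
          exact hxB
        · obtain ⟨h', e1, e2⟩ := htr (n0 • x) z hn0x hzx (by simp [hP, hz])
          rw [← e2]
          exact hinv h' e1 _ hy0
    rw [e, Set.ncard_insert_of_notMem (by simp) (Set.toFinite _), h77] at hdvd
    norm_num at hdvd

/-- Simplicity criterion: a faithful transitive group of degree 100 whose point stabiliser is a
homomorphic image of a simple group and has orbits of sizes 1, 22, 77 is simple. -/
theorem simple_abs {M : Type*} [Group M] [IsSimpleGroup M] [IsPretransitive H X] (x : X)
    (hX : Nat.card X = 100)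
    (hf : ∀ h : H, (∀ y : X, h • y = y) → h = 1)
    (P : X → Prop) (hPx : ¬ P x) (h22 : {y : X | P y}.ncard = 22)
    (h77 : {y : X | y ≠ x ∧ ¬ P y}.ncard = 77)
    (htr : ∀ y y' : X, y ≠ x → y' ≠ x → (P y ↔ P y') → ∃ h : H, h • x = x ∧ h • y = y')
    (φ : M →* H) (hφ2 : ∀ h : H, h • x = x → ∃ m, φ m = h) :
    IsSimpleGroup H := by
  classical
  have : Finite X := Nat.finite_of_card_ne_zero (by rw [hX]; norm_num)
  have : Nontrivial H := by
    have hne : ∃ y : X, y ≠ x := by
      by_contra hcon
      push Not at hcon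
      have : Nat.card X ≤ 1 := by
        rw [Finite.card_le_one_iff_subsingleton]
        exact ⟨fun a b => by rw [hcon a, hcon b]⟩
      omega
    obtain ⟨y, hy⟩ := hne
    obtain ⟨g, hg⟩ := MulAction.exists_smul_eq H x y
    refine ⟨⟨g, 1, ?_⟩⟩
    intro h
    rw [h, one_smul] at hg
    exact hy hg.symm
  refine ⟨fun N hNn => ?_⟩
  by_cases hN : N = ⊥
  · exact Or.inl hN
  right
  have htrN := normal_trans x hX hf P hPx h22 h77 htr N hN
  rcases (hNn.comap φ).eq_bot_or_eq_top with hK | hK
  · -- regular normal subgroup of order 100: impossible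
    exfalso
    have hreg : ∀ n ∈ N, n • x = x → n = 1 := by
      intro n hn hx
      obtain ⟨m, hm⟩ := hφ2 n hx
      have : m ∈ N.comap φ := by
        rw [Subgroup.mem_comap, hm]
        exact hn
      rw [hK, Subgroup.mem_bot] at this
      rw [← hm, this, map_one]
    have hcard : Nat.card ↥N = 100 := by
      rw [← hX]
      apply Nat.card_eq_of_bijective (fun n : ↥N => (n : H) • x)
      constructor
      · intro n1 n2 e
        have e' : (n1 : H) • x = (n2 : H) • x := e
        have h1 : ((n1 : H)⁻¹ * (n2 : H)) • x = x := by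
          rw [mul_smul, ← e', inv_smul_smul]
        have h2 := hreg _ (N.mul_mem (N.inv_mem n1.2) n2.2) h1
        apply Subtype.ext
        rw [inv_mul_eq_one] at h2
        exact h2
      · intro y
        obtain ⟨n, hn, e⟩ := htrN y
        exact ⟨⟨n, hn⟩, e⟩
    have : Finite ↥N := Nat.finite_of_card_ne_zero (by rw [hcard]; norm_num)
    have : Fact (Nat.Prime 5) := ⟨by norm_num⟩
    let S : Sylow 5 ↥N := default
    have hS : Nat.card (S : Subgroup ↥N) = 25 := by
      rw [Sylow.card_eq_multiplicity, hcard]
      have : (100 : ℕ).factorization 5 = 2 := by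
        rw [Nat.factorization_def _ (by norm_num : Nat.Prime 5)]
        have e : (100 : ℕ) = 5 ^ 2 * 4 := by norm_num
        rw [e, padicValNat.mul (by norm_num) (by norm_num), padicValNat.prime_pow,
          padicValNat.eq_zero_of_not_dvd (by norm_num)]
      rw [this]
      norm_num
    have hidx : (S : Subgroup ↥N).index = 4 := by
      have := Subgroup.card_mul_index (S : Subgroup ↥N)
      rw [hS, hcard] at this
      omega
    have h1 : Nat.card (Sylow 5 ↥N) = 1 := by
      have hd := Sylow.card_dvd_index S
      rw [hidx] at hd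
      have hm := card_sylow_modEq_one 5 ↥N
      have hle := Nat.le_of_dvd (by norm_num) hd
      unfold Nat.ModEq at hm
      omega
    have : Subsingleton (Sylow 5 ↥N) := by
      rw [← Finite.card_le_one_iff_subsingleton, h1]
    have hchar : (S : Subgroup ↥N).Characteristic := Sylow.characteristic_of_subsingleton S
    have hQn : ((S : Subgroup ↥N).map N.subtype).Normal :=
      ConjAct.normal_of_characteristic_of_normal
    have hQc : Nat.card ↥((S : Subgroup ↥N).map N.subtype) = 25 := by
      rw [← hS]
      exact (Nat.card_congr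
        ((S : Subgroup ↥N).equivMapOfInjective N.subtype N.subtype_injective).toEquiv).symm
    have hQ : (S : Subgroup ↥N).map N.subtype ≠ ⊥ := by
      intro h
      rw [h, Subgroup.card_bot] at hQc
      omega
    have htrQ := normal_trans x hX hf P hPx h22 h77 htr _ hQ
    have : Finite ↥((S : Subgroup ↥N).map N.subtype) :=
      Nat.finite_of_card_ne_zero (by rw [hQc]; norm_num)
    have hle : Nat.card X ≤ Nat.card ↥((S : Subgroup ↥N).map N.subtype) := by
      apply Nat.card_le_card_of_surjective
        (fun q : ↥((S : Subgroup ↥N).map N.subtype) => (q : H) • x)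
      intro y
      obtain ⟨q, hq, e⟩ := htrQ y
      exact ⟨⟨q, hq⟩, e⟩
    rw [hX, hQc] at hle
    omega
  · -- the point stabiliser lies in N
    rw [Subgroup.eq_top_iff']
    intro h
    obtain ⟨n, hn, e⟩ := htrN (h • x)
    have h1 : (n⁻¹ * h) • x = x := by
      rw [mul_smul, ← e, inv_smul_smul]
    obtain ⟨m, hm⟩ := hφ2 _ h1
    have hmN : φ m ∈ N := by
      have : m ∈ N.comap φ := by
        rw [hK]
        exact Subgroup.mem_top m
      exact this
    rw [hm] at hmN
    have := N.mul_mem hn hmN
    rwa [mul_inv_cancel_left] at this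

/-- The order of a transitive group with point stabiliser the bijective image of `M`. -/
theorem card_abs {M : Type*} [Group M] [IsPretransitive H X] (x : X)
    (φ : M →* H) (hφi : Function.Injective φ) (hφ1 : ∀ m, φ m • x = x)
    (hφ2 : ∀ h : H, h • x = x → ∃ m, φ m = h) :
    Nat.card H = Nat.card M * Nat.card X := by
  rw [← Subgroup.card_mul_index (stabilizer H x), index_stabilizer_of_transitive]
  congr 1
  apply Nat.card_eq_of_bijective (fun h : ↥(stabilizer H x) => (hφ2 h.1 h.2).choose)
  constructor
  · intro h1 h2 e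
    apply Subtype.ext
    have e1 := (hφ2 h1.1 h1.2).choose_spec
    have e2 := (hφ2 h2.1 h2.2).choose_spec
    have e' : (hφ2 h1.1 h1.2).choose = (hφ2 h2.1 h2.2).choose := e
    rw [← e1, ← e2, e']
  · intro m
    refine ⟨⟨φ m, hφ1 m⟩, ?_⟩
    apply hφi
    exact (hφ2 (φ m) (hφ1 m)).choose_spec

end Rank3
end Cfsg.Agent.Lib.Helper28
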