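import Mathlib
import Cfsg.Prelude.Def_GeometricClasses
import Cfsg.Agent.Lib.Helper28.Transv
import Cfsg.Agent.Lib.Helper28.SLGen

set_option autoImplicit false

namespace Cfsg.Agent.Lib.Helper28

open Cfsg
open scoped Matrix

variable {F : Type*} [Field F] {n : ℕ}

/-- The stabiliser of `W` in the special linear group is transitive on the vectors outside `W`. -/
theorem exists_stab_map (W : Submodule F (Fin n → F)) (hW0 : W ≠ ⊥) (a b : Fin n → F)
    (ha : a ∉ W) (hb : b ∉ W) :
    ∃ p : Matrix.GeneralLinearGroup (Fin n) F, p ∈ Geo.specialLinear (Fin n) F ∧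
      p ∈ Geo.subspaceStabilizer W ∧ (p : Matrix (Fin n) (Fin n) F) *ᵥ a = b := by
  obtain ⟨fa, hfa1, hfa2⟩ := exists_dual_eq_one W a ha
  obtain ⟨fb, hfb1, hfb2⟩ := exists_dual_eq_one W b hb
  obtain ⟨f0, hf0a, hf0b, hf0W⟩ : ∃ f : Module.Dual F (Fin n → F),
      f a ≠ 0 ∧ f b ≠ 0 ∧ ∀ w ∈ W, f w = 0 := by
    by_cases h1 : fa b = 0
    · by_cases h2 : fb a = 0
      · refine ⟨fa + fb, ?_, ?_, ?_⟩
        · rw [LinearMap.add_apply, hfa1, h2, add_zero]; exact one_ne_zero
        · rw [LinearMap.add_apply, h1, hfb1, zero_add]; exact one_ne_zero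
        · intro w hw; rw [LinearMap.add_apply, hfa2 w hw, hfb2 w hw, add_zero]
      · exact ⟨fb, h2, by rw [hfb1]; exact one_ne_zero, hfb2⟩
    · exact ⟨fa, by rw [hfa1]; exact one_ne_zero, h1, hfa2⟩
  set f : Module.Dual F (Fin n → F) := (f0 a)⁻¹ • f0 with hf
  have hfa : f a = 1 := by rw [hf, LinearMap.smul_apply, smul_eq_mul, inv_mul_cancel₀ hf0a]
  have hfb : f b ≠ 0 := by
    rw [hf, LinearMap.smul_apply, smul_eq_mul]; exact mul_ne_zero (inv_ne_zero hf0a) hf0b
  have hfW : ∀ w ∈ W, f w = 0 := by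
    intro w hw; rw [hf, LinearMap.smul_apply, hf0W w hw, smul_zero]
  have h2 : 1 + f (b - a) = f b := by rw [map_sub, hfa]; ring
  obtain ⟨g2, hg2d, hg2⟩ := exists_dilatransvection f (b - a) (by rw [h2]; exact hfb)
  obtain ⟨w0, hw0, hw00⟩ := Submodule.exists_mem_ne_zero_of_ne_bot hW0
  have hw0a : w0 ∉ Submodule.span F {a} := by
    rw [Submodule.mem_span_singleton]
    rintro ⟨c, hc⟩
    have hc0 : c ≠ 0 := by rintro rfl; rw [zero_smul] at hc; exact hw00 hc.symm
    apply ha
    have : a = c⁻¹ • w0 := by rw [← hc, smul_smul, inv_mul_cancel₀ hc0, one_smul]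
    rw [this]; exact W.smul_mem _ hw0
  obtain ⟨f0', hf0'1, hf0'2⟩ := exists_dual_eq_one (Submodule.span F {a}) w0 hw0a
  have hf0'a : f0' a = 0 := hf0'2 a (Submodule.mem_span_singleton_self a)
  set f1 : Module.Dual F (Fin n → F) := ((f b)⁻¹ - 1) • f0' with hf1
  have hf1a : f1 a = 0 := by rw [hf1, LinearMap.smul_apply, hf0'a, smul_zero]
  have h1 : 1 + f1 w0 = (f b)⁻¹ := by
    rw [hf1, LinearMap.smul_apply, hf0'1, smul_eq_mul]; ring
  obtain ⟨g1, hg1d, hg1⟩ := exists_dilatransvection f1 w0 (by rw [h1]; exact inv_ne_zero hfb)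
  refine ⟨g2 * g1, ?_, ?_, ?_⟩
  · rw [mem_specialLinear_iff, map_mul, Units.val_mul, hg2d, hg1d, h2, h1, mul_inv_cancel₀ hfb]
  · apply Subgroup.mul_mem
    · rw [mem_subspaceStabilizer_iff]
      intro v
      rw [hg2]
      constructor
      · intro hv; rw [hfW v hv, zero_smul, add_zero]; exact hv
      · intro hv
        have h3 : f (v + f v • (b - a)) = 0 := hfW _ hv
        rw [map_add, map_smul, smul_eq_mul] at h3
        have h4 : f v * f b = 0 := by rw [← h2]; linear_combination h3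
        have h5 : f v = 0 := by
          rcases mul_eq_zero.mp h4 with h | h
          · exact h
          · exact absurd h hfb
        rw [h5, zero_smul, add_zero] at hv
        exact hv
    · rw [mem_subspaceStabilizer_iff]
      intro v
      rw [hg1]
      exact (Submodule.add_mem_iff_left W (W.smul_mem _ hw0)).symm
  · rw [Units.val_mul, ← Matrix.mulVec_mulVec, hg1, hf1a, zero_smul, add_zero, hg2, hfa, one_smul]
    abel

/-- The stabiliser of a proper nonzero subspace is a maximal subgroup of the special linear group. -/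
theorem subspaceStabilizer_maximal (hn : 2 ≤ n) (W : Submodule F (Fin n → F)) (hW0 : W ≠ ⊥)
    (hW1 : W ≠ ⊤) :
    Geo.IsMaximalIn (Geo.specialLinear (Fin n) F)
      (Geo.subspaceStabilizer W ⊓ Geo.specialLinear (Fin n) F) := by
  constructor
  · refine lt_of_le_of_ne inf_le_right ?_
    intro heq
    obtain ⟨g', hg'1, hg'2⟩ := exists_sl_not_stab W hW0 hW1
    have : g' ∈ Geo.subspaceStabilizer W ⊓ Geo.specialLinear (Fin n) F := by rw [heq]; exact hg'1
    exact hg'2 this.1
  · intro M hPM hMS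
    by_cases hMP : M ≤ Geo.subspaceStabilizer W ⊓ Geo.specialLinear (Fin n) F
    · left; exact le_antisymm hMP hPM
    · right
      refine le_antisymm hMS ?_
      obtain ⟨g, hgM, hgP⟩ := SetLike.not_le_iff_exists.mp hMP
      have hgW : g ∉ Geo.subspaceStabilizer W := fun h => hgP ⟨h, hMS hgM⟩
      obtain ⟨h, hhM, w, hw, hhw⟩ : ∃ h ∈ M, ∃ w ∈ W,
          (h : Matrix (Fin n) (Fin n) F) *ᵥ w ∉ W := by
        rw [mem_subspaceStabilizer_iff] at hgW
        push Not at hgW
        obtain ⟨v, hv⟩ := hgW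
        rcases hv with ⟨hv1, hv2⟩ | ⟨hv1, hv2⟩
        · exact ⟨g, hgM, v, hv1, hv2⟩
        · refine ⟨g⁻¹, M.inv_mem hgM, (g : Matrix (Fin n) (Fin n) F) *ᵥ v, hv2, ?_⟩
          rw [Matrix.mulVec_mulVec, ← Units.val_mul, inv_mul_cancel, Units.val_one,
            Matrix.one_mulVec]
          exact hv1
      have hmove : ∀ a : Fin n → F, ∃ m ∈ M, (m : Matrix (Fin n) (Fin n) F) *ᵥ a ∈ W := by
        intro a
        by_cases ha : a ∈ W
        · exact ⟨1, M.one_mem, by rw [Units.val_one, Matrix.one_mulVec]; exact ha⟩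
        · obtain ⟨p, hp1, hp2, hp3⟩ := exists_stab_map W hW0 a _ ha hhw
          refine ⟨h⁻¹ * p, M.mul_mem (M.inv_mem hhM) (hPM ⟨hp2, hp1⟩), ?_⟩
          rw [Units.val_mul, ← Matrix.mulVec_mulVec, hp3, Matrix.mulVec_mulVec, ← Units.val_mul,
            inv_mul_cancel, Units.val_one, Matrix.one_mulVec]
          exact hw
      apply specialLinear_le_of_transv hn
      rintro t ht ⟨f, a, hfa, hta⟩
      obtain ⟨m, hmM, hma⟩ := hmove a
      have hconj : m * t * m⁻¹ ∈ Geo.subspaceStabilizer W ⊓ Geo.specialLinear (Fin n) F := by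
        refine Subgroup.mem_inf.mpr ⟨?_, ?_⟩
        · rw [mem_subspaceStabilizer_iff]
          intro v
          have e : ((m * t * m⁻¹ : Matrix.GeneralLinearGroup (Fin n) F) : Matrix (Fin n) (Fin n) F) *ᵥ v
              = v + f (((m⁻¹ : Matrix.GeneralLinearGroup (Fin n) F) : Matrix (Fin n) (Fin n) F) *ᵥ v) •
                ((m : Matrix (Fin n) (Fin n) F) *ᵥ a) := by
            rw [Units.val_mul, Units.val_mul, ← Matrix.mulVec_mulVec, ← Matrix.mulVec_mulVec, hta,
              Matrix.mulVec_add, Matrix.mulVec_smul, Matrix.mulVec_mulVec, ← Units.val_mul,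
              mul_inv_cancel, Units.val_one, Matrix.one_mulVec]
          rw [e]
          exact (Submodule.add_mem_iff_left W (W.smul_mem _ hma)).symm
        · have hN : (Geo.specialLinear (Fin n) F).Normal := by
            unfold Geo.specialLinear; infer_instance
          exact hN.conj_mem t ht m
      have h3 := hPM hconj
      have : t = m⁻¹ * (m * t * m⁻¹) * m := by group
      rw [this]
      exact M.mul_mem (M.mul_mem (M.inv_mem hmM) h3) hmM

end Cfsg.Agent.Lib.Helper28
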