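import Mathlib

set_option autoImplicit false

namespace Cfsg.Agent.Lib.Helper28

/-- Conjugating a member of a Sylow subgroup lands in the translated Sylow subgroup. -/
theorem conj_mem_smul_sylow {K : Type*} [Group K] {p : ℕ} (Q : Sylow p K) (k y : K)
    (hy : y ∈ (Q : Subgroup K)) : k * y * k⁻¹ ∈ ((k • Q : Sylow p K) : Subgroup K) := by
  rw [Sylow.smul_def, Sylow.pointwise_smul_def, Subgroup.mem_pointwise_smul_iff_inv_smul_mem]
  simpa [MulAut.smul_def, mul_assoc] using hy

/-- A `p`-subgroup is conjugate into any given Sylow `p`-subgroup. -/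
theorem exists_conj_le_sylow {K : Type*} [Group K] [Finite K] {p : ℕ} [Fact p.Prime]
    (P : Sylow p K) (Q : Subgroup K) (hQ : IsPGroup p Q) :
    ∃ k : K, ∀ q ∈ Q, k * q * k⁻¹ ∈ (P : Subgroup K) := by
  obtain ⟨R, hR⟩ := hQ.exists_le_sylow
  obtain ⟨k, hk⟩ := MulAction.exists_smul_eq K R P
  refine ⟨k, fun q hq => ?_⟩
  rw [← hk]
  exact conj_mem_smul_sylow R k q (hR hq)

/-- An element of `p`-power order is conjugate into any given Sylow `p`-subgroup. -/
theorem exists_conj_mem_sylow {K : Type*} [Group K] [Finite K] {p : ℕ} [Fact p.Prime]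
    (P : Sylow p K) (y : K) (hy : ∃ n : ℕ, orderOf y = p ^ n) :
    ∃ k : K, k * y * k⁻¹ ∈ (P : Subgroup K) := by
  obtain ⟨n, hn⟩ := hy
  have hp : IsPGroup p (Subgroup.zpowers y) := by
    apply IsPGroup.of_card (n := n)
    rw [Nat.card_zpowers, hn]
  obtain ⟨k, hk⟩ := exists_conj_le_sylow P _ hp
  exact ⟨k, hk y (Subgroup.mem_zpowers y)⟩

/-- Conjugation preserves the order of an element. -/
theorem orderOf_conj' {K : Type*} [Group K] (g x : K) : orderOf (g * x * g⁻¹) = orderOf x := by
  have h := orderOf_injective (MulAut.conj g).toMonoidHom (MulAut.conj g).injective x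
  simpa [MulAut.conj_apply] using h

end Cfsg.Agent.Lib.Helper28
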