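import Cfsg.Agent.Lib.Helper28.Plane4Iso

set_option autoImplicit false
set_option linter.unusedSectionVars false

namespace Cfsg.Agent.Lib.Helper28
namespace Plane4

open Cfsg Finset
open Cfsg.Agent.Lib.Helper4

/-- The table of collinear triples of involutions. -/
def colT : ℕ := 361178550229302857102384141325476828146317774854230820455915636717883027068248952232696493690868490143848554272525689515075926847230928747534787070116891797655535045853063130702660386469278230678403821903038594823804108007285386186895905877204737200141972535841242421243720791195795809759927711509776190966667769310840878109011235038521558373365899408067309212097612014837544189801749650931672379148416891517819417982637496720032469300727563599228206270739716741448945176568726688076688551877237710153121011952821008436137868774006204570488105089527570127339350782641835175110739070325955796591388892355504056086373328380174920534077519841325870351341697010361701214290195685682353828715953871644535035534377551591707517768740499117874536704517201787242292615040901308028023284647329716279550152254292150029235785914025828628886442844271772726783990105899899249098760458412204865823415640273007854034623232894192921362720351246806863766919082814378519582443081968319098149042641175289358191772747415284680359936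

/-- Three involutions lie on a line of the model. -/
def col (x y z : Fin 15) : Bool := Nat.testBit colT (225 * x.val + 15 * y.val + z.val)

/-- Two distinct involutions in a common family. -/
def cot (a b : Fin 15) : Prop := a ≠ b ∧ ∃ t : Fin 6, inTot t a = true ∧ inTot t b = true

instance cotDec (a b : Fin 15) : Decidable (cot a b) := by
  unfold cot
  infer_instance

/-- Extension of a three-point arc. -/
def ok4 (k1 k2 k3 k4 : Fin 15) : Prop :=
  k1 ≠ k4 ∧ k2 ≠ k4 ∧ k3 ≠ k4 ∧ col k1 k2 k4 = false ∧ col k1 k3 k4 = false ∧
    col k2 k3 k4 = false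

instance ok4Dec (k1 k2 k3 k4 : Fin 15) : Decidable (ok4 k1 k2 k3 k4) := by
  unfold ok4
  infer_instance

/-- Extension of a four-point arc. -/
def ok5 (k1 k2 k3 k4 k5 : Fin 15) : Prop :=
  k1 ≠ k5 ∧ k2 ≠ k5 ∧ k3 ≠ k5 ∧ k4 ≠ k5 ∧ col k1 k2 k5 = false ∧ col k1 k3 k5 = false ∧
    col k1 k4 k5 = false ∧ col k2 k3 k5 = false ∧ col k2 k4 k5 = false ∧ col k3 k4 k5 = false

instance ok5Dec (k1 k2 k3 k4 k5 : Fin 15) : Decidable (ok5 k1 k2 k3 k4 k5) := by
  unfold ok5
  infer_instance

/-- Extension of a five-point arc. -/
def ok6 (k1 k2 k3 k4 k5 k6 : Fin 15) : Prop :=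
  k1 ≠ k6 ∧ k2 ≠ k6 ∧ k3 ≠ k6 ∧ k4 ≠ k6 ∧ k5 ≠ k6 ∧ col k1 k2 k6 = false ∧
    col k1 k3 k6 = false ∧ col k1 k4 k6 = false ∧ col k1 k5 k6 = false ∧ col k2 k3 k6 = false ∧
    col k2 k4 k6 = false ∧ col k2 k5 k6 = false ∧ col k3 k4 k6 = false ∧ col k3 k5 k6 = false ∧
    col k4 k5 k6 = false

instance ok6Dec (k1 k2 k3 k4 k5 k6 : Fin 15) : Decidable (ok6 k1 k2 k3 k4 k5 k6) := by
  unfold ok6
  infer_instance

theorem no_path : ∀ k1 k2 k3 : Fin 15, cot k1 k2 → cot k1 k3 → k2 ≠ k3 → ¬ cot k2 k3 →
    ∀ k4 : Fin 15, ok4 k1 k2 k3 k4 → ∀ k5 : Fin 15, ok5 k1 k2 k3 k4 k5 →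
    ∀ k6 : Fin 15, ok6 k1 k2 k3 k4 k5 k6 → False := by decide +kernel

theorem col_sound : ∀ x y z : Fin 15, col x y z = true →
    (∃ t : Fin 6, inTot t x = true ∧ inTot t y = true ∧ inTot t z = true) ∨
    (∃ i : Fin 6, synF x i = synF y i ∧ synF x i = synF z i) := by decide +kernel

theorem two_tot : ∀ k : Fin 15, ∃ t t' : Fin 6, t ≠ t' ∧ inTot t k = true ∧ inTot t' k = true := by
  decide +kernel

end Plane4
end Cfsg.Agent.Lib.Helper28
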