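import Cfsg.Agent.Lib.Helper4.Stv10
import Cfsg.Agent.Lib.Helper4.GolayM12

set_option autoImplicit false

namespace Cfsg.Agent.Lib.Helper28
namespace Tri

open Cfsg Cfsg.Agent.Lib.Helper28 Cfsg.Agent.Lib.Helper4 Cfsg.Agent.Lib.Helper4.Golay
open Cfsg.Agent.Lib.Helper4.Stv
open scoped Pointwise

/-- The halves of an even lattice vector carry a code word. -/
theorem half_word (y : GolayPt → ℤ) (hy : y ∈ leechLattice) (he : ∀ k, (2 : ℤ) ∣ y k) :
    (fun k => ((y k / 2 : ℤ) : ZMod 2)) ∈ golayCode := by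
  obtain ⟨m, t, hyt, ht, -⟩ := leech_struct y hy
  have hm : (2 : ℤ) ∣ m := by
    have h1 := he none
    rw [hyt none] at h1
    omega
  obtain ⟨m', hm'⟩ := hm
  have e : (fun k => ((y k / 2 : ℤ) : ZMod 2)) = zword (fun k => m' + t k) := by
    funext k
    show ((y k / 2 : ℤ) : ZMod 2) = ((m' + t k : ℤ) : ZMod 2)
    congr 1
    rw [hyt k, hm']
    omega
  rw [e, zword_const_add]
  exact Submodule.add_mem _ (Submodule.smul_mem _ _ one_mem_golay) ht

theorem parity_all (x : GolayPt → ℤ) (hx : x ∈ leechLattice) (i j : GolayPt) :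
    x i % 2 = x j % 2 := by
  obtain ⟨m, y, hxy, -, -⟩ := leech_struct x hx
  rw [hxy i, hxy j]
  omega

/-- Two lattice vectors with odd coordinates that agree up to signs, and agree at the two
standard points, are in the same orbit of the stabiliser of the standard vector. -/
theorem odd_rel (u t : leechLattice) (hodd : ∀ i, (t : GolayPt → ℤ) i % 2 = 1)
    (habs : ∀ i, (u : GolayPt → ℤ) i = (t : GolayPt → ℤ) i ∨
      (u : GolayPt → ℤ) i = -(t : GolayPt → ℤ) i)
    (ha : (u : GolayPt → ℤ) a = (t : GolayPt → ℤ) a)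
    (hb : (u : GolayPt → ℤ) b = (t : GolayPt → ℤ) b) : RelV u t := by
  have hmem : ((u : GolayPt → ℤ) - (t : GolayPt → ℤ)) ∈ leechLattice :=
    leechLattice.sub_mem u.2 t.2
  have he : ∀ k, (2 : ℤ) ∣ ((u : GolayPt → ℤ) - (t : GolayPt → ℤ)) k := by
    intro k
    rw [Pi.sub_apply]
    rcases habs k with h | h <;> rw [h] <;> omega
  have hc := half_word _ hmem he
  obtain ⟨c, hcdef⟩ : ∃ c : GolayPt → ZMod 2, c = fun k =>
      (((((u : GolayPt → ℤ) - (t : GolayPt → ℤ)) k / 2 : ℤ)) : ZMod 2) := ⟨_, rfl⟩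
  rw [← hcdef] at hc
  have hck : ∀ k, c k = 1 ↔ (u : GolayPt → ℤ) k ≠ (t : GolayPt → ℤ) k := by
    intro k
    have hz := Leech.zword_eq_one
      (fun k => (((u : GolayPt → ℤ) - (t : GolayPt → ℤ)) k / 2 : ℤ)) k
    have e : c k = zword (fun k => (((u : GolayPt → ℤ) - (t : GolayPt → ℤ)) k / 2 : ℤ)) k := by
      rw [hcdef]
      rfl
    rw [e, hz]
    have ho := hodd k
    show ¬ (2 : ℤ) ∣ ((u : GolayPt → ℤ) k - (t : GolayPt → ℤ) k) / 2 ↔ _
    rcases habs k with h | h
    · rw [h]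
      constructor
      · intro h2
        exfalso
        apply h2
        rw [sub_self]
        norm_num
      · intro h2
        exact absurd rfl h2
    · rw [h]
      constructor
      · intro _
        omega
      · intro _
        omega
  have hca : c a = 0 := by
    rcases z2_cases (c a) with h | h
    · exact h
    · exact absurd ha ((hck a).1 h)
  have hcb : c b = 0 := by
    rcases z2_cases (c b) with h | h
    · exact h
    · exact absurd hb ((hck b).1 h)
  have hfin : CoA.sgnP c hc u = t := by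
    apply Subtype.ext
    funext k
    rw [CoA.sgnP_apply]
    unfold CoA.sgn
    by_cases hk : c k = 1
    · rw [if_pos hk]
      have hne := (hck k).1 hk
      rcases habs k with h | h
      · exact absurd h hne
      · rw [h, neg_neg]
    · rw [if_neg hk]
      by_contra hne
      exact hk ((hck k).2 hne)
  rw [← hfin]
  exact relV_sgn c hc hca hcb u

/-- Structure data of a lattice vector of sum of squares 48. -/
theorem data48 (v : leechLattice) (hn : sqNorm (v : GolayPt → ℤ) = 48) :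
    ∃ (bb : Bool) (c : GolayPt → ZMod 2), c ∈ golayCode ∧
      (∀ i, (v : GolayPt → ℤ) i % 4 = Cnt.pz bb + 2 * (if c i = 1 then 1 else 0)) ∧
      (∑ i, (v : GolayPt → ℤ) i) ≡ 4 * Cnt.pz bb [ZMOD 8] := by
  have h := (Cnt.mem_iff (N := 48) (by norm_num) (v : GolayPt → ℤ)).1
    ⟨v.2, by exact_mod_cast hn⟩
  obtain ⟨bb, c, hc, hx⟩ := h
  rw [Cnt.mem_FibF (by norm_num)] at hx
  exact ⟨bb, c, hc, hx.1, hx.2.2⟩

/-- The shape of an even lattice vector of sum of squares 48. -/
theorem shapeE (v : leechLattice) (hn : sqNorm (v : GolayPt → ℤ) = 48)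
    (i0 : GolayPt) (h0 : (v : GolayPt → ℤ) i0 % 2 = 0) :
    ∃ c ∈ golayCode,
      (∀ k, c k = 1 → ((v : GolayPt → ℤ) k = 2 ∨ (v : GolayPt → ℤ) k = -2)) ∧
      ((support₂ c ∈ dodecads ∧ ∀ k, c k ≠ 1 → (v : GolayPt → ℤ) k = 0) ∨
       (support₂ c ∈ octads ∧ ∃ p, c p ≠ 1 ∧
          ((v : GolayPt → ℤ) p = 4 ∨ (v : GolayPt → ℤ) p = -4) ∧
          ∀ k, c k ≠ 1 → k ≠ p → (v : GolayPt → ℤ) k = 0)) := by
  classical
  obtain ⟨bb, c, hc, h1, hsum⟩ := data48 v hn
  have hb : bb = false := by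
    cases bb
    · rfl
    · exfalso
      have := h1 i0
      rw [Cnt.pz_true] at this
      split_ifs at this <;> omega
  subst hb
  rw [Cnt.pz_false] at h1 hsum
  obtain ⟨T, hT⟩ : ∃ T : GolayPt → ℤ, T = fun k =>
      (v : GolayPt → ℤ) k ^ 2 - (if c k ≠ 0 then 4 else 0) := ⟨_, rfl⟩
  have hon : ∀ k, c k = 1 →
      (T k = 0 ∧ ((v : GolayPt → ℤ) k = 2 ∨ (v : GolayPt → ℤ) k = -2)) ∨ 32 ≤ T k := by
    intro k hk
    have h := h1 k
    rw [if_pos hk] at h
    have hT' : T k = (v : GolayPt → ℤ) k ^ 2 - 4 := by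
      rw [hT]
      dsimp only
      rw [if_pos (by rw [hk]; decide)]
    rw [hT']
    by_cases hs : -2 ≤ (v : GolayPt → ℤ) k ∧ (v : GolayPt → ℤ) k ≤ 2
    · left
      have h2 : (v : GolayPt → ℤ) k = 2 ∨ (v : GolayPt → ℤ) k = -2 := by omega
      refine ⟨?_, h2⟩
      rcases h2 with e | e <;> rw [e] <;> norm_num
    · right
      have h2 : (v : GolayPt → ℤ) k ≤ -6 ∨ 6 ≤ (v : GolayPt → ℤ) k := by omega
      rcases h2 with e | e <;> nlinarith
  have hoff : ∀ k, c k ≠ 1 → (T k = 0 ∧ (v : GolayPt → ℤ) k = 0) ∨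
      (T k = 16 ∧ ((v : GolayPt → ℤ) k = 4 ∨ (v : GolayPt → ℤ) k = -4)) ∨ 64 ≤ T k := by
    intro k hk
    have hk0 : c k = 0 := (z2_cases (c k)).resolve_right hk
    have h := h1 k
    rw [if_neg hk] at h
    have hT' : T k = (v : GolayPt → ℤ) k ^ 2 := by
      rw [hT]
      dsimp only
      rw [if_neg (by rw [hk0]; decide)]
      ring
    rw [hT']
    by_cases hz : (v : GolayPt → ℤ) k = 0
    · left
      rw [hz]
      norm_num
    · by_cases hs : -4 ≤ (v : GolayPt → ℤ) k ∧ (v : GolayPt → ℤ) k ≤ 4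
      · right
        left
        have h2 : (v : GolayPt → ℤ) k = 4 ∨ (v : GolayPt → ℤ) k = -4 := by omega
        refine ⟨?_, h2⟩
        rcases h2 with e | e <;> rw [e] <;> norm_num
      · right
        right
        have h2 : (v : GolayPt → ℤ) k ≤ -8 ∨ 8 ≤ (v : GolayPt → ℤ) k := by omega
        rcases h2 with e | e <;> nlinarith
  have hT0 : ∀ k, 0 ≤ T k := by
    intro k
    by_cases hk : c k = 1
    · rcases hon k hk with h | h <;> omega
    · rcases hoff k hk with h | h | h <;> omega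
  have hTsum : ∑ k, T k = 48 - 4 * (hammingNorm c : ℤ) := by
    rw [hT, Finset.sum_sub_distrib]
    have e1 : ∑ k, (v : GolayPt → ℤ) k ^ 2 = 48 := hn
    have e2 : ∑ k, (if c k ≠ 0 then (4 : ℤ) else 0) = 4 * (hammingNorm c : ℤ) := by
      unfold hammingNorm
      rw [Finset.card_filter]
      push_cast
      rw [Finset.mul_sum]
      apply Finset.sum_congr rfl
      intro k _
      split_ifs <;> norm_num
    rw [e1, e2]
  have hvon : ∀ k, c k = 1 → T k = 0 →
      ((v : GolayPt → ℤ) k = 2 ∨ (v : GolayPt → ℤ) k = -2) := by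
    intro k hk h0
    rcases hon k hk with h | h
    · exact h.2
    · omega
  have hvoff : ∀ k, c k ≠ 1 → T k = 0 → (v : GolayPt → ℤ) k = 0 := by
    intro k hk h0
    rcases hoff k hk with h | h | h
    · exact h.2
    · omega
    · omega
  rcases Golay.weights c hc with hw | hw | hw | hw | hw
  · -- weight 0 is impossible
    exfalso
    have hc0 : c = 0 := hammingNorm_eq_zero.1 hw
    have hv4 : ∀ k, (v : GolayPt → ℤ) k = 4 * ((v : GolayPt → ℤ) k / 4) := by
      intro k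
      have := h1 k
      rw [if_neg (by rw [hc0]; simp)] at this
      omega
    have hs1 : ∑ k, (v : GolayPt → ℤ) k ^ 2 = 16 * ∑ k, ((v : GolayPt → ℤ) k / 4) ^ 2 := by
      rw [Finset.mul_sum]
      apply Finset.sum_congr rfl
      intro k _
      have := hv4 k
      generalize (v : GolayPt → ℤ) k / 4 = y at this ⊢
      rw [this]
      ring
    have hs2 : ∑ k, (v : GolayPt → ℤ) k = 4 * ∑ k, ((v : GolayPt → ℤ) k / 4) := by
      rw [Finset.mul_sum]
      exact Finset.sum_congr rfl (fun k _ => hv4 k)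
    have hs3 : (2 : ℤ) ∣ ∑ k, (((v : GolayPt → ℤ) k / 4) ^ 2 - ((v : GolayPt → ℤ) k / 4)) := by
      apply Finset.dvd_sum
      intro k _
      have h := Int.even_mul_pred_self ((v : GolayPt → ℤ) k / 4)
      have e : ((v : GolayPt → ℤ) k / 4) ^ 2 - ((v : GolayPt → ℤ) k / 4)
          = ((v : GolayPt → ℤ) k / 4) * ((v : GolayPt → ℤ) k / 4 - 1) := by ring
      rw [e]
      exact even_iff_two_dvd.1 h
    rw [Finset.sum_sub_distrib] at hs3
    have e1 : ∑ k, (v : GolayPt → ℤ) k ^ 2 = 48 := hn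
    unfold Int.ModEq at hsum
    omega
  · -- weight 8
    have hS : ∑ k, T k = 16 := by
      rw [hTsum, hw]
      norm_num
    have hex : ∃ p, T p ≠ 0 := by
      by_contra hcon
      push Not at hcon
      have : ∑ k, T k = 0 := Finset.sum_eq_zero (fun k _ => hcon k)
      omega
    obtain ⟨p, hp⟩ := hex
    have hple : T p ≤ 16 := by
      have h := Finset.single_le_sum (f := T) (fun k _ => hT0 k) (Finset.mem_univ p)
      omega
    have hcp : c p ≠ 1 := by
      intro h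
      rcases hon p h with h' | h' <;> omega
    have hp16 : T p = 16 ∧ ((v : GolayPt → ℤ) p = 4 ∨ (v : GolayPt → ℤ) p = -4) := by
      rcases hoff p hcp with h | h | h
      · exact absurd h.1 hp
      · exact h
      · omega
    have hother : ∀ k, k ≠ p → T k = 0 := by
      intro k hk
      have h2 : ∑ j ∈ ({k, p} : Finset GolayPt), T j ≤ ∑ j, T j :=
        Finset.sum_le_sum_of_subset_of_nonneg (Finset.subset_univ _) (fun j _ _ => hT0 j)
      rw [Finset.sum_pair hk, hS] at h2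
      have := hT0 k
      omega
    refine ⟨c, hc, ?_, Or.inr ⟨⟨⟨c, hc, rfl⟩, hw⟩, p, hcp, hp16.2, ?_⟩⟩
    · intro k hk
      exact hvon k hk (hother k (fun h => hcp (h ▸ hk)))
    · intro k hk hkp
      exact hvoff k hk (hother k hkp)
  · -- weight 12
    have hS : ∑ k, T k = 0 := by
      rw [hTsum, hw]
      norm_num
    have hzero : ∀ k, T k = 0 := fun k =>
      (Finset.sum_eq_zero_iff_of_nonneg (fun k _ => hT0 k)).1 hS k (Finset.mem_univ k)
    refine ⟨c, hc, ?_, Or.inl ⟨⟨⟨c, hc, rfl⟩, hw⟩, ?_⟩⟩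
    · intro k hk
      exact hvon k hk (hzero k)
    · intro k hk
      exact hvoff k hk (hzero k)
  · exfalso
    have hge : 0 ≤ ∑ k, T k := Finset.sum_nonneg (fun k _ => hT0 k)
    rw [hTsum, hw] at hge
    norm_num at hge
  · exfalso
    have hge : 0 ≤ ∑ k, T k := Finset.sum_nonneg (fun k _ => hT0 k)
    rw [hTsum, hw] at hge
    norm_num at hge

/-- Coordinates of an odd lattice vector of sum of squares 48. -/
theorem odd_terms (u : leechLattice) (hn : sqNorm (u : GolayPt → ℤ) = 48) (i0 : GolayPt)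
    (h0 : (u : GolayPt → ℤ) i0 % 2 = 1) :
    (∀ k, (((u : GolayPt → ℤ) k = 1 ∨ (u : GolayPt → ℤ) k = -1) ∨
      ((u : GolayPt → ℤ) k = 3 ∨ (u : GolayPt → ℤ) k = -3) ∨
      24 ≤ (u : GolayPt → ℤ) k ^ 2 - 1)) ∧
    (∀ k, 0 ≤ (u : GolayPt → ℤ) k ^ 2 - 1) ∧
    ∑ k, ((u : GolayPt → ℤ) k ^ 2 - 1) = 24 := by
  have hodd : ∀ k, (u : GolayPt → ℤ) k % 2 = 1 := by
    intro k
    rw [parity_all _ u.2 k i0]
    exact h0
  have hcase : ∀ k, (((u : GolayPt → ℤ) k = 1 ∨ (u : GolayPt → ℤ) k = -1) ∨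
      ((u : GolayPt → ℤ) k = 3 ∨ (u : GolayPt → ℤ) k = -3) ∨
      24 ≤ (u : GolayPt → ℤ) k ^ 2 - 1) := by
    intro k
    have ho := hodd k
    by_cases hs : -3 ≤ (u : GolayPt → ℤ) k ∧ (u : GolayPt → ℤ) k ≤ 3
    · have h4 : (u : GolayPt → ℤ) k = 1 ∨ (u : GolayPt → ℤ) k = -1 ∨
          (u : GolayPt → ℤ) k = 3 ∨ (u : GolayPt → ℤ) k = -3 := by omega
      rcases h4 with h | h | h | h
      · exact Or.inl (Or.inl h)
      · exact Or.inl (Or.inr h)
      · exact Or.inr (Or.inl (Or.inl h))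
      · exact Or.inr (Or.inl (Or.inr h))
    · right
      right
      have h2 : (u : GolayPt → ℤ) k ≤ -5 ∨ 5 ≤ (u : GolayPt → ℤ) k := by omega
      rcases h2 with e | e <;> nlinarith
  refine ⟨hcase, ?_, ?_⟩
  · intro k
    rcases hcase k with h | h | h
    · rcases h with e | e <;> rw [e] <;> norm_num
    · rcases h with e | e <;> rw [e] <;> norm_num
    · omega
  · have h := Orb.sum_sq_sub_one (u : GolayPt → ℤ) 48 hn
    rw [h]
    norm_num

def tO5L : List ℤ := [-1, 1, -1, -1, -1, 5, -1, -1, -1, -1, -1, -1, 1, -1, -1, 1, 1, 1, 1, 1, 1,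
  1, 1, 1]

set_option maxRecDepth 100000 in
theorem tO5_chk : Xi.inD (fun k => 2 * Orb.vecL tO5L k) 1 28637 := by decide +kernel

def tO5 : leechLattice := ⟨Orb.vecL tO5L, Orb.mem_of_double _ 1 28637 tO5_chk⟩

set_option maxRecDepth 100000 in
theorem tO5_vals : ∀ i : GolayPt, Orb.vecL tO5L i % 2 = 1 ∧
    (i ≠ a → (Orb.vecL tO5L i = 1 ∨ Orb.vecL tO5L i = -1)) := by decide +kernel

theorem tO5_pts : Orb.vecL tO5L a = 5 ∧ Orb.vecL tO5L b = -1 := by decide +kernel

theorem normO5 (u : leechLattice) (hn : sqNorm (u : GolayPt → ℤ) = 48)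
    (ha : (u : GolayPt → ℤ) a = 5) (hb : (u : GolayPt → ℤ) b = -1) : RelV u tO5 := by
  classical
  obtain ⟨hcase, hnn, hsum⟩ := odd_terms u hn a (by rw [ha]; norm_num)
  have hother : ∀ k, k ≠ a → ((u : GolayPt → ℤ) k = 1 ∨ (u : GolayPt → ℤ) k = -1) := by
    intro k hk
    have h2 : ∑ j ∈ ({k, a} : Finset GolayPt), ((u : GolayPt → ℤ) j ^ 2 - 1) ≤
        ∑ j, ((u : GolayPt → ℤ) j ^ 2 - 1) :=
      Finset.sum_le_sum_of_subset_of_nonneg (Finset.subset_univ _) (fun j _ _ => hnn j)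
    have h5 : (5 : ℤ) ^ 2 - 1 = 24 := by norm_num
    rw [Finset.sum_pair hk, hsum, ha, h5] at h2
    rcases hcase k with h | h | h
    · exact h
    · exfalso
      rcases h with h | h <;> rw [h] at h2 <;> norm_num at h2
    · exfalso
      omega
  apply odd_rel u tO5 (fun i => (tO5_vals i).1)
  · intro i
    by_cases hi : i = a
    · left
      rw [hi, ha]
      exact tO5_pts.1.symm
    · have h1 := hother i hi
      have h2 : (tO5 : GolayPt → ℤ) i = 1 ∨ (tO5 : GolayPt → ℤ) i = -1 := (tO5_vals i).2 hi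
      omega
  · rw [ha]
    exact tO5_pts.1.symm
  · rw [hb]
    exact tO5_pts.2.symm

def s0 : GolayPt := some 0

def s1 : GolayPt := some 1

def tO3L : List ℤ := [-3, 3, -1, -1, -1, 3, 1, 1, -1, 1, 1, -1, 1, -1, 1, 1, 1, 1, 1, 1, 1, 1, 1,
  1]

set_option maxRecDepth 100000 in
theorem tO3_chk : Xi.inD (fun k => 2 * Orb.vecL tO3L k) 1 10558 := by decide +kernel

def tO3 : leechLattice := ⟨Orb.vecL tO3L, Orb.mem_of_double _ 1 10558 tO3_chk⟩

set_option maxRecDepth 100000 in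
theorem tO3_vals : ∀ i : GolayPt, Orb.vecL tO3L i % 2 = 1 ∧
    ((i = a ∨ i = s0 ∨ i = s1) → (Orb.vecL tO3L i = 3 ∨ Orb.vecL tO3L i = -3)) ∧
    (¬ (i = a ∨ i = s0 ∨ i = s1) → (Orb.vecL tO3L i = 1 ∨ Orb.vecL tO3L i = -1)) := by
  decide +kernel

theorem tO3_pts : Orb.vecL tO3L a = 3 ∧ Orb.vecL tO3L b = 1 := by decide +kernel

/-- The shape of an odd vector of sum of squares 48 with a coordinate 3 at the first standard
point: two more coordinates are 3 up to sign, the rest are 1 up to sign. -/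
theorem shapeO3 (u : leechLattice) (hn : sqNorm (u : GolayPt → ℤ) = 48)
    (ha : (u : GolayPt → ℤ) a = 3) :
    ∃ t1 t2 : GolayPt, t1 ≠ t2 ∧ t1 ≠ a ∧ t2 ≠ a ∧
      ((u : GolayPt → ℤ) t1 = 3 ∨ (u : GolayPt → ℤ) t1 = -3) ∧
      ((u : GolayPt → ℤ) t2 = 3 ∨ (u : GolayPt → ℤ) t2 = -3) ∧
      ∀ k, k ≠ a → k ≠ t1 → k ≠ t2 → ((u : GolayPt → ℤ) k = 1 ∨ (u : GolayPt → ℤ) k = -1) := by
  classical
  obtain ⟨hcase, hnn, hsum⟩ := odd_terms u hn a (by rw [ha]; norm_num)
  obtain ⟨T, hT⟩ : ∃ T : GolayPt → ℤ, T = fun k => (u : GolayPt → ℤ) k ^ 2 - 1 := ⟨_, rfl⟩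
  have hTa : T a = 8 := by
    rw [hT]
    dsimp only
    rw [ha]
    norm_num
  have hT0 : ∀ k, 0 ≤ T k := by
    intro k
    rw [hT]
    exact hnn k
  have hTs : ∑ k, T k = 24 := by
    rw [hT]
    exact hsum
  have hcase' : ∀ k, (T k = 0 ∧ ((u : GolayPt → ℤ) k = 1 ∨ (u : GolayPt → ℤ) k = -1)) ∨
      (T k = 8 ∧ ((u : GolayPt → ℤ) k = 3 ∨ (u : GolayPt → ℤ) k = -3)) ∨ 24 ≤ T k := by
    intro k
    rw [hT]
    dsimp only
    rcases hcase k with h | h | h
    · left
      refine ⟨?_, h⟩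
      rcases h with e | e <;> rw [e] <;> norm_num
    · right
      left
      refine ⟨?_, h⟩
      rcases h with e | e <;> rw [e] <;> norm_num
    · right
      right
      exact h
  have hs1 : ∑ k ∈ Finset.univ.erase a, T k = 16 := by
    have := Finset.add_sum_erase Finset.univ T (Finset.mem_univ a)
    omega
  have hex1 : ∃ t1 ∈ Finset.univ.erase a, T t1 ≠ 0 := by
    by_contra hcon
    push Not at hcon
    have : ∑ k ∈ Finset.univ.erase a, T k = 0 := Finset.sum_eq_zero hcon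
    omega
  obtain ⟨t1, ht1m, ht1⟩ := hex1
  have ht1le : T t1 ≤ 16 := by
    have := Finset.single_le_sum (f := T) (fun k _ => hT0 k) ht1m
    omega
  have ht1v : T t1 = 8 ∧ ((u : GolayPt → ℤ) t1 = 3 ∨ (u : GolayPt → ℤ) t1 = -3) := by
    rcases hcase' t1 with h | h | h
    · exact absurd h.1 ht1
    · exact h
    · omega
  have hs2 : ∑ k ∈ (Finset.univ.erase a).erase t1, T k = 8 := by
    have := Finset.add_sum_erase (Finset.univ.erase a) T ht1m
    omega
  have hex2 : ∃ t2 ∈ (Finset.univ.erase a).erase t1, T t2 ≠ 0 := by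
    by_contra hcon
    push Not at hcon
    have : ∑ k ∈ (Finset.univ.erase a).erase t1, T k = 0 := Finset.sum_eq_zero hcon
    omega
  obtain ⟨t2, ht2m, ht2⟩ := hex2
  have ht2le : T t2 ≤ 8 := by
    have := Finset.single_le_sum (f := T) (fun k _ => hT0 k) ht2m
    omega
  have ht2v : T t2 = 8 ∧ ((u : GolayPt → ℤ) t2 = 3 ∨ (u : GolayPt → ℤ) t2 = -3) := by
    rcases hcase' t2 with h | h | h
    · exact absurd h.1 ht2
    · exact h
    · omega
  have hs3 : ∑ k ∈ ((Finset.univ.erase a).erase t1).erase t2, T k = 0 := by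
    have := Finset.add_sum_erase ((Finset.univ.erase a).erase t1) T ht2m
    omega
  have hrest : ∀ k ∈ ((Finset.univ.erase a).erase t1).erase t2, T k = 0 :=
    (Finset.sum_eq_zero_iff_of_nonneg (fun k _ => hT0 k)).1 hs3
  refine ⟨t1, t2, ?_, ?_, ?_, ht1v.2, ht2v.2, ?_⟩
  · exact (Finset.ne_of_mem_erase ht2m).symm
  · exact Finset.ne_of_mem_erase ht1m
  · exact Finset.ne_of_mem_erase (Finset.mem_of_mem_erase ht2m)
  · intro k hka hk1 hk2
    have hk : k ∈ ((Finset.univ.erase a).erase t1).erase t2 := by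
      simp [hka, hk1, hk2]
    have h0 := hrest k hk
    rcases hcase' k with h | h | h
    · exact h.2
    · omega
    · omega

theorem normO3 (u : leechLattice) (hn : sqNorm (u : GolayPt → ℤ) = 48)
    (ha : (u : GolayPt → ℤ) a = 3) (hb : (u : GolayPt → ℤ) b = 1) : RelV u tO3 := by
  obtain ⟨t1, t2, h12, h1a, h2a, hv1, hv2, hrest⟩ := shapeO3 u hn ha
  have h1b : t1 ≠ b := by
    intro h
    rw [h] at hv1
    omega
  have h2b : t2 ≠ b := by
    intro h
    rw [h] at hv2
    omega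
  obtain ⟨g, hg, ga, gb, g0, g1'⟩ := map4 a b s0 s1 a b t1 t2 (by decide)
    (by simp [ab, h1a.symm, h2a.symm, h1b.symm, h2b.symm, h12])
  have r1 := relV_prm g hg ga gb u
  refine r1.trans ?_
  have c1 : ∀ i, ((CoA.prmP g hg u : leechLattice) : GolayPt → ℤ) i =
      (u : GolayPt → ℤ) (g i) := fun _ => rfl
  apply odd_rel _ tO3 (fun i => (tO3_vals i).1)
  · intro i
    rw [c1]
    by_cases hi : i = a ∨ i = s0 ∨ i = s1
    · have ht : (tO3 : GolayPt → ℤ) i = 3 ∨ (tO3 : GolayPt → ℤ) i = -3 := (tO3_vals i).2.1 hi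
      have hu : (u : GolayPt → ℤ) (g i) = 3 ∨ (u : GolayPt → ℤ) (g i) = -3 := by
        rcases hi with rfl | rfl | rfl
        · rw [ga, ha]
          left
          rfl
        · rw [g0]
          exact hv1
        · rw [g1']
          exact hv2
      omega
    · have ht : (tO3 : GolayPt → ℤ) i = 1 ∨ (tO3 : GolayPt → ℤ) i = -1 := (tO3_vals i).2.2 hi
      push Not at hi
      have hu : (u : GolayPt → ℤ) (g i) = 1 ∨ (u : GolayPt → ℤ) (g i) = -1 :=
        hrest (g i) (fun h => hi.1 (g.injective (h.trans ga.symm)))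
          (fun h => hi.2.1 (g.injective (h.trans g0.symm)))
          (fun h => hi.2.2 (g.injective (h.trans g1'.symm)))
      omega
  · rw [c1, ga, ha]
    exact tO3_pts.1.symm
  · rw [c1, gb, hb]
    exact tO3_pts.2.symm

def tE1L : List ℤ := [-2, 2, 2, 2, 2, 4, 0, 2, 0, 0, 2, 0, 2, 0, 0, 0, 0, 0, 0, 0, 0, 0, 0, 0]

set_option maxRecDepth 100000 in
theorem tE1_chk : Xi.inD (fun k => 2 * Orb.vecL tE1L k) 0 5279 := by decide +kernel

def tE1 : leechLattice := ⟨Orb.vecL tE1L, Orb.mem_of_double _ 0 5279 tE1_chk⟩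

set_option maxRecDepth 100000 in
theorem tE1_vals : ∀ i : GolayPt, (P2 i → Orb.vecL tE1L i = 2) ∧
    (word 5279 i ≠ 1 → i ≠ a → Orb.vecL tE1L i = 0) := by decide +kernel

theorem tE1_pts : Orb.vecL tE1L a = 4 ∧ Orb.vecL tE1L z2 = -2 ∧ word 5279 z2 = 1 := by
  decide +kernel

theorem normE1 (u : leechLattice) (hn : sqNorm (u : GolayPt → ℤ) = 48)
    (ha : (u : GolayPt → ℤ) a = 4) (hb : (u : GolayPt → ℤ) b = 0) : RelV u tE1 := by
  obtain ⟨c, hc, hon, hcase⟩ := shapeE u hn b (by rw [hb]; norm_num)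
  have hca : c a ≠ 1 := by
    intro h
    rcases hon a h with h' | h' <;> omega
  have hcb : c b ≠ 1 := by
    intro h
    rcases hon b h with h' | h' <;> omega
  rcases hcase with ⟨-, hoff⟩ | ⟨hoct, p, hcp, hp, hoff⟩
  · exfalso
    have := hoff a hca
    omega
  · have hpa : p = a := by
      by_contra h
      have := hoff a hca (fun h' => h h'.symm)
      omega
    subst hpa
    obtain ⟨g, hg, ga, gb, go⟩ := octad_ab0 (support₂ c) hoct
      (by rw [mem_support₂]; exact hca) (by rw [mem_support₂]; exact hcb)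
    have hmem : ∀ k, word 5279 k = 1 ↔ c (g k) = 1 := by
      intro k
      rw [← mem_support₂, ← mem_support₂, ← go]
      show k ∈ O0s ↔ g k ∈ g • O0s
      exact (Finset.smul_mem_smul_finset_iff g).symm
    have r1 := relV_prm g hg ga gb u
    refine r1.trans ?_
    have c1 : ∀ i, ((CoA.prmP g hg u : leechLattice) : GolayPt → ℤ) i =
        (u : GolayPt → ℤ) (g i) := fun _ => rfl
    apply signfix z2 pm2 pm2_red P2 pm2_spec pm2_ab _ tE1
    · intro i hi
      have e : (tE1 : GolayPt → ℤ) i = 2 := (tE1_vals i).1 hi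
      rw [e, c1]
      exact hon _ ((hmem i).1 hi.1)
    · intro i hi hiz
      have hO : word 5279 i ≠ 1 := fun h => hi ⟨h, hiz⟩
      rw [c1]
      by_cases hia : i = a
      · rw [hia, ga, ha]
        exact ⟨tE1_pts.1.symm, Or.inr (Or.inl rfl)⟩
      · have e : (tE1 : GolayPt → ℤ) i = 0 := (tE1_vals i).2 hO hia
        have hu : (u : GolayPt → ℤ) (g i) = 0 :=
          hoff (g i) (fun h => hO ((hmem i).2 h)) (fun h => hia (g.injective (h.trans ga.symm)))
        rw [hu, e]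
        exact ⟨rfl, Or.inl rfl⟩
    · have e : (tE1 : GolayPt → ℤ) z2 = -2 := tE1_pts.2.1
      rw [e, c1]
      rcases hon _ ((hmem z2).1 tE1_pts.2.2) with h | h
      · right
        rw [h]
        norm_num
      · left
        exact h
    · have e : (tE1 : GolayPt → ℤ) z2 = -2 := tE1_pts.2.1
      rw [e]
      norm_num

/-- Exchanging the two standard points within the stabiliser. -/
theorem exists_swapped (u : leechLattice) : ∃ w : leechLattice, RelV u w ∧
    (w : GolayPt → ℤ) a = (u : GolayPt → ℤ) b ∧ (w : GolayPt → ℤ) b = (u : GolayPt → ℤ) a := by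
  obtain ⟨g, hg, ga, gb⟩ := Stv.exists_swap
  refine ⟨CoA.prmP g hg u, relV_swap g hg ga gb u, ?_, ?_⟩
  · show (u : GolayPt → ℤ) (g a) = _
    rw [ga]
  · show (u : GolayPt → ℤ) (g b) = _
    rw [gb]

end Tri
end Cfsg.Agent.Lib.Helper28
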