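import Cfsg.Agent.Lib.Helper28.Tri1

set_option autoImplicit false

namespace Cfsg.Agent.Lib.Helper28
namespace Tri

open Cfsg Cfsg.Agent.Lib.Helper28 Cfsg.Agent.Lib.Helper4 Cfsg.Agent.Lib.Helper4.Golay
open Cfsg.Agent.Lib.Helper4.Stv
open scoped Pointwise

def s4 : GolayPt := some 4

def pmEL : List ℕ := [0, 563843, 530245, 593097, 628112, 0, 0, 0, 0, 0, 0, 0, 0, 0, 0, 0, 0,
  175681, 0, 0, 0, 0, 0, 8499969]

def pmE (x : GolayPt) : ℕ := pmEL.getD (code x) 0

def PE (i : GolayPt) : Prop := (word O1m i = 1 ∧ i ≠ a ∧ i ≠ b ∧ i ≠ z1) ∨ i = s4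

instance : DecidablePred PE := fun i => by
  unfold PE
  infer_instance

set_option maxRecDepth 100000 in
theorem pmE_red : ∀ x : GolayPt, red basisP (pmE x) = 0 := by decide +kernel

set_option maxRecDepth 100000 in
theorem pmE_spec : ∀ x i : GolayPt, PE x → PE i → (word (pmE x) i = 1 ↔ x = i) := by
  decide +kernel

set_option maxRecDepth 100000 in
theorem pmE_ab : ∀ x : GolayPt, PE x → word (pmE x) a = 0 ∧ word (pmE x) b = 0 := by
  decide +kernel

def tE2L : List ℤ := [-2, 2, 2, 2, 4, 2, 0, 0, 0, 0, 0, 0, 0, 0, 2, 0, 0, 2, 0, 0, 0, 0, 0, 2]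

set_option maxRecDepth 100000 in
theorem tE2_chk : Xi.inD (fun k => 2 * Orb.vecL tE2L k) 0 O1m := by decide +kernel

def tE2 : leechLattice := ⟨Orb.vecL tE2L, Orb.mem_of_double _ 0 O1m tE2_chk⟩

set_option maxRecDepth 100000 in
theorem tE2_vals : ∀ i : GolayPt, (word O1m i = 1 → i ≠ z1 → Orb.vecL tE2L i = 2) ∧
    (word O1m i ≠ 1 → i ≠ s4 → Orb.vecL tE2L i = 0) := by decide +kernel

theorem tE2_pts : Orb.vecL tE2L s4 = 4 ∧ Orb.vecL tE2L z1 = -2 ∧ word O1m z1 = 1 ∧
    word O1m s4 ≠ 1 ∧ word O1m a = 1 ∧ word O1m b = 1 := by decide +kernel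

theorem mem_O1s (k : GolayPt) : k ∈ O1s ↔ word O1m k = 1 := mem_support₂ (word O1m) k

theorem normE2 (u : leechLattice) (hn : sqNorm (u : GolayPt → ℤ) = 48)
    (ha : (u : GolayPt → ℤ) a = 2) (hb : (u : GolayPt → ℤ) b = 2) (p : GolayPt)
    (hp : (u : GolayPt → ℤ) p = 4 ∨ (u : GolayPt → ℤ) p = -4) : RelV u tE2 := by
  obtain ⟨c, hc, hon, hcase⟩ := shapeE u hn a (by rw [ha]; norm_num)
  have hcp : c p ≠ 1 := by
    intro h
    rcases hon p h with h' | h' <;> omega
  rcases hcase with ⟨-, hoff⟩ | ⟨hoct, p', hcp', hp', hoff⟩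
  · exfalso
    have := hoff p hcp
    omega
  · have hpp : p' = p := by
      by_contra h
      have := hoff p hcp (fun h' => h h'.symm)
      omega
    subst hpp
    have hca : c a = 1 := by
      by_contra h
      by_cases hap : a = p'
      · rw [← hap] at hp
        omega
      · have := hoff a h hap
        omega
    have hcb : c b = 1 := by
      by_contra h
      by_cases hbp : b = p'
      · rw [← hbp] at hp
        omega
      · have := hoff b h hbp
        omega
    obtain ⟨g, hg, ga, gb, go⟩ := octad_pq O1s (support₂ c) O1s_octad hoct a b ab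
      ((mem_O1s a).2 tE2_pts.2.2.2.2.1) ((mem_O1s b).2 tE2_pts.2.2.2.2.2)
      ((mem_support₂ c a).2 hca) ((mem_support₂ c b).2 hcb)
    have hmem : ∀ k, word O1m k = 1 ↔ c (g k) = 1 := by
      intro k
      rw [← mem_support₂, ← mem_support₂, ← go]
      show k ∈ O1s ↔ g k ∈ g • O1s
      exact (Finset.smul_mem_smul_finset_iff g).symm
    have hp1 : g.symm p' ∉ O1s := by
      intro h
      have h2 := (hmem _).1 ((mem_O1s _).1 h)
      rw [Equiv.apply_symm_apply] at h2
      exact hcp h2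
    have hs4 : s4 ∉ O1s := fun h => tE2_pts.2.2.2.1 ((mem_O1s _).1 h)
    obtain ⟨r, hr, hfix, hr4⟩ := oct_fix_trans O1s O1s_octad s4 (g.symm p') hs4 hp1
    have hra : r a = a := hfix a ((mem_O1s a).2 tE2_pts.2.2.2.2.1)
    have hrb : r b = b := hfix b ((mem_O1s b).2 tE2_pts.2.2.2.2.2)
    have r1 := relV_prm g hg ga gb u
    have r2 := relV_prm r hr hra hrb (CoA.prmP g hg u)
    refine (r1.trans r2).trans ?_
    have c1 : ∀ i, ((CoA.prmP r hr (CoA.prmP g hg u) : leechLattice) : GolayPt → ℤ) i =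
        (u : GolayPt → ℤ) (g (r i)) := fun _ => rfl
    have hin : ∀ i, word O1m i = 1 → r i = i := fun i hi => hfix i ((mem_O1s i).2 hi)
    have hout : ∀ i, word O1m i ≠ 1 → word O1m (r i) ≠ 1 := by
      intro i hi hcon
      have e := hin (r i) hcon
      have e2 : r i = i := r.injective e
      rw [e2] at hcon
      exact hi hcon
    have hgp : g (r s4) = p' := by
      rw [hr4, Equiv.apply_symm_apply]
    apply signfix z1 pmE pmE_red PE pmE_spec pmE_ab _ tE2
    · intro i hi
      rw [c1]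
      rcases hi with ⟨hO, hia, hib, hiz⟩ | rfl
      · have e : (tE2 : GolayPt → ℤ) i = 2 := (tE2_vals i).1 hO hiz
        rw [e, hin i hO]
        exact hon _ ((hmem i).1 hO)
      · have e : (tE2 : GolayPt → ℤ) s4 = 4 := tE2_pts.1
        rw [e, hgp]
        exact hp
    · intro i hi hiz
      rw [c1]
      by_cases hO : word O1m i = 1
      · have hiab : i = a ∨ i = b := by
          by_contra hc'
          push Not at hc'
          exact hi (Or.inl ⟨hO, hc'.1, hc'.2, hiz⟩)
        have e : (tE2 : GolayPt → ℤ) i = 2 := (tE2_vals i).1 hO hiz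
        rcases hiab with rfl | rfl
        · rw [hra, ga, ha]
          exact ⟨e.symm, Or.inr (Or.inl rfl)⟩
        · rw [hrb, gb, hb]
          exact ⟨e.symm, Or.inr (Or.inr rfl)⟩
      · have his : i ≠ s4 := fun h' => hi (Or.inr h')
        have e : (tE2 : GolayPt → ℤ) i = 0 := (tE2_vals i).2 hO his
        have hu : (u : GolayPt → ℤ) (g (r i)) = 0 := by
          apply hoff
          · intro h'
            exact hout i hO ((hmem _).2 h')
          · intro h'
            apply his
            apply r.injective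
            rw [hr4]
            apply g.injective
            rw [h', Equiv.apply_symm_apply]
        rw [hu, e]
        exact ⟨rfl, Or.inl rfl⟩
    · have e : (tE2 : GolayPt → ℤ) z1 = -2 := tE2_pts.2.1
      rw [e, c1, hin z1 tE2_pts.2.2.1]
      rcases hon _ ((hmem z1).1 tE2_pts.2.2.1) with h' | h'
      · right
        rw [h']
        norm_num
      · left
        exact h'
    · have e : (tE2 : GolayPt → ℤ) z1 = -2 := tE2_pts.2.1
      rw [e]
      norm_num

def D1m : ℕ := 89455

def D1s : Finset GolayPt := support₂ (word D1m)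

theorem D1s_dod : D1s ∈ dodecads :=
  ⟨⟨word D1m, Xi.word_mem_of_red (by decide +kernel), rfl⟩, by
    show (support₂ (word D1m)).card = 12
    rw [card_support, hammingNorm_word]
    decide +kernel⟩

theorem mem_D1s (k : GolayPt) : k ∈ D1s ↔ word D1m k = 1 := mem_support₂ (word D1m) k

def pmDL : List ℕ := [0, 7340691, 6857221, 2916505, 0, 0, 5112513, 0, 1737489, 0, 7767041,
  3811457, 4370577, 0, 0, 0, 2564625, 0, 0, 0, 0, 0, 0, 0]

def pmD (x : GolayPt) : ℕ := pmDL.getD (code x) 0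

def PD (i : GolayPt) : Prop := word D1m i = 1 ∧ i ≠ a ∧ i ≠ b ∧ i ≠ z1

instance : DecidablePred PD := fun i => by
  unfold PD
  infer_instance

set_option maxRecDepth 100000 in
theorem pmD_red : ∀ x : GolayPt, red basisP (pmD x) = 0 := by decide +kernel

set_option maxRecDepth 100000 in
theorem pmD_spec : ∀ x i : GolayPt, PD x → PD i → (word (pmD x) i = 1 ↔ x = i) := by
  decide +kernel

set_option maxRecDepth 100000 in
theorem pmD_ab : ∀ x : GolayPt, PD x → word (pmD x) a = 0 ∧ word (pmD x) b = 0 := by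
  decide +kernel

def tDL : List ℤ := [2, 2, 2, 2, 0, 2, 2, 0, 2, 0, 2, 2, 2, 0, 2, 0, 2, 0, 0, 0, 0, 0, 0, 0]

set_option maxRecDepth 100000 in
theorem tD_chk : Xi.inD (fun k => 2 * Orb.vecL tDL k) 0 D1m := by decide +kernel

def tD : leechLattice := ⟨Orb.vecL tDL, Orb.mem_of_double _ 0 D1m tD_chk⟩

set_option maxRecDepth 100000 in
theorem tD_vals : ∀ i : GolayPt, (word D1m i = 1 → Orb.vecL tDL i = 2) ∧
    (word D1m i ≠ 1 → Orb.vecL tDL i = 0) := by decide +kernel

theorem D1_pts : word D1m a = 1 ∧ word D1m b = 1 ∧ word D1m z1 = 1 := by decide +kernel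

theorem normD (u : leechLattice) (hn : sqNorm (u : GolayPt → ℤ) = 48)
    (ha : (u : GolayPt → ℤ) a = 2) (hb : (u : GolayPt → ℤ) b = 2)
    (hno : ∀ k, (u : GolayPt → ℤ) k ≠ 4 ∧ (u : GolayPt → ℤ) k ≠ -4) : RelV u tD := by
  obtain ⟨c, hc, hon, hcase⟩ := shapeE u hn a (by rw [ha]; norm_num)
  rcases hcase with ⟨hdod, hoff⟩ | ⟨-, p, -, hp, -⟩
  swap
  · exfalso
    have := hno p
    omega
  have hca : c a = 1 := by
    by_contra h
    have := hoff a h
    omega
  have hcb : c b = 1 := by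
    by_contra h
    have := hoff b h
    omega
  obtain ⟨g0, hg0, e0⟩ := dod_trans D1s_dod hdod
  have hpre : ∀ x : GolayPt, c x = 1 → g0.symm x ∈ D1s := by
    intro x hx
    have h1 : x ∈ g0 • D1s := by
      rw [e0]
      exact (mem_support₂ c x).2 hx
    obtain ⟨y, hy, hyx⟩ := Finset.mem_smul_finset.1 h1
    have e : g0.symm x = y := by
      rw [← hyx]
      exact g0.symm_apply_apply y
    rw [e]
    exact hy
  have hne : g0.symm a ≠ g0.symm b := fun h => ab (g0.symm.injective h)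
  obtain ⟨r, hr, hrd, ra, rb⟩ := dod_map2 D1s_dod ((mem_D1s a).2 D1_pts.1)
    ((mem_D1s b).2 D1_pts.2.1) (hpre a hca) (hpre b hcb) ab hne
  have hg : g0 * r ∈ M24 := Subgroup.mul_mem _ hg0 hr
  have ga : (g0 * r) a = a := by
    show g0 (r a) = a
    rw [ra, Equiv.apply_symm_apply]
  have gb : (g0 * r) b = b := by
    show g0 (r b) = b
    rw [rb, Equiv.apply_symm_apply]
  have go : (g0 * r) • D1s = support₂ c := by
    rw [mul_smul, hrd, e0]
  have hmem : ∀ k, word D1m k = 1 ↔ c ((g0 * r) k) = 1 := by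
    intro k
    rw [← mem_support₂, ← mem_support₂, ← go]
    show k ∈ D1s ↔ (g0 * r) k ∈ (g0 * r) • D1s
    exact (Finset.smul_mem_smul_finset_iff (g0 * r)).symm
  have r1 := relV_prm (g0 * r) hg ga gb u
  refine r1.trans ?_
  have c1 : ∀ i, ((CoA.prmP (g0 * r) hg u : leechLattice) : GolayPt → ℤ) i =
      (u : GolayPt → ℤ) ((g0 * r) i) := fun _ => rfl
  apply signfix z1 pmD pmD_red PD pmD_spec pmD_ab _ tD
  · intro i hi
    have e : (tD : GolayPt → ℤ) i = 2 := (tD_vals i).1 hi.1
    rw [e, c1]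
    exact hon _ ((hmem i).1 hi.1)
  · intro i hi hiz
    rw [c1]
    by_cases hO : word D1m i = 1
    · have hiab : i = a ∨ i = b := by
        by_contra hc'
        push Not at hc'
        exact hi ⟨hO, hc'.1, hc'.2, hiz⟩
      have e : (tD : GolayPt → ℤ) i = 2 := (tD_vals i).1 hO
      rcases hiab with rfl | rfl
      · rw [ga, ha]
        exact ⟨e.symm, Or.inr (Or.inl rfl)⟩
      · rw [gb, hb]
        exact ⟨e.symm, Or.inr (Or.inr rfl)⟩
    · have e : (tD : GolayPt → ℤ) i = 0 := (tD_vals i).2 hO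
      have hu : (u : GolayPt → ℤ) ((g0 * r) i) = 0 := hoff _ (fun h' => hO ((hmem i).2 h'))
      rw [hu, e]
      exact ⟨rfl, Or.inl rfl⟩
  · have e : (tD : GolayPt → ℤ) z1 = 2 := (tD_vals z1).1 D1_pts.2.2
    rw [e, c1]
    rcases hon _ ((hmem z1).1 D1_pts.2.2) with h' | h'
    · left
      exact h'
    · right
      rw [h']
  · have e : (tD : GolayPt → ℤ) z1 = 2 := (tD_vals z1).1 D1_pts.2.2
    rw [e]
    norm_num

end Tri
end Cfsg.Agent.Lib.Helper28
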