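import Cfsg.Agent.Lib.Helper28.Tri2

set_option autoImplicit false

namespace Cfsg.Agent.Lib.Helper28
namespace Tri

open Cfsg Cfsg.Agent.Lib.Helper28 Cfsg.Agent.Lib.Helper4 Cfsg.Agent.Lib.Helper4.Golay
open Cfsg.Agent.Lib.Helper4.Stv
open scoped Pointwise

/-- An explicit image under the extra element of the stabiliser. -/
theorem link_of (uL vL : List ℤ) (hu : Orb.vecL uL ∈ leechLattice)
    (hv : Orb.vecL vL ∈ leechLattice)
    (h : ∀ i, G1 (Orb.vecL uL) i = 2 * Orb.vecL vL i) :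
    RelV (⟨Orb.vecL uL, hu⟩ : leechLattice) ⟨Orb.vecL vL, hv⟩ := by
  have e : g1 ⟨Orb.vecL uL, hu⟩ = ⟨Orb.vecL vL, hv⟩ := by
    apply Subtype.ext
    funext i
    have h1 := g1_coord ⟨Orb.vecL uL, hu⟩ i
    have h2 := h i
    have h3 : G1 ((⟨Orb.vecL uL, hu⟩ : leechLattice) : GolayPt → ℤ) i = G1 (Orb.vecL uL) i := rfl
    show ((g1 ⟨Orb.vecL uL, hu⟩ : leechLattice) : GolayPt → ℤ) i = Orb.vecL vL i
    omega
  rw [← e]
  exact relV_g1 _

def uDL : List ℤ := [2, 0, 0, 0, 0, 2, 0, 2, 0, -2, 2, 0, -2, 2, 2, 0, -2, 0, 2, 0, 0, 2, 0, -2]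

def vDL : List ℤ := [-1, -1, -1, -1, 1, 3, -1, 3, -1, -1, 1, -1, -1, 1, 1, 1, -1, 1, 3, 1, -1, 1,
  -1, -1]

set_option maxRecDepth 100000 in
theorem uD_chk : Xi.inD (fun k => 2 * Orb.vecL uDL k) 0 10843809 := by decide +kernel

set_option maxRecDepth 100000 in
theorem vD_chk : Xi.inD (fun k => 2 * Orb.vecL vDL k) 1 13966319 := by decide +kernel

set_option maxRecDepth 100000 in
theorem uvD : ∀ i, G1 (Orb.vecL uDL) i = 2 * Orb.vecL vDL i := by decide +kernel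

set_option maxRecDepth 100000 in
theorem uD_props : sqNorm (Orb.vecL uDL) = 48 ∧ Orb.vecL uDL a = 2 ∧ Orb.vecL uDL b = 2 ∧
    ∀ k : GolayPt, Orb.vecL uDL k ≠ 4 ∧ Orb.vecL uDL k ≠ -4 := by decide +kernel

set_option maxRecDepth 100000 in
theorem vD_props : sqNorm (Orb.vecL vDL) = 48 ∧ Orb.vecL vDL a = 3 ∧ Orb.vecL vDL b = 1 := by
  decide +kernel

theorem linkD : RelV tD tO3 := by
  have hu := Orb.mem_of_double _ 0 10843809 uD_chk
  have hv := Orb.mem_of_double _ 1 13966319 vD_chk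
  have h1 : RelV (⟨Orb.vecL uDL, hu⟩ : leechLattice) tD :=
    normD ⟨Orb.vecL uDL, hu⟩ uD_props.1 uD_props.2.1 uD_props.2.2.1 uD_props.2.2.2
  have h2 := link_of uDL vDL hu hv uvD
  have h3 : RelV (⟨Orb.vecL vDL, hv⟩ : leechLattice) tO3 :=
    normO3 ⟨Orb.vecL vDL, hv⟩ vD_props.1 vD_props.2.1 vD_props.2.2
  exact h1.symm.trans (h2.trans h3)

def uE1L : List ℤ := [2, 0, 0, 0, 0, 4, 0, 0, 2, 0, -2, 2, 0, 0, 0, -2, 0, 0, 0, -2, 0, -2, 0,
  -2]

def vE1L : List ℤ := [-1, -1, -1, -1, -1, 3, -1, -1, -1, 1, -1, 1, -1, 1, 1, 1, 3, -1, -1, 1, 1,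
  -1, -1, -3]

set_option maxRecDepth 100000 in
theorem uE1_chk : Xi.inD (fun k => 2 * Orb.vecL uE1L k) 0 11046145 := by decide +kernel

set_option maxRecDepth 100000 in
theorem vE1_chk : Xi.inD (fun k => 2 * Orb.vecL vE1L k) 1 6755839 := by decide +kernel

set_option maxRecDepth 100000 in
theorem uvE1 : ∀ i, G1 (Orb.vecL uE1L) i = 2 * Orb.vecL vE1L i := by decide +kernel

set_option maxRecDepth 100000 in
theorem uE1_props : sqNorm (Orb.vecL uE1L) = 48 ∧ Orb.vecL uE1L a = 4 ∧ Orb.vecL uE1L b = 0 := by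
  decide +kernel

set_option maxRecDepth 100000 in
theorem vE1_props : sqNorm (Orb.vecL vE1L) = 48 ∧ Orb.vecL vE1L a = 3 ∧ Orb.vecL vE1L b = 1 := by
  decide +kernel

theorem linkE1 : RelV tE1 tO3 := by
  have hu := Orb.mem_of_double _ 0 11046145 uE1_chk
  have hv := Orb.mem_of_double _ 1 6755839 vE1_chk
  have h1 : RelV (⟨Orb.vecL uE1L, hu⟩ : leechLattice) tE1 :=
    normE1 ⟨Orb.vecL uE1L, hu⟩ uE1_props.1 uE1_props.2.1 uE1_props.2.2
  have h2 := link_of uE1L vE1L hu hv uvE1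
  have h3 : RelV (⟨Orb.vecL vE1L, hv⟩ : leechLattice) tO3 :=
    normO3 ⟨Orb.vecL vE1L, hv⟩ vE1_props.1 vE1_props.2.1 vE1_props.2.2
  exact h1.symm.trans (h2.trans h3)

def uE2L : List ℤ := [-2, 0, 0, 0, 0, 2, 0, 0, 0, 4, 2, -2, 0, 0, 2, 0, -2, -2, 0, 0, 0, -2, 0,
  0]

def vE2L : List ℤ := [1, 1, 1, 1, 1, 3, 3, 1, -1, 1, 1, 1, 1, 1, 1, 1, -1, -1, -1, 1, 1, -1, 3,
  1]

set_option maxRecDepth 100000 in
theorem uE2_chk : Xi.inD (fun k => 2 * Orb.vecL uE2L k) 0 2313249 := by decide +kernel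

set_option maxRecDepth 100000 in
theorem vE2_chk : Xi.inD (fun k => 2 * Orb.vecL vE2L k) 1 6750560 := by decide +kernel

set_option maxRecDepth 100000 in
theorem uvE2 : ∀ i, G1 (Orb.vecL uE2L) i = 2 * Orb.vecL vE2L i := by decide +kernel

set_option maxRecDepth 100000 in
theorem uE2_props : sqNorm (Orb.vecL uE2L) = 48 ∧ Orb.vecL uE2L a = 2 ∧ Orb.vecL uE2L b = 2 ∧
    Orb.vecL uE2L (some 9) = 4 := by decide +kernel

set_option maxRecDepth 100000 in
theorem vE2_props : sqNorm (Orb.vecL vE2L) = 48 ∧ Orb.vecL vE2L a = 3 ∧ Orb.vecL vE2L b = 1 := by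
  decide +kernel

theorem linkE2 : RelV tE2 tO3 := by
  have hu := Orb.mem_of_double _ 0 2313249 uE2_chk
  have hv := Orb.mem_of_double _ 1 6750560 vE2_chk
  have h1 : RelV (⟨Orb.vecL uE2L, hu⟩ : leechLattice) tE2 :=
    normE2 ⟨Orb.vecL uE2L, hu⟩ uE2_props.1 uE2_props.2.1 uE2_props.2.2.1 (some 9)
      (Or.inl uE2_props.2.2.2)
  have h2 := link_of uE2L vE2L hu hv uvE2
  have h3 : RelV (⟨Orb.vecL vE2L, hv⟩ : leechLattice) tO3 :=
    normO3 ⟨Orb.vecL vE2L, hv⟩ vE2_props.1 vE2_props.2.1 vE2_props.2.2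
  exact h1.symm.trans (h2.trans h3)

def uO5L : List ℤ := [1, -1, -1, -1, 1, 5, -1, 1, 1, 1, -1, 1, 1, -1, -1, 1, 1, -1, -1, -1, 1,
  -1, 1, -1]

def vO5L : List ℤ := [1, -1, -1, -1, -1, 3, -1, -1, 1, 1, 1, 1, -1, -1, 1, 1, 1, -3, -1, -1, 1,
  -1, 1, -3]

set_option maxRecDepth 100000 in
theorem uO5_chk : Xi.inD (fun k => 2 * Orb.vecL uO5L k) 1 11428942 := by decide +kernel

set_option maxRecDepth 100000 in
theorem vO5_chk : Xi.inD (fun k => 2 * Orb.vecL vO5L k) 1 2896126 := by decide +kernel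

set_option maxRecDepth 100000 in
theorem uvO5 : ∀ i, G1 (Orb.vecL uO5L) i = 2 * Orb.vecL vO5L i := by decide +kernel

set_option maxRecDepth 100000 in
theorem uO5_props : sqNorm (Orb.vecL uO5L) = 48 ∧ Orb.vecL uO5L a = 5 ∧ Orb.vecL uO5L b = -1 := by
  decide +kernel

set_option maxRecDepth 100000 in
theorem vO5_props : sqNorm (Orb.vecL vO5L) = 48 ∧ Orb.vecL vO5L a = 3 ∧ Orb.vecL vO5L b = 1 := by
  decide +kernel

theorem linkO5 : RelV tO5 tO3 := by
  have hu := Orb.mem_of_double _ 1 11428942 uO5_chk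
  have hv := Orb.mem_of_double _ 1 2896126 vO5_chk
  have h1 : RelV (⟨Orb.vecL uO5L, hu⟩ : leechLattice) tO5 :=
    normO5 ⟨Orb.vecL uO5L, hu⟩ uO5_props.1 uO5_props.2.1 uO5_props.2.2
  have h2 := link_of uO5L vO5L hu hv uvO5
  have h3 : RelV (⟨Orb.vecL vO5L, hv⟩ : leechLattice) tO3 :=
    normO3 ⟨Orb.vecL vO5L, hv⟩ vO5_props.1 vO5_props.2.1 vO5_props.2.2
  exact h1.symm.trans (h2.trans h3)

/-- Coordinates of an even lattice vector of sum of squares 48. -/
theorem even_vals (u : leechLattice) (hn : sqNorm (u : GolayPt → ℤ) = 48) (i0 : GolayPt)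
    (h0 : (u : GolayPt → ℤ) i0 % 2 = 0) (k : GolayPt) :
    (u : GolayPt → ℤ) k = 2 ∨ (u : GolayPt → ℤ) k = -2 ∨ (u : GolayPt → ℤ) k = 0 ∨
      (u : GolayPt → ℤ) k = 4 ∨ (u : GolayPt → ℤ) k = -4 := by
  obtain ⟨c, hc, hon, hcase⟩ := shapeE u hn i0 h0
  by_cases hck : c k = 1
  · rcases hon k hck with h | h
    · exact Or.inl h
    · exact Or.inr (Or.inl h)
  · rcases hcase with ⟨-, hoff⟩ | ⟨-, p, -, hp, hoff⟩
    · exact Or.inr (Or.inr (Or.inl (hoff k hck)))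
    · by_cases hkp : k = p
      · rw [hkp]
        rcases hp with h | h
        · exact Or.inr (Or.inr (Or.inr (Or.inl h)))
        · exact Or.inr (Or.inr (Or.inr (Or.inr h)))
      · exact Or.inr (Or.inr (Or.inl (hoff k hck hkp)))

/-- The stabiliser of the standard shortest vector is transitive on the lattice vectors of sum
of squares 48 whose product with it is 16. -/
theorem all_rel3 (u : leechLattice) (hn : sqNorm (u : GolayPt → ℤ) = 48)
    (hd : (u : GolayPt → ℤ) a + (u : GolayPt → ℤ) b = 4) : RelV u tO3 := by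
  classical
  by_cases hodd : (u : GolayPt → ℤ) a % 2 = 1
  · obtain ⟨hcase, hnn, hsum⟩ := odd_terms u hn a hodd
    have h2 : ∑ j ∈ ({a, b} : Finset GolayPt), ((u : GolayPt → ℤ) j ^ 2 - 1) ≤
        ∑ j, ((u : GolayPt → ℤ) j ^ 2 - 1) :=
      Finset.sum_le_sum_of_subset_of_nonneg (Finset.subset_univ _) (fun j _ _ => hnn j)
    rw [Finset.sum_pair ab, hsum] at h2
    have hb2 : (u : GolayPt → ℤ) b = 4 - (u : GolayPt → ℤ) a := by omega
    have hcases : (u : GolayPt → ℤ) a = 3 ∨ (u : GolayPt → ℤ) a = 1 ∨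
        (u : GolayPt → ℤ) a = 5 ∨ (u : GolayPt → ℤ) a = -1 := by
      rcases hcase a with h | h | h
      · rcases h with h | h
        · exact Or.inr (Or.inl h)
        · exact Or.inr (Or.inr (Or.inr h))
      · rcases h with h | h
        · exact Or.inl h
        · exfalso
          rw [hb2, h] at h2
          norm_num at h2
      · have hnb := hnn b
        have h3 : (u : GolayPt → ℤ) b ^ 2 ≤ 1 := by omega
        have h4 : -1 ≤ (u : GolayPt → ℤ) b ∧ (u : GolayPt → ℤ) b ≤ 1 := by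
          constructor <;> nlinarith
        have h5 : (u : GolayPt → ℤ) a = 3 ∨ (u : GolayPt → ℤ) a = 4 ∨
            (u : GolayPt → ℤ) a = 5 := by omega
        rcases h5 with h5 | h5 | h5
        · rw [h5] at h
          norm_num at h
        · rw [h5] at hodd
          norm_num at hodd
        · exact Or.inr (Or.inr (Or.inl h5))
    rcases hcases with h | h | h | h
    · exact normO3 u hn h (by omega)
    · obtain ⟨w, hw, wa, wb⟩ := exists_swapped u
      exact hw.trans (normO3 w (by rw [hw.norm]; exact hn) (by rw [wa]; omega)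
        (by rw [wb]; exact h))
    · exact (normO5 u hn h (by omega)).trans linkO5
    · obtain ⟨w, hw, wa, wb⟩ := exists_swapped u
      exact hw.trans ((normO5 w (by rw [hw.norm]; exact hn) (by rw [wa]; omega)
        (by rw [wb]; exact h)).trans linkO5)
  · have hev : (u : GolayPt → ℤ) a % 2 = 0 := by omega
    have hva := even_vals u hn a hev a
    have hvb := even_vals u hn a hev b
    have h3 : ((u : GolayPt → ℤ) a = 2 ∧ (u : GolayPt → ℤ) b = 2) ∨
        ((u : GolayPt → ℤ) a = 4 ∧ (u : GolayPt → ℤ) b = 0) ∨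
        ((u : GolayPt → ℤ) a = 0 ∧ (u : GolayPt → ℤ) b = 4) := by omega
    rcases h3 with ⟨h1, h2⟩ | ⟨h1, h2⟩ | ⟨h1, h2⟩
    · by_cases hex : ∃ p, (u : GolayPt → ℤ) p = 4 ∨ (u : GolayPt → ℤ) p = -4
      · obtain ⟨p, hp⟩ := hex
        exact (normE2 u hn h1 h2 p hp).trans linkE2
      · push Not at hex
        exact (normD u hn h1 h2 hex).trans linkD
    · exact (normE1 u hn h1 h2).trans linkE1
    · obtain ⟨w, hw, wa, wb⟩ := exists_swapped u
      exact hw.trans ((normE1 w (by rw [hw.norm]; exact hn) (by rw [wa]; exact h2)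
        (by rw [wb]; exact h1)).trans linkE1)

/-- The stabiliser of a shortest vector is transitive on the lattice vectors of sum of squares
48 having product 16 with it. -/
theorem pair_trans (x u u' : leechLattice) (hx : sqNorm (x : GolayPt → ℤ) = 32)
    (hu : sqNorm (u : GolayPt → ℤ) = 48) (hu' : sqNorm (u' : GolayPt → ℤ) = 48)
    (hd : dotInt (x : GolayPt → ℤ) (u : GolayPt → ℤ) = 16)
    (hd' : dotInt (x : GolayPt → ℤ) (u' : GolayPt → ℤ) = 16) :
    ∃ g ∈ Co0, g x = x ∧ g u = u' := by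
  obtain ⟨h, hh, hx'⟩ := exists_std x hx
  have hh' : h⁻¹ ∈ Co0 := Co0.inv_mem hh
  have key : ∀ w : leechLattice, sqNorm (w : GolayPt → ℤ) = 48 →
      dotInt (x : GolayPt → ℤ) (w : GolayPt → ℤ) = 16 → RelV (h⁻¹ w) tO3 := by
    intro w hw hdw
    apply all_rel3
    · rw [hh'.2 w]
      exact hw
    · have h1 := Orb.dot_pres h hh vStar (h⁻¹ w)
      have e1 : h (h⁻¹ w) = w := by simp
      rw [hx', e1, hdw, dot_vStar] at h1
      omega
  obtain ⟨g0, hg0, hgv, hgu⟩ := (key u hu hd).trans (key u' hu' hd').symm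
  refine ⟨h * g0 * h⁻¹, Co0.mul_mem (Co0.mul_mem hh hg0) hh', ?_, ?_⟩
  · show h (g0 (h⁻¹ x)) = x
    have e : h⁻¹ x = vStar := by
      rw [← hx']
      simp
    rw [e, hgv, hx']
  · show h (g0 (h⁻¹ u)) = u'
    rw [hgu]
    simp

end Tri
end Cfsg.Agent.Lib.Helper28
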