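import Cfsg.Agent.Lib.Helper28.Tri3
import Cfsg.Agent.Lib.Helper4.Cnt8

set_option autoImplicit false

namespace Cfsg.Agent.Lib.Helper28
namespace Tri

open Cfsg Cfsg.Agent.Lib.Helper28 Cfsg.Agent.Lib.Helper4 Cfsg.Agent.Lib.Helper4.Golay
open Cfsg.Agent.Lib.Helper4.Stv
open scoped Pointwise

/-- The number of lattice vectors of a given sum of squares with two prescribed coordinates. -/
theorem count_pair (N : ℕ) (hN : N ≤ 64) (α β : ℤ) :
    {x : GolayPt → ℤ | x ∈ leechLattice ∧ sqNorm x = (N : ℤ) ∧ x Cnt.q0 = α ∧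
      x Cnt.q1 = β}.ncard =
      (Cnt.clsK.map fun k => k.2.2.2 * Cnt.hvalP N true k.2.1 k.2.2.1 k.1 α β).sum +
      (Cnt.clsK.map fun k => k.2.2.2 * Cnt.hvalP N false k.2.1 k.2.2.1 k.1 α β).sum := by
  classical
  have hset : {x : GolayPt → ℤ | x ∈ leechLattice ∧ sqNorm x = (N : ℤ) ∧ x Cnt.q0 = α ∧
      x Cnt.q1 = β} =
      ↑(((Finset.univ : Finset Bool) ×ˢ Cnt.Cfin).biUnion
        (fun bc => Cnt.FibP N bc.1 bc.2 α β)) := by
    ext x
    rw [Set.mem_ofPred_eq, Finset.mem_coe, Finset.mem_biUnion]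
    constructor
    · rintro ⟨h1, h2, h3, h4⟩
      obtain ⟨bb, c, hc, hx⟩ := (Cnt.mem_iff hN x).1 ⟨h1, h2⟩
      refine ⟨(bb, c), ?_, ?_⟩
      · rw [Finset.mem_product]
        exact ⟨Finset.mem_univ _, (Cnt.mem_Cfin c).2 hc⟩
      · rw [Cnt.mem_FibP]
        exact ⟨hx, h3, h4⟩
    · rintro ⟨⟨bb, c⟩, hbc, hx⟩
      rw [Cnt.mem_FibP] at hx
      rw [Finset.mem_product] at hbc
      have h' := (Cnt.mem_iff hN x).2 ⟨bb, c, (Cnt.mem_Cfin c).1 hbc.2, hx.1⟩
      exact ⟨h'.1, h'.2, hx.2.1, hx.2.2⟩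
  rw [hset, Set.ncard_coe_finset, Finset.card_biUnion, Finset.sum_product, Fintype.sum_bool]
  · simp only [Cnt.card_FibP]
    rw [Cnt.sum_classes (fun n a0 a1 => Cnt.hvalP N true a0 a1 n α β),
      Cnt.sum_classes (fun n a0 a1 => Cnt.hvalP N false a0 a1 n α β)]
  · rintro ⟨bb, c⟩ _ ⟨bb', c'⟩ _ hne
    rw [Function.onFun, Finset.disjoint_left]
    intro x hx hx'
    apply hne
    rw [Cnt.mem_FibP] at hx hx'
    obtain ⟨e1, e2⟩ := Cnt.FibF_inj hN hx.1 hx'.1
    have e1' : bb = bb' := e1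
    have e2' : c = c' := e2
    rw [e1', e2']

set_option maxRecDepth 100000 in
theorem table_5m1 :
    (Cnt.clsK.map fun k => k.2.2.2 * Cnt.hvalP 48 true k.2.1 k.2.2.1 k.1 5 (-1)).sum +
    (Cnt.clsK.map fun k => k.2.2.2 * Cnt.hvalP 48 false k.2.1 k.2.2.1 k.1 5 (-1)).sum = 1024 := by
  decide +kernel

/-- Exactly 1024 lattice vectors of sum of squares 48 have coordinates 5 and -1 at the two
reference points of the counting engine. -/
theorem count_5m1 : {x : GolayPt → ℤ | x ∈ leechLattice ∧ sqNorm x = ((48 : ℕ) : ℤ) ∧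
    x Cnt.q0 = 5 ∧ x Cnt.q1 = -1}.ncard = 1024 := by
  rw [count_pair 48 (by norm_num) 5 (-1)]
  exact table_5m1

theorem dot_wA1 (w : GolayPt → ℤ) :
    dotInt ((wA1 : leechLattice) : GolayPt → ℤ) w = 4 * (w a - w b) := by
  show dotInt (LeechGen.pp a b (-4)) w = _
  unfold dotInt LeechGen.pp
  simp only [add_mul, ite_mul, zero_mul]
  rw [Finset.sum_add_distrib, Finset.sum_ite_eq' Finset.univ a (fun k => 4 * w k),
    Finset.sum_ite_eq' Finset.univ b (fun k => -4 * w k), if_pos (Finset.mem_univ _),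
    if_pos (Finset.mem_univ _)]
  ring

theorem sgn_wA1 (c : GolayPt → ZMod 2) (hc : c ∈ golayCode) (ha : c a = 0) (hb : c b = 0) :
    CoA.sgnP c hc wA1 = wA1 := by
  apply Subtype.ext
  funext k
  rw [CoA.sgnP_apply]
  unfold CoA.sgn
  by_cases hk : c k = 1
  · rw [if_pos hk]
    have hka : k ≠ a := by
      rintro rfl
      rw [ha] at hk
      exact absurd hk (by decide)
    have hkb : k ≠ b := by
      rintro rfl
      rw [hb] at hk
      exact absurd hk (by decide)
    show -(LeechGen.pp a b (-4) k) = LeechGen.pp a b (-4) k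
    unfold LeechGen.pp
    rw [if_neg hka, if_neg hkb]
    norm_num
  · rw [if_neg hk]

/-- The standard orthogonal vector is mapped to its negative inside the stabiliser. -/
theorem flipA1 : RelV wA1 (-wA1) := by
  obtain ⟨g, hg, ga, gb⟩ := Stv.exists_swap
  have e : CoA.prmP g hg wA1 = -wA1 := by
    apply Subtype.ext
    funext k
    rw [CoA.prmP_apply]
    show LeechGen.pp a b (-4) (g k) = -(LeechGen.pp a b (-4) k)
    unfold LeechGen.pp
    have e1 : (g k = a) ↔ (k = b) := by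
      constructor
      · intro h
        apply g.injective
        rw [h, gb]
      · intro h
        rw [h, gb]
    have e2 : (g k = b) ↔ (k = a) := by
      constructor
      · intro h
        apply g.injective
        rw [h, ga]
      · intro h
        rw [h, ga]
    simp only [e1, e2]
    split_ifs <;> ring
  rw [← e]
  exact relV_swap g hg ga gb wA1

/-- The stabiliser of the standard vector is transitive on the shortest vectors orthogonal to
it. -/
theorem all_relV0 (w : leechLattice) (hn : sqNorm (w : GolayPt → ℤ) = 32)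
    (hd : (w : GolayPt → ℤ) a + (w : GolayPt → ℤ) b = 0) : RelV w wA1 := by
  rcases (all_relPM w hn hd).trans link1 with h | h
  · exact h
  · exact h.trans flipA1.symm

/-- Same orbit under the joint stabiliser of the standard vector and the standard orthogonal
vector. -/
def Rel2 (w w' : leechLattice) : Prop :=
  ∃ g ∈ Co0, g vStar = vStar ∧ g wA1 = wA1 ∧ g w = w'

/-- Sign changes fixing the two standard vectors. -/
theorem odd_rel2 (u t : leechLattice) (hodd : ∀ i, (t : GolayPt → ℤ) i % 2 = 1)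
    (habs : ∀ i, (u : GolayPt → ℤ) i = (t : GolayPt → ℤ) i ∨
      (u : GolayPt → ℤ) i = -(t : GolayPt → ℤ) i)
    (ha : (u : GolayPt → ℤ) a = (t : GolayPt → ℤ) a)
    (hb : (u : GolayPt → ℤ) b = (t : GolayPt → ℤ) b) : Rel2 u t := by
  have hmem : ((u : GolayPt → ℤ) - (t : GolayPt → ℤ)) ∈ leechLattice :=
    leechLattice.sub_mem u.2 t.2
  have he : ∀ k, (2 : ℤ) ∣ ((u : GolayPt → ℤ) - (t : GolayPt → ℤ)) k := by
    intro k
    rw [Pi.sub_apply]
    rcases habs k with h | h <;> rw [h] <;> omega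
  have hc := half_word _ hmem he
  obtain ⟨c, hcdef⟩ : ∃ c : GolayPt → ZMod 2, c = fun k =>
      (((((u : GolayPt → ℤ) - (t : GolayPt → ℤ)) k / 2 : ℤ)) : ZMod 2) := ⟨_, rfl⟩
  rw [← hcdef] at hc
  have hck : ∀ k, c k = 1 ↔ (u : GolayPt → ℤ) k ≠ (t : GolayPt → ℤ) k := by
    intro k
    have hz := Leech.zword_eq_one
      (fun k => (((u : GolayPt → ℤ) - (t : GolayPt → ℤ)) k / 2 : ℤ)) k
    have e : c k = zword (fun k => (((u : GolayPt → ℤ) - (t : GolayPt → ℤ)) k / 2 : ℤ)) k := by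
      rw [hcdef]
      rfl
    rw [e, hz]
    have ho := hodd k
    show ¬ (2 : ℤ) ∣ ((u : GolayPt → ℤ) k - (t : GolayPt → ℤ) k) / 2 ↔ _
    rcases habs k with h | h
    · rw [h]
      constructor
      · intro h2
        exfalso
        apply h2
        rw [sub_self]
        norm_num
      · intro h2
        exact absurd rfl h2
    · rw [h]
      constructor
      · intro _
        omega
      · intro _
        omega
  have hca : c a = 0 := by
    rcases z2_cases (c a) with h | h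
    · exact h
    · exact absurd ha ((hck a).1 h)
  have hcb : c b = 0 := by
    rcases z2_cases (c b) with h | h
    · exact h
    · exact absurd hb ((hck b).1 h)
  have hfin : CoA.sgnP c hc u = t := by
    apply Subtype.ext
    funext k
    rw [CoA.sgnP_apply]
    unfold CoA.sgn
    by_cases hk : c k = 1
    · rw [if_pos hk]
      have hne := (hck k).1 hk
      rcases habs k with h | h
      · exact absurd h hne
      · rw [h, neg_neg]
    · rw [if_neg hk]
      by_contra hne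
      exact hk ((hck k).2 hne)
  exact ⟨CoA.sgnP c hc, CoA.sgnP_mem c hc, sgn_vStar c hc hca hcb, sgn_wA1 c hc hca hcb, hfin⟩

/-- The shape of a vector of sum of squares 48 with a coordinate 5 at the first standard
point. -/
theorem shapeO5 (u : leechLattice) (hn : sqNorm (u : GolayPt → ℤ) = 48)
    (ha : (u : GolayPt → ℤ) a = 5) :
    ∀ k, ((u : GolayPt → ℤ) k % 2 = 1) ∧
      (k ≠ a → ((u : GolayPt → ℤ) k = 1 ∨ (u : GolayPt → ℤ) k = -1)) := by
  classical
  obtain ⟨hcase, hnn, hsum⟩ := odd_terms u hn a (by rw [ha]; norm_num)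
  intro k
  refine ⟨?_, ?_⟩
  · rw [parity_all _ u.2 k a, ha]
    norm_num
  · intro hk
    have h2 : ∑ j ∈ ({k, a} : Finset GolayPt), ((u : GolayPt → ℤ) j ^ 2 - 1) ≤
        ∑ j, ((u : GolayPt → ℤ) j ^ 2 - 1) :=
      Finset.sum_le_sum_of_subset_of_nonneg (Finset.subset_univ _) (fun j _ _ => hnn j)
    have h5 : (5 : ℤ) ^ 2 - 1 = 24 := by norm_num
    rw [Finset.sum_pair hk, hsum, ha, h5] at h2
    rcases hcase k with h | h | h
    · exact h
    · exfalso
      rcases h with h | h <;> rw [h] at h2 <;> norm_num at h2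
    · exfalso
      omega

/-- The joint stabiliser of the two standard vectors is transitive on the vectors of sum of
squares 48 having products 16 and 24 with them. -/
theorem rel2_O5 (u u' : leechLattice) (hn : sqNorm (u : GolayPt → ℤ) = 48)
    (hn' : sqNorm (u' : GolayPt → ℤ) = 48)
    (ha : (u : GolayPt → ℤ) a = 5) (hb : (u : GolayPt → ℤ) b = -1)
    (ha' : (u' : GolayPt → ℤ) a = 5) (hb' : (u' : GolayPt → ℤ) b = -1) : Rel2 u u' := by
  have s := shapeO5 u hn ha
  have s' := shapeO5 u' hn' ha'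
  apply odd_rel2 u u' (fun i => (s' i).1)
  · intro i
    by_cases hi : i = a
    · left
      rw [hi, ha, ha']
    · have h1 := (s i).2 hi
      have h2 := (s' i).2 hi
      omega
  · rw [ha, ha']
  · rw [hb, hb']

/-- Transitivity on triples: a shortest vector `z`, a vector `v` of sum of squares 48 with
product 16 with `z`, and a shortest vector orthogonal to `z` having product 24 with `v`. -/
theorem triple_trans (z v x x' : leechLattice) (hz : sqNorm (z : GolayPt → ℤ) = 32)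
    (hv : sqNorm (v : GolayPt → ℤ) = 48)
    (hx : sqNorm (x : GolayPt → ℤ) = 32) (hx' : sqNorm (x' : GolayPt → ℤ) = 32)
    (hzv : dotInt (z : GolayPt → ℤ) (v : GolayPt → ℤ) = 16)
    (hzx : dotInt (z : GolayPt → ℤ) (x : GolayPt → ℤ) = 0)
    (hzx' : dotInt (z : GolayPt → ℤ) (x' : GolayPt → ℤ) = 0)
    (hvx : dotInt (v : GolayPt → ℤ) (x : GolayPt → ℤ) = 24)
    (hvx' : dotInt (v : GolayPt → ℤ) (x' : GolayPt → ℤ) = 24) :
    ∃ g ∈ Co0, g z = z ∧ g v = v ∧ g x = x' := by
  obtain ⟨h, hh, hhz⟩ := exists_std z hz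
  have hh' : h⁻¹ ∈ Co0 := Co0.inv_mem hh
  have hinv : ∀ y : leechLattice, h (h⁻¹ y) = y := fun y => by simp
  have hdot : ∀ y y' : leechLattice,
      dotInt ((h⁻¹ y : leechLattice) : GolayPt → ℤ) ((h⁻¹ y' : leechLattice) : GolayPt → ℤ) =
        dotInt (y : GolayPt → ℤ) (y' : GolayPt → ℤ) := fun y y' => Orb.dot_pres h⁻¹ hh' y y'
  have hzs : h⁻¹ z = vStar := by
    rw [← hhz]
    simp
  -- the pulled back configuration
  have key : ∀ y : leechLattice, sqNorm (y : GolayPt → ℤ) = 32 →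
      dotInt (z : GolayPt → ℤ) (y : GolayPt → ℤ) = 0 →
      dotInt (v : GolayPt → ℤ) (y : GolayPt → ℤ) = 24 →
      ∃ g ∈ Co0, g vStar = vStar ∧ g (h⁻¹ y) = wA1 ∧
        sqNorm ((g (h⁻¹ v) : leechLattice) : GolayPt → ℤ) = 48 ∧
        ((g (h⁻¹ v) : leechLattice) : GolayPt → ℤ) a = 5 ∧
        ((g (h⁻¹ v) : leechLattice) : GolayPt → ℤ) b = -1 := by
    intro y hy hzy hvy
    have h1 : ((h⁻¹ y : leechLattice) : GolayPt → ℤ) a + ((h⁻¹ y : leechLattice) : GolayPt → ℤ) b
        = 0 := by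
      have e := hdot z y
      rw [hzs, hzy, dot_vStar] at e
      omega
    obtain ⟨g, hg, hgv, hgy⟩ := all_relV0 (h⁻¹ y) (by rw [hh'.2 y]; exact hy) h1
    refine ⟨g, hg, hgv, hgy, ?_, ?_⟩
    · rw [hg.2, hh'.2]
      exact hv
    · have e1 := Orb.dot_pres g hg vStar (h⁻¹ v)
      rw [hgv, ← hzs, hdot, hzv, hzs, dot_vStar] at e1
      have e2 := Orb.dot_pres g hg (h⁻¹ y) (h⁻¹ v)
      rw [hgy, hdot, LeechCross.dot_comm (y : GolayPt → ℤ) (v : GolayPt → ℤ), hvy, dot_wA1] at e2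
      constructor <;> omega
  obtain ⟨g1, hg1, g1v, g1x, n1, a1, b1⟩ := key x hx hzx hvx
  obtain ⟨g2, hg2, g2v, g2x, n2, a2, b2⟩ := key x' hx' hzx' hvx'
  obtain ⟨k, hk, kv, kw, ku⟩ := rel2_O5 _ _ n1 n2 a1 b1 a2 b2
  have hg2' : g2⁻¹ ∈ Co0 := Co0.inv_mem hg2
  have g2vi : g2⁻¹ vStar = vStar := by
    rw [Equiv.Perm.inv_eq_iff_eq]
    exact g2v.symm
  refine ⟨h * (g2⁻¹ * k * g1) * h⁻¹,
    Co0.mul_mem (Co0.mul_mem hh (Co0.mul_mem (Co0.mul_mem hg2' hk) hg1)) hh', ?_, ?_, ?_⟩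
  · show h (g2⁻¹ (k (g1 (h⁻¹ z)))) = z
    rw [hzs, g1v, kv, g2vi, hhz]
  · show h (g2⁻¹ (k (g1 (h⁻¹ v)))) = v
    rw [ku]
    simp
  · show h (g2⁻¹ (k (g1 (h⁻¹ x)))) = x'
    rw [g1x, kw, ← g2x]
    simp

end Tri
end Cfsg.Agent.Lib.Helper28
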