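import Cfsg.Agent.Lib.Helper28.Aff9
import Cfsg.Agent.S0409
import Cfsg.Agent.S0357
set_option autoImplicit false
open Cfsg
namespace Cfsg.Agent.Lib.Helper28.Aff9
open Finset
open Cfsg.Agent.Lib.Helper4 Cfsg.Agent.Lib.Helper28.Ext23 Cfsg.Agent.S0410

theorem four_eq {γ : Type*} [DecidableEq γ] {S : Finset γ} {w1 w2 w3 w4 : γ} (h4 : S.card = 4)
    (m1 : w1 ∈ S) (m2 : w2 ∈ S) (m3 : w3 ∈ S) (m4 : w4 ∈ S) (d12 : w1 ≠ w2) (d13 : w1 ≠ w3)
    (d14 : w1 ≠ w4) (d23 : w2 ≠ w3) (d24 : w2 ≠ w4) (d34 : w3 ≠ w4) : S = {w1, w2, w3, w4} := by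
  symm
  apply Finset.eq_of_subset_of_card_le
  · intro y hy
    simp only [Finset.mem_insert, Finset.mem_singleton] at hy
    rcases hy with rfl | rfl | rfl | rfl <;> assumption
  · rw [h4, Finset.card_insert_of_notMem, Finset.card_insert_of_notMem,
      Finset.card_insert_of_notMem, Finset.card_singleton]
    · simpa using d34
    · simp [d23, d24]
    · simp [d12, d13, d14]

theorem sum_three {u v w : P9} (huv : u ≠ v) (huw : u ≠ w) (hvw : v ≠ w) :
    ∑ x ∈ ({u, v, w} : Finset P9), x = u + v + w := by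
  rw [Finset.sum_insert (by simp [huv, huw]), Finset.sum_insert (by simpa using hvw),
    Finset.sum_singleton, add_assoc]

theorem mem_L9_of {u v w : P9} (huv : u ≠ v) (huw : u ≠ w) (hvw : v ≠ w) (h : u + v + w = 0) :
    ({u, v, w} : Finset P9) ∈ L9 :=
  ⟨Finset.card_eq_three.2 ⟨u, v, w, huv, huw, hvw, rfl⟩, (sum_three huv huw hvw).trans h⟩

theorem card_some3 {γ : Type*} [DecidableEq γ] {u v w : γ} (huv : u ≠ v) (huw : u ≠ w)
    (hvw : v ≠ w) : ({some u, some v, some w} : Finset (Option γ)).card = 3 :=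
  Finset.card_eq_three.2 ⟨_, _, _, fun e => huv (Option.some_injective _ e),
    fun e => huw (Option.some_injective _ e), fun e => hvw (Option.some_injective _ e), rfl⟩

section Ext10

variable {D : Set (Finset (Option P9))}

/-- No three points of a block off the extra point are collinear. -/
theorem f_arc (hD : IsSteinerSystem 3 4 D) (hder : der D = L9) {S : Finset P9}
    (hS : S.map Function.Embedding.some ∈ D) {u v w : P9} (hu : u ∈ S) (hv : v ∈ S) (hw : w ∈ S)
    (huv : u ≠ v) (huw : u ≠ w) (hvw : v ≠ w) : u + v + w ≠ 0 := by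
  intro h
  have hl : ({u, v, w} : Finset P9) ∈ der D := by
    rw [hder]
    exact mem_L9_of huv huw hvw h
  have hl' : Finset.insertNone ({u, v, w} : Finset P9) ∈ D := hl
  have hsub : ({some u, some v, some w} : Finset (Option P9)) ⊆
      S.map Function.Embedding.some ∩ Finset.insertNone ({u, v, w} : Finset P9) := by
    intro z hz
    simp only [Finset.mem_insert, Finset.mem_singleton] at hz
    rw [Finset.mem_inter]
    rcases hz with rfl | rfl | rfl
    · exact ⟨Finset.mem_map.2 ⟨u, hu, rfl⟩, Finset.some_mem_insertNone.2 (by simp)⟩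
    · exact ⟨Finset.mem_map.2 ⟨v, hv, rfl⟩, Finset.some_mem_insertNone.2 (by simp)⟩
    · exact ⟨Finset.mem_map.2 ⟨w, hw, rfl⟩, Finset.some_mem_insertNone.2 (by simp)⟩
  have hc := Finset.card_le_card hsub
  rw [card_some3 huv huw hvw] at hc
  have e := Steiner.eq_of_le_inter hD hS hl' hc
  have hn : none ∈ S.map Function.Embedding.some := by
    rw [e]
    exact Finset.none_mem_insertNone
  obtain ⟨y, -, e2⟩ := Finset.mem_map.1 hn
  exact Option.some_ne_none _ e2

theorem f_eq (hD : IsSteinerSystem 3 4 D) {S S' : Finset P9}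
    (hS : S.map Function.Embedding.some ∈ D) (hS' : S'.map Function.Embedding.some ∈ D)
    {u v w : P9} (hu : u ∈ S) (hv : v ∈ S) (hw : w ∈ S) (hu' : u ∈ S') (hv' : v ∈ S')
    (hw' : w ∈ S') (huv : u ≠ v) (huw : u ≠ w) (hvw : v ≠ w) : S = S' := by
  have hsub : ({some u, some v, some w} : Finset (Option P9)) ⊆
      S.map Function.Embedding.some ∩ S'.map Function.Embedding.some := by
    intro z hz
    simp only [Finset.mem_insert, Finset.mem_singleton] at hz
    rw [Finset.mem_inter]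
    rcases hz with rfl | rfl | rfl
    · exact ⟨Finset.mem_map.2 ⟨u, hu, rfl⟩, Finset.mem_map.2 ⟨u, hu', rfl⟩⟩
    · exact ⟨Finset.mem_map.2 ⟨v, hv, rfl⟩, Finset.mem_map.2 ⟨v, hv', rfl⟩⟩
    · exact ⟨Finset.mem_map.2 ⟨w, hw, rfl⟩, Finset.mem_map.2 ⟨w, hw', rfl⟩⟩
  have hc := Finset.card_le_card hsub
  rw [card_some3 huv huw hvw] at hc
  have e := Steiner.eq_of_le_inter hD hS hS' hc
  exact Finset.map_injective _ e

theorem f_card (hD : IsSteinerSystem 3 4 D) {S : Finset P9}
    (hS : S.map Function.Embedding.some ∈ D) : S.card = 4 := by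
  have h := hD.1 _ hS
  rwa [Finset.card_map] at h

theorem f_exists (hD : IsSteinerSystem 3 4 D) (hder : der D = L9) {p q r : P9} (hpq : p ≠ q)
    (hpr : p ≠ r) (hqr : q ≠ r) (hs : p + q + r ≠ 0) :
    ∃ S : Finset P9, S.map Function.Embedding.some ∈ D ∧ p ∈ S ∧ q ∈ S ∧ r ∈ S := by
  obtain ⟨E, ⟨hE, hsub⟩, -⟩ := hD.2 _ (card_some3 hpq hpr hqr)
  have mp : p ∈ Finset.eraseNone E := Finset.mem_eraseNone.2 (hsub (by simp))
  have mq : q ∈ Finset.eraseNone E := Finset.mem_eraseNone.2 (hsub (by simp))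
  have mr : r ∈ Finset.eraseNone E := Finset.mem_eraseNone.2 (hsub (by simp))
  have hn : none ∉ E := by
    intro hn
    have h1 : Finset.eraseNone E ∈ der D := by
      show Finset.insertNone (Finset.eraseNone E) ∈ D
      rw [ins_erase hn]
      exact hE
    rw [hder] at h1
    have hsub2 : ({p, q, r} : Finset P9) ⊆ Finset.eraseNone E := by
      intro z hz
      simp only [Finset.mem_insert, Finset.mem_singleton] at hz
      rcases hz with rfl | rfl | rfl <;> assumption
    have h3' : ({p, q, r} : Finset P9).card = 3 :=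
      Finset.card_eq_three.2 ⟨p, q, r, hpq, hpr, hqr, rfl⟩
    have heq : ({p, q, r} : Finset P9) = Finset.eraseNone E :=
      Finset.eq_of_subset_of_card_le hsub2 (by rw [h1.1, h3'])
    have hsum := h1.2
    rw [← heq, sum_three hpq hpr hqr] at hsum
    exact hs hsum
  refine ⟨Finset.eraseNone E, ?_, mp, mq, mr⟩
  rw [map_erase hn]
  exact hE

theorem mem_Qd {c a b y : P9} : y ∈ Qd c a b ↔ y = c + a ∨ y = c - a ∨ y = c + b ∨ y = c - b := by
  simp [Qd]

theorem mem_Pg {c a b y : P9} :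
    y ∈ Pg c a b ↔ y = c ∨ y = c + a ∨ y = c + b ∨ y = c + a + b := by
  simp [Pg]

/-- From a quadrangle of the system to the parallelogram spanned by its half-diagonals. -/
theorem rule (hD : IsSteinerSystem 3 4 D) (hder : der D = L9) {c a b : P9} (hab : Indep a b)
    (hQ : (Qd c a b).map Function.Embedding.some ∈ D) :
    (Pg c a b).map Function.Embedding.some ∈ D := by
  obtain ⟨t1, t2, t3, t4, t5, t6, t7, t8, t9, t10, t11, t12⟩ := d_trip c a b hab
  obtain ⟨S, hS, hp, hr, hx⟩ := f_exists hD hder t1 t2 t3 t4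
  have h4 := f_card hD hS
  have h3 : ({c + a, c + b, c + a + b} : Finset P9).card = 3 :=
    Finset.card_eq_three.2 ⟨_, _, _, t1, t2, t3, rfl⟩
  obtain ⟨z, hzS, hzT⟩ := Finset.exists_mem_notMem_of_card_lt_card
    (show ({c + a, c + b, c + a + b} : Finset P9).card < S.card by rw [h3, h4]; norm_num)
  simp only [Finset.mem_insert, Finset.mem_singleton, not_or] at hzT
  have z1 : z ≠ c - a := by
    intro e
    rw [e] at hzS
    have h := f_eq hD hS hQ hp hr hzS (mem_Qd.2 (Or.inl rfl))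
      (mem_Qd.2 (Or.inr (Or.inr (Or.inl rfl)))) (mem_Qd.2 (Or.inr (Or.inl rfl))) t1 t5 t6
    rw [h] at hx
    rcases mem_Qd.1 hx with e | e | e | e
    · exact t9 e
    · exact t10 e
    · exact t11 e
    · exact t12 e
  have z2 : z ≠ c - b := by
    intro e
    rw [e] at hzS
    have h := f_eq hD hS hQ hp hr hzS (mem_Qd.2 (Or.inl rfl))
      (mem_Qd.2 (Or.inr (Or.inr (Or.inl rfl)))) (mem_Qd.2 (Or.inr (Or.inr (Or.inr rfl)))) t1 t7 t8
    rw [h] at hx
    rcases mem_Qd.1 hx with e | e | e | e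
    · exact t9 e
    · exact t10 e
    · exact t11 e
    · exact t12 e
  have z3 : z + (c + a) + (c + a + b) ≠ 0 := f_arc hD hder hS hzS hp hx hzT.1 hzT.2.2 t2
  have z4 : z + (c + b) + (c + a + b) ≠ 0 := f_arc hD hder hS hzS hr hx hzT.2.1 hzT.2.2 t3
  have z5 : z + (c + a) + (c + b) ≠ 0 := f_arc hD hder hS hzS hp hr hzT.1 hzT.2.1 t1
  have hz := d_third c a b z ⟨hab, hzT.1, hzT.2.1, hzT.2.2, z1, z2, z3, z4, z5⟩
  rw [hz] at hzS hzT
  have e : S = Pg c a b := four_eq h4 hzS hp hr hx hzT.1 hzT.2.1 hzT.2.2 t1 t2 t3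
  rw [← e]
  exact hS

theorem tr_a (hD : IsSteinerSystem 3 4 D) (hder : der D = L9) {c a b : P9} (hab : Indep a b)
    (hQ : (Qd c a b).map Function.Embedding.some ∈ D) :
    (Qd (c - a) a b).map Function.Embedding.some ∈ D := by
  have h1 := rule hD hder hab hQ
  rw [d_id1] at h1
  have h2 := rule hD hder (d_ind1 a b hab).1 h1
  rw [d_id2] at h2
  exact h2

theorem tr_b (hD : IsSteinerSystem 3 4 D) (hder : der D = L9) {c a b : P9} (hab : Indep a b)
    (hQ : (Qd c a b).map Function.Embedding.some ∈ D) :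
    (Qd (c - b) a b).map Function.Embedding.some ∈ D := by
  rw [d_id3] at hQ ⊢
  exact tr_a hD hder (d_ind1 a b hab).2 hQ

theorem tr_all (hD : IsSteinerSystem 3 4 D) (hder : der D = L9) {c a b : P9} (hab : Indep a b)
    (hQ : (Qd c a b).map Function.Embedding.some ∈ D) (c' : P9) :
    (Qd c' a b).map Function.Embedding.some ∈ D := by
  have ha : ∀ x, (Qd x a b).map Function.Embedding.some ∈ D →
      (Qd (x + a) a b).map Function.Embedding.some ∈ D := by
    intro x hx
    have h := tr_a hD hder hab (tr_a hD hder hab hx)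
    rwa [d_sub3] at h
  have hb : ∀ x, (Qd x a b).map Function.Embedding.some ∈ D →
      (Qd (x + b) a b).map Function.Embedding.some ∈ D := by
    intro x hx
    have h := tr_b hD hder hab (tr_b hD hder hab hx)
    rwa [d_sub3] at h
  have han : ∀ n : ℕ, ∀ x, (Qd x a b).map Function.Embedding.some ∈ D →
      (Qd (x + n • a) a b).map Function.Embedding.some ∈ D := by
    intro n
    induction n with
    | zero =>
      intro x hx
      rwa [zero_nsmul, add_zero]
    | succ n ih =>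
      intro x hx
      have h := ha _ (ih x hx)
      rwa [add_assoc, ← succ_nsmul] at h
  have hbn : ∀ n : ℕ, ∀ x, (Qd x a b).map Function.Embedding.some ∈ D →
      (Qd (x + n • b) a b).map Function.Embedding.some ∈ D := by
    intro n
    induction n with
    | zero =>
      intro x hx
      rwa [zero_nsmul, add_zero]
    | succ n ih =>
      intro x hx
      have h := hb _ (ih x hx)
      rwa [add_assoc, ← succ_nsmul] at h
  obtain ⟨i, j, hij⟩ := d_span a b (c' - c) hab
  have h := hbn j _ (han i c hQ)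
  have e : c + (i : ℕ) • a + (j : ℕ) • b = c' := by
    rw [add_assoc, ← hij]
    abel
  rwa [e] at h

/-- The blocks off the extra point of an extension of the plane form one of the three
classes. -/
theorem ext10 (hD : IsSteinerSystem 3 4 D) (hder : der D = L9) :
    ∃ k : Fin 3, ∀ S : Finset P9, S.map Function.Embedding.some ∈ D ↔ S ∈ Cl k := by
  obtain ⟨e1, e2, e3, e4⟩ := d_t0
  obtain ⟨S0, hS0, h00, h10, h01⟩ := f_exists hD hder e1 e2 e3 e4
  have h4 := f_card hD hS0
  have h3 : ({(0, 0), (1, 0), (0, 1)} : Finset P9).card = 3 :=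
    Finset.card_eq_three.2 ⟨_, _, _, e1, e2, e3, rfl⟩
  obtain ⟨z, hzS, hzT⟩ := Finset.exists_mem_notMem_of_card_lt_card
    (show ({(0, 0), (1, 0), (0, 1)} : Finset P9).card < S0.card by rw [h3, h4]; norm_num)
  simp only [Finset.mem_insert, Finset.mem_singleton, not_or] at hzT
  have hS0' : S0 = {(0, 0), (1, 0), (0, 1), z} :=
    four_eq h4 h00 h10 h01 hzS e1 e2 (Ne.symm hzT.1) e3 (Ne.symm hzT.2.1) (Ne.symm hzT.2.2)
  have hz := d_cand z ⟨hzT.1, hzT.2.1, hzT.2.2,
    f_arc hD hder hS0 hzS h00 h10 hzT.1 hzT.2.1 e1,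
    f_arc hD hder hS0 hzS h00 h01 hzT.1 hzT.2.2 e2,
    f_arc hD hder hS0 hzS h10 h01 hzT.2.1 hzT.2.2 e3⟩
  have hk : ∃ k : Fin 3, ∃ c0, S0 = Qd c0 av (bv k) := by
    rcases hz with rfl | rfl | rfl
    · exact ⟨0, _, hS0'.trans d_q0⟩
    · exact ⟨1, _, hS0'.trans d_q1⟩
    · exact ⟨2, _, hS0'.trans d_q2⟩
  obtain ⟨k, c0, hk⟩ := hk
  rw [hk] at hS0
  have hall := tr_all hD hder (d_indk k) hS0
  refine ⟨k, fun S => ⟨fun hS => ?_, ?_⟩⟩
  · have hS4 := f_card hD hS
    obtain ⟨T, hTS, hT3⟩ := Finset.exists_subset_card_eq (show 3 ≤ S.card by omega)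
    obtain ⟨p, q, r, hpq, hpr, hqr, rfl⟩ := Finset.card_eq_three.1 hT3
    have hp : p ∈ S := hTS (by simp)
    have hq : q ∈ S := hTS (by simp)
    have hr : r ∈ S := hTS (by simp)
    have hs := f_arc hD hder hS hp hq hr hpq hpr hqr
    obtain ⟨c, hc | hc⟩ := d_cover k p q r ⟨hpq, hpr, hqr, hs⟩
    · exact ⟨c, Or.inl (f_eq hD hS (hall c) hp hq hr (hc (by simp)) (hc (by simp))
        (hc (by simp)) hpq hpr hqr)⟩
    · exact ⟨c, Or.inr (f_eq hD hS (rule hD hder (d_indk k) (hall c)) hp hq hr (hc (by simp))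
        (hc (by simp)) (hc (by simp)) hpq hpr hqr)⟩
  · rintro ⟨c, rfl | rfl⟩
    · exact hall c
    · exact rule hD hder (d_indk k) (hall c)

end Ext10


section Plane

variable {Ω : Type*} [Fintype Ω] [DecidableEq Ω] {L : Set (Finset Ω)}

theorem p_deg (hΩ : Fintype.card Ω = 9) (hL : IsSteinerSystem 2 3 L) (T : Finset Ω) :
    (T.card = 0 → Steiner.deg L T = 12) ∧ (T.card = 1 → Steiner.deg L T = 4) ∧
      (T.card = 2 → Steiner.deg L T = 1) := by
  refine ⟨?_, ?_, ?_⟩ <;> intro h <;>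
  · have h1 := Steiner.deg_mul hL T (by omega)
    rw [h, hΩ] at h1
    norm_num [Nat.choose] at h1
    omega

theorem playfair (hΩ : Fintype.card Ω = 9) (hL : IsSteinerSystem 2 3 L) {ℓ : Finset Ω}
    (hℓ : ℓ ∈ L) {p : Ω} (hp : p ∉ ℓ) : Steiner.cnt L {p} ℓ 0 = 1 := by
  have hc : ℓ.card = 3 := hL.1 ℓ hℓ
  have hd := fun T => p_deg hΩ hL T
  have hdisj : Disjoint ({p} : Finset Ω) ℓ := Finset.disjoint_singleton_left.2 hp
  have e0 := Steiner.sum_choose_cnt L {p} ℓ hdisj 0 4 4
    (fun T hT => (hd T).2.1 (by simpa using hT)) (by omega)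
  have e1 := Steiner.sum_choose_cnt L {p} ℓ hdisj 1 1 4
    (fun T hT => (hd T).2.2 (by simpa using hT)) (by omega)
  have z : ∀ j, 2 ≤ j → Steiner.cnt L {p} ℓ j = 0 := by
    intro j hj
    apply Steiner.cnt_eq_zero
    intro d hd hpd hdj
    have hdl : d = ℓ := Steiner.eq_of_le_inter hL hd hℓ (by omega)
    rw [hdl] at hpd
    exact hp (hpd (Finset.mem_singleton_self p))
  simp only [Finset.sum_range_succ, Finset.sum_range_zero, hc, z 2 (by norm_num),
    z 3 (by norm_num)] at e0 e1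
  norm_num [Nat.choose] at e0 e1
  omega

theorem par_count (hΩ : Fintype.card Ω = 9) (hL : IsSteinerSystem 2 3 L) {ℓ : Finset Ω}
    (hℓ : ℓ ∈ L) : Steiner.cnt L ∅ ℓ 0 = 2 := by
  have hc : ℓ.card = 3 := hL.1 ℓ hℓ
  have hd := fun T => p_deg hΩ hL T
  have e0 := Steiner.sum_choose_cnt L ∅ ℓ (Finset.disjoint_empty_left _) 0 12 4
    (fun T hT => (hd T).1 (by simpa using hT)) (by omega)
  have e1 := Steiner.sum_choose_cnt L ∅ ℓ (Finset.disjoint_empty_left _) 1 4 4
    (fun T hT => (hd T).2.1 (by simpa using hT)) (by omega)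
  have m2 := Steiner.cnt_block_mid hL hℓ (j := 2) (by norm_num) (by norm_num)
  have m3 := Steiner.cnt_block_self hL hℓ (by norm_num)
  simp only [Finset.sum_range_succ, Finset.sum_range_zero, hc, m2, m3] at e0 e1
  norm_num [Nat.choose] at e0 e1
  omega

/-- The two lines parallel to a given line. -/
theorem par_class (hΩ : Fintype.card Ω = 9) (hL : IsSteinerSystem 2 3 L) {X0 : Finset Ω}
    (hX0 : X0 ∈ L) : ∃ X1 X2, X1 ∈ L ∧ X2 ∈ L ∧ Disjoint X0 X1 ∧ Disjoint X0 X2 ∧
      Disjoint X1 X2 := by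
  have h2 := par_count hΩ hL hX0
  rw [Steiner.cnt, Finset.card_eq_two] at h2
  obtain ⟨X1, X2, hne, hset⟩ := h2
  have m1 : X1 ∈ (Steiner.blocks L).filter (fun d => ∅ ⊆ d ∧ (d ∩ X0).card = 0) := by
    rw [hset]
    simp
  have m2 : X2 ∈ (Steiner.blocks L).filter (fun d => ∅ ⊆ d ∧ (d ∩ X0).card = 0) := by
    rw [hset]
    simp
  rw [Finset.mem_filter, Steiner.mem_blocks] at m1 m2
  have d1 : Disjoint X0 X1 := by
    rw [Finset.disjoint_iff_inter_eq_empty, Finset.inter_comm, ← Finset.card_eq_zero]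
    exact m1.2.2
  have d2 : Disjoint X0 X2 := by
    rw [Finset.disjoint_iff_inter_eq_empty, Finset.inter_comm, ← Finset.card_eq_zero]
    exact m2.2.2
  refine ⟨X1, X2, m1.1, m2.1, d1, d2, ?_⟩
  rw [Finset.disjoint_left]
  intro p hp1 hp2
  have hp0 : p ∉ X0 := fun h => Finset.disjoint_left.1 d1 h hp1
  have h1 := playfair hΩ hL hX0 hp0
  rw [Steiner.cnt, Finset.card_eq_one] at h1
  obtain ⟨Z, hZ⟩ := h1
  have n1 : X1 ∈ (Steiner.blocks L).filter (fun d => {p} ⊆ d ∧ (d ∩ X0).card = 0) :=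
    Finset.mem_filter.2 ⟨Steiner.mem_blocks.2 m1.1, Finset.singleton_subset_iff.2 hp1, m1.2.2⟩
  have n2 : X2 ∈ (Steiner.blocks L).filter (fun d => {p} ⊆ d ∧ (d ∩ X0).card = 0) :=
    Finset.mem_filter.2 ⟨Steiner.mem_blocks.2 m2.1, Finset.singleton_subset_iff.2 hp2, m2.2.2⟩
  rw [hZ, Finset.mem_singleton] at n1 n2
  exact hne (n1.trans n2.symm)

theorem par_cover (hΩ : Fintype.card Ω = 9) (hL : IsSteinerSystem 2 3 L) {X0 X1 X2 : Finset Ω}
    (h0 : X0 ∈ L) (h1 : X1 ∈ L) (h2 : X2 ∈ L) (d01 : Disjoint X0 X1) (d02 : Disjoint X0 X2)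
    (d12 : Disjoint X1 X2) (p : Ω) : p ∈ X0 ∨ p ∈ X1 ∨ p ∈ X2 := by
  have hc : (X0 ∪ (X1 ∪ X2)).card = Fintype.card Ω := by
    rw [Finset.card_union_of_disjoint (Finset.disjoint_union_right.2 ⟨d01, d02⟩),
      Finset.card_union_of_disjoint d12, hL.1 X0 h0, hL.1 X1 h1, hL.1 X2 h2, hΩ]
  have hu := Finset.eq_univ_of_card _ hc
  have hp : p ∈ X0 ∪ (X1 ∪ X2) := by
    rw [hu]
    exact Finset.mem_univ p
  rw [Finset.mem_union, Finset.mem_union] at hp
  exact hp

/-- The index of a point with respect to a parallel class. -/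
def idx (X0 X1 : Finset Ω) (p : Ω) : ZMod 3 := if p ∈ X0 then 0 else if p ∈ X1 then 1 else 2

theorem zmod3_sum : ∀ a b c : ZMod 3, ((a = b ∧ b = c) ∨ (a ≠ b ∧ a ≠ c ∧ b ≠ c)) →
    a + b + c = 0 := by decide

theorem zmod3_all : ∀ a b c t : ZMod 3, (a ≠ b ∧ a ≠ c ∧ b ≠ c) → t = a ∨ t = b ∨ t = c := by
  decide

theorem idx_line (hL : IsSteinerSystem 2 3 L) {X0 X1 X2 : Finset Ω} (h0 : X0 ∈ L) (h1 : X1 ∈ L)
    (h2 : X2 ∈ L) (hcov : ∀ p, p ∈ X0 ∨ p ∈ X1 ∨ p ∈ X2) {ℓ : Finset Ω} (hℓ : ℓ ∈ L) {p q : Ω}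
    (hp : p ∈ ℓ) (hq : q ∈ ℓ) (hpq : p ≠ q) (he : idx X0 X1 p = idx X0 X1 q) :
    ℓ = X0 ∨ ℓ = X1 ∨ ℓ = X2 := by
  have key : ∀ X ∈ L, p ∈ X → q ∈ X → ℓ = X := by
    intro X hX hpX hqX
    apply Steiner.eq_of_le_inter hL hℓ hX
    have hsub : ({p, q} : Finset Ω) ⊆ ℓ ∩ X := by
      intro z hz
      simp only [Finset.mem_insert, Finset.mem_singleton] at hz
      rcases hz with rfl | rfl
      · exact Finset.mem_inter.2 ⟨hp, hpX⟩
      · exact Finset.mem_inter.2 ⟨hq, hqX⟩
    have hc := Finset.card_le_card hsub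
    rwa [Finset.card_pair hpq] at hc
  unfold idx at he
  by_cases p0 : p ∈ X0
  · by_cases q0 : q ∈ X0
    · exact Or.inl (key X0 h0 p0 q0)
    · rw [if_pos p0, if_neg q0] at he
      by_cases q1 : q ∈ X1
      · rw [if_pos q1] at he
        exact absurd he (by decide)
      · rw [if_neg q1] at he
        exact absurd he (by decide)
  · rw [if_neg p0] at he
    by_cases p1 : p ∈ X1
    · rw [if_pos p1] at he
      by_cases q0 : q ∈ X0
      · rw [if_pos q0] at he
        exact absurd he (by decide)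
      · rw [if_neg q0] at he
        by_cases q1 : q ∈ X1
        · exact Or.inr (Or.inl (key X1 h1 p1 q1))
        · rw [if_neg q1] at he
          exact absurd he (by decide)
    · rw [if_neg p1] at he
      by_cases q0 : q ∈ X0
      · rw [if_pos q0] at he
        exact absurd he (by decide)
      · rw [if_neg q0] at he
        by_cases q1 : q ∈ X1
        · rw [if_pos q1] at he
          exact absurd he (by decide)
        · have p2 : p ∈ X2 := by
            rcases hcov p with h | h | h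
            · exact absurd h p0
            · exact absurd h p1
            · exact h
          have q2 : q ∈ X2 := by
            rcases hcov q with h | h | h
            · exact absurd h q0
            · exact absurd h q1
            · exact h
          exact Or.inr (Or.inr (key X2 h2 p2 q2))

theorem idx_val {X0 X1 X2 : Finset Ω} (d01 : Disjoint X0 X1) (d02 : Disjoint X0 X2)
    (d12 : Disjoint X1 X2) :
    (∀ z ∈ X0, idx X0 X1 z = 0) ∧ (∀ z ∈ X1, idx X0 X1 z = 1) ∧ (∀ z ∈ X2, idx X0 X1 z = 2) := by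
  refine ⟨fun z hz => if_pos hz, fun z hz => ?_, fun z hz => ?_⟩
  · unfold idx
    rw [if_neg (fun h0 => Finset.disjoint_left.1 d01 h0 hz), if_pos hz]
  · unfold idx
    rw [if_neg (fun h0 => Finset.disjoint_left.1 d02 h0 hz),
      if_neg (fun h1 => Finset.disjoint_left.1 d12 h1 hz)]

theorem idx_const {X0 X1 X2 : Finset Ω} (d01 : Disjoint X0 X1) (d02 : Disjoint X0 X2)
    (d12 : Disjoint X1 X2) {ℓ : Finset Ω} (h : ℓ = X0 ∨ ℓ = X1 ∨ ℓ = X2) {p q : Ω} (hp : p ∈ ℓ)
    (hq : q ∈ ℓ) : idx X0 X1 p = idx X0 X1 q := by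
  obtain ⟨v0, v1, v2⟩ := idx_val d01 d02 d12
  rcases h with rfl | rfl | rfl
  · rw [v0 p hp, v0 q hq]
  · rw [v1 p hp, v1 q hq]
  · rw [v2 p hp, v2 q hq]

theorem idx_sum (hL : IsSteinerSystem 2 3 L) {X0 X1 X2 : Finset Ω} (h0 : X0 ∈ L) (h1 : X1 ∈ L)
    (h2 : X2 ∈ L) (hcov : ∀ p, p ∈ X0 ∨ p ∈ X1 ∨ p ∈ X2) (d01 : Disjoint X0 X1)
    (d02 : Disjoint X0 X2) (d12 : Disjoint X1 X2) {ℓ : Finset Ω} (hℓ : ℓ ∈ L) :
    ∑ p ∈ ℓ, idx X0 X1 p = 0 := by
  obtain ⟨p, q, r, hpq, hpr, hqr, e⟩ := Finset.card_eq_three.1 (hL.1 ℓ hℓ)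
  have hp : p ∈ ℓ := by rw [e]; simp
  have hq : q ∈ ℓ := by rw [e]; simp
  have hr : r ∈ ℓ := by rw [e]; simp
  have hsum : ∑ z ∈ ℓ, idx X0 X1 z = idx X0 X1 p + idx X0 X1 q + idx X0 X1 r := by
    rw [e, Finset.sum_insert (by simp [hpq, hpr]), Finset.sum_insert (by simpa using hqr),
      Finset.sum_singleton, add_assoc]
  rw [hsum]
  apply zmod3_sum
  by_cases hcase : ℓ = X0 ∨ ℓ = X1 ∨ ℓ = X2
  · left
    exact ⟨idx_const d01 d02 d12 hcase hp hq, idx_const d01 d02 d12 hcase hq hr⟩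
  · right
    exact ⟨fun e' => hcase (idx_line hL h0 h1 h2 hcov hℓ hp hq hpq e'),
      fun e' => hcase (idx_line hL h0 h1 h2 hcov hℓ hp hr hpr e'),
      fun e' => hcase (idx_line hL h0 h1 h2 hcov hℓ hq hr hqr e')⟩

theorem L9_third {b : Finset P9} (hb : b ∈ L9) {u v : P9} (hu : u ∈ b) (hv : v ∈ b)
    (huv : u ≠ v) : b = {u, v, -u - v} := by
  obtain ⟨x, hxb, hx⟩ := Finset.exists_mem_notMem_of_card_lt_card
    (show ({u, v} : Finset P9).card < b.card by rw [Finset.card_pair huv, hb.1]; norm_num)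
  simp only [Finset.mem_insert, Finset.mem_singleton, not_or] at hx
  have h3 : ({u, v, x} : Finset P9).card = 3 :=
    Finset.card_eq_three.2 ⟨u, v, x, huv, Ne.symm hx.1, Ne.symm hx.2, rfl⟩
  have hsub : ({u, v, x} : Finset P9) ⊆ b := by
    intro z hz
    simp only [Finset.mem_insert, Finset.mem_singleton] at hz
    rcases hz with rfl | rfl | rfl <;> assumption
  have heq : ({u, v, x} : Finset P9) = b :=
    Finset.eq_of_subset_of_card_le hsub (by rw [hb.1, h3])
  have hsum := hb.2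
  rw [← heq, sum_three huv (Ne.symm hx.1) (Ne.symm hx.2)] at hsum
  have hx' : x = -u - v := by linear_combination hsum
  rw [← heq, hx']

/-- Every system with the parameters of the affine plane of order three is isomorphic to the
standard plane. -/
theorem plane_iso (hΩ : Fintype.card Ω = 9) (hL : IsSteinerSystem 2 3 L) :
    ∃ f : Ω ≃ P9, (fun b : Finset Ω => b.image f) '' L = L9 := by
  obtain ⟨s, -, hs2⟩ := Finset.exists_subset_card_eq
    (show 2 ≤ (univ : Finset Ω).card by rw [Finset.card_univ, hΩ]; norm_num)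
  obtain ⟨X0, ⟨hX0, -⟩, -⟩ := hL.2 s hs2
  obtain ⟨X1, X2, hX1, hX2, d01, d02, d12⟩ := par_class hΩ hL hX0
  have hcovX := par_cover hΩ hL hX0 hX1 hX2 d01 d02 d12
  obtain ⟨p, hp⟩ := Finset.card_pos.1 (by rw [hL.1 X0 hX0]; norm_num : 0 < X0.card)
  obtain ⟨q, hq⟩ := Finset.card_pos.1 (by rw [hL.1 X1 hX1]; norm_num : 0 < X1.card)
  have hpq : p ≠ q := fun e => Finset.disjoint_left.1 d01 hp (e ▸ hq)
  obtain ⟨Y0, ⟨hY0, hsY0⟩, -⟩ := hL.2 {p, q} (Finset.card_pair hpq)
  have pY : p ∈ Y0 := hsY0 (by simp)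
  have qY : q ∈ Y0 := hsY0 (by simp)
  obtain ⟨Y1, Y2, hY1, hY2, e01, e02, e12⟩ := par_class hΩ hL hY0
  have hcovY := par_cover hΩ hL hY0 hY1 hY2 e01 e02 e12
  obtain ⟨v0, v1, v2⟩ := idx_val d01 d02 d12
  have hY0X : ¬(Y0 = X0 ∨ Y0 = X1 ∨ Y0 = X2) := by
    rintro (e | e | e)
    · rw [e] at qY
      exact Finset.disjoint_left.1 d01 qY hq
    · rw [e] at pY
      exact Finset.disjoint_left.1 d01 hp pY
    · rw [e] at pY
      exact Finset.disjoint_left.1 d02 hp pY
  -- the line `Y0` meets every line of the first class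
  have hmeet : ∀ t : ZMod 3, ∃ z ∈ Y0, idx X0 X1 z = t := by
    intro t
    obtain ⟨a, b, c, hab, hac, hbc, e⟩ := Finset.card_eq_three.1 (hL.1 Y0 hY0)
    have ha : a ∈ Y0 := by rw [e]; simp
    have hb : b ∈ Y0 := by rw [e]; simp
    have hc : c ∈ Y0 := by rw [e]; simp
    rcases zmod3_all (idx X0 X1 a) (idx X0 X1 b) (idx X0 X1 c) t
      ⟨fun e' => hY0X (idx_line hL hX0 hX1 hX2 hcovX hY0 ha hb hab e'),
        fun e' => hY0X (idx_line hL hX0 hX1 hX2 hcovX hY0 ha hc hac e'),
        fun e' => hY0X (idx_line hL hX0 hX1 hX2 hcovX hY0 hb hc hbc e')⟩ with h | h | h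
    · exact ⟨a, ha, h.symm⟩
    · exact ⟨b, hb, h.symm⟩
    · exact ⟨c, hc, h.symm⟩
  have hXY : ∀ ℓ : Finset Ω, (ℓ = X0 ∨ ℓ = X1 ∨ ℓ = X2) → (ℓ = Y0 ∨ ℓ = Y1 ∨ ℓ = Y2) →
      False := by
    intro ℓ hX hY
    rcases hY with rfl | rfl | rfl
    · exact hY0X hX
    · -- `ℓ = Y1` is disjoint from `Y0` but every line of the first class meets `Y0`
      rcases hX with e | e | e
      · obtain ⟨z, hz, hz0⟩ := hmeet 0
        rcases hcovX z with h | h | h
        · exact Finset.disjoint_left.1 e01 hz (e ▸ h)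
        · rw [v1 z h] at hz0
          exact absurd hz0 (by decide)
        · rw [v2 z h] at hz0
          exact absurd hz0 (by decide)
      · obtain ⟨z, hz, hz0⟩ := hmeet 1
        rcases hcovX z with h | h | h
        · rw [v0 z h] at hz0
          exact absurd hz0 (by decide)
        · exact Finset.disjoint_left.1 e01 hz (e ▸ h)
        · rw [v2 z h] at hz0
          exact absurd hz0 (by decide)
      · obtain ⟨z, hz, hz0⟩ := hmeet 2
        rcases hcovX z with h | h | h
        · rw [v0 z h] at hz0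
          exact absurd hz0 (by decide)
        · rw [v1 z h] at hz0
          exact absurd hz0 (by decide)
        · exact Finset.disjoint_left.1 e01 hz (e ▸ h)
    · rcases hX with e | e | e
      · obtain ⟨z, hz, hz0⟩ := hmeet 0
        rcases hcovX z with h | h | h
        · exact Finset.disjoint_left.1 e02 hz (e ▸ h)
        · rw [v1 z h] at hz0
          exact absurd hz0 (by decide)
        · rw [v2 z h] at hz0
          exact absurd hz0 (by decide)
      · obtain ⟨z, hz, hz0⟩ := hmeet 1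
        rcases hcovX z with h | h | h
        · rw [v0 z h] at hz0
          exact absurd hz0 (by decide)
        · exact Finset.disjoint_left.1 e02 hz (e ▸ h)
        · rw [v2 z h] at hz0
          exact absurd hz0 (by decide)
      · obtain ⟨z, hz, hz0⟩ := hmeet 2
        rcases hcovX z with h | h | h
        · rw [v0 z h] at hz0
          exact absurd hz0 (by decide)
        · rw [v1 z h] at hz0
          exact absurd hz0 (by decide)
        · exact Finset.disjoint_left.1 e02 hz (e ▸ h)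
  have hinj : Function.Injective (fun z : Ω => ((idx X0 X1 z, idx Y0 Y1 z) : P9)) := by
    intro z z' hzz
    by_contra hne
    obtain ⟨ℓ, ⟨hℓ, hsℓ⟩, -⟩ := hL.2 {z, z'} (Finset.card_pair hne)
    have mz : z ∈ ℓ := hsℓ (by simp)
    have mz' : z' ∈ ℓ := hsℓ (by simp)
    exact hXY ℓ (idx_line hL hX0 hX1 hX2 hcovX hℓ mz mz' hne (congrArg Prod.fst hzz))
      (idx_line hL hY0 hY1 hY2 hcovY hℓ mz mz' hne (congrArg Prod.snd hzz))
  have hbij : Function.Bijective (fun z : Ω => ((idx X0 X1 z, idx Y0 Y1 z) : P9)) :=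
    (Fintype.bijective_iff_injective_and_card _).2
      ⟨hinj, by rw [hΩ, Fintype.card_prod, ZMod.card]⟩
  have himg : ∀ ℓ ∈ L, ℓ.image (Equiv.ofBijective _ hbij) ∈ L9 := by
    intro ℓ hℓ
    refine ⟨?_, ?_⟩
    · rw [Finset.card_image_of_injective _ (Equiv.injective _)]
      exact hL.1 ℓ hℓ
    · rw [Finset.sum_image (fun a _ b _ h => (Equiv.injective _) h)]
      apply Prod.ext
      · rw [Prod.fst_sum]
        exact idx_sum hL hX0 hX1 hX2 hcovX d01 d02 d12 hℓ
      · rw [Prod.snd_sum]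
        exact idx_sum hL hY0 hY1 hY2 hcovY e01 e02 e12 hℓ
  refine ⟨Equiv.ofBijective _ hbij, ?_⟩
  ext b
  constructor
  · rintro ⟨ℓ, hℓ, rfl⟩
    exact himg ℓ hℓ
  · intro hb
    obtain ⟨u, v, w, huv, -, -, e⟩ := Finset.card_eq_three.1 hb.1
    have hu : u ∈ b := by rw [e]; simp
    have hv : v ∈ b := by rw [e]; simp
    have hne : (Equiv.ofBijective _ hbij).symm u ≠ (Equiv.ofBijective _ hbij).symm v :=
      fun h => huv ((Equiv.injective _) h)
    obtain ⟨ℓ, ⟨hℓ, hsℓ⟩, -⟩ := hL.2 _ (Finset.card_pair hne)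
    refine ⟨ℓ, hℓ, ?_⟩
    have mu : u ∈ ℓ.image (Equiv.ofBijective _ hbij) :=
      Finset.mem_image.2 ⟨_, hsℓ (by simp), Equiv.apply_symm_apply _ u⟩
    have mv : v ∈ ℓ.image (Equiv.ofBijective _ hbij) :=
      Finset.mem_image.2 ⟨_, hsℓ (by simp), Equiv.apply_symm_apply _ v⟩
    show ℓ.image (Equiv.ofBijective _ hbij) = b
    rw [L9_third (himg ℓ hℓ) mu mv huv, L9_third hb hu hv huv]

end Plane

open Finset
open Cfsg.Agent.Lib.Helper4 Cfsg.Agent.Lib.Helper28.Ext23 Cfsg.Agent.S0410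
open Cfsg.Agent.Lib.Helper28.Aut22 Cfsg.Agent.Lib.Helper28.Plane4

/-- The twelve points: three extra points and the plane. -/
abbrev Y12 : Type := Fin 3 ⊕ P9

/-- The identification with the thrice extended plane. -/
def E0 : Y12 ≃ Option (Option (Option P9)) where
  toFun
    | Sum.inl i => ![none, some none, some (some none)] i
    | Sum.inr m => some (some (some m))
  invFun
    | none => Sum.inl 0
    | some none => Sum.inl 1
    | some (some none) => Sum.inl 2
    | some (some (some m)) => Sum.inr m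
  left_inv := by
    rintro (i | m)
    · fin_cases i <;> rfl
    · rfl
  right_inv := by
    rintro (_ | _ | _ | m) <;> rfl

theorem d_clinj : ∀ k k' : Fin 3,
    (∃ c, Qd 0 av (bv k) = Qd c av (bv k') ∨ Qd 0 av (bv k) = Pg c av (bv k')) → k = k' := by
  decide +kernel

theorem d_two : ∀ I : Finset (Fin 3), 2 ≤ I.card → I = univ ∨ ∃ i, I = univ.erase i := by
  decide

theorem d_er1 : ∀ i j : Fin 3,
    1 ≤ (((univ : Finset (Fin 3)).erase i) ∩ ((univ : Finset (Fin 3)).erase j)).card := by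
  decide

theorem d_er2 : ∀ i j : Fin 3,
    (univ : Finset (Fin 3)).erase i = (univ : Finset (Fin 3)).erase j → i = j := by decide

theorem img_mem {α β : Type*} [DecidableEq α] [DecidableEq β] (e : α ≃ β) {B : Set (Finset α)}
    {b : Finset α} : b.image e ∈ (fun b : Finset α => b.image e) '' B ↔ b ∈ B := by
  constructor
  · rintro ⟨b', hb', e'⟩
    have h : b' = b := Finset.image_injective e.injective e'
    rw [← h]
    exact hb'
  · intro h
    exact ⟨b, h, rfl⟩

theorem mem_img {α β : Type*} [DecidableEq β] (e : α ≃ β) {s : Finset α} {z : β} :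
    z ∈ s.image e ↔ e.symm z ∈ s := by
  rw [Finset.mem_image]
  constructor
  · rintro ⟨y, hy, rfl⟩
    rwa [Equiv.symm_apply_apply]
  · intro h
    exact ⟨_, h, Equiv.apply_symm_apply _ _⟩

theorem img_symm {α β : Type*} [DecidableEq α] [DecidableEq β] (e : α ≃ β) (b : Finset β) :
    (b.image e.symm).image e = b := by
  ext z
  rw [mem_img, mem_img, Equiv.symm_symm, Equiv.apply_symm_apply]

theorem img_symm' {α β : Type*} [DecidableEq α] [DecidableEq β] (e : α ≃ β) (b : Finset α) :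
    (b.image e).image e.symm = b := by
  ext z
  rw [mem_img, mem_img, Equiv.symm_symm, Equiv.symm_apply_apply]

theorem ins3 (ℓ : Finset P9) : Finset.insertNone (Finset.insertNone (Finset.insertNone ℓ))
    = ((univ : Finset (Fin 3)).disjSum ℓ).image E0 := by
  ext z
  rw [mem_img]
  rcases z with _ | _ | _ | m
  · show none ∈ _ ↔ (Sum.inl 0 : Y12) ∈ _
    simp
  · show some none ∈ _ ↔ (Sum.inl 1 : Y12) ∈ _
    simp
  · show some (some none) ∈ _ ↔ (Sum.inl 2 : Y12) ∈ _
    simp
  · show some (some (some m)) ∈ _ ↔ (Sum.inr m : Y12) ∈ _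
    rw [Finset.some_mem_insertNone, Finset.some_mem_insertNone, Finset.some_mem_insertNone,
      Finset.inr_mem_disjSum]

theorem ins2 (S : Finset P9) :
    Finset.insertNone (Finset.insertNone (S.map Function.Embedding.some))
      = (((univ : Finset (Fin 3)).erase 2).disjSum S).image E0 := by
  ext z
  rw [mem_img]
  rcases z with _ | _ | _ | m
  · show none ∈ _ ↔ (Sum.inl 0 : Y12) ∈ _
    simp
  · show some none ∈ _ ↔ (Sum.inl 1 : Y12) ∈ _
    simp
  · show some (some none) ∈ _ ↔ (Sum.inl 2 : Y12) ∈ _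
    simp
  · show some (some (some m)) ∈ _ ↔ (Sum.inr m : Y12) ∈ _
    rw [Finset.some_mem_insertNone, Finset.some_mem_insertNone, Finset.inr_mem_disjSum]
    exact Finset.mem_map' Function.Embedding.some

/-- The lines of the triply derived system. -/
def Ln (B : Set (Finset Y12)) : Set (Finset P9) := {ℓ | (univ : Finset (Fin 3)).disjSum ℓ ∈ B}

/-- The quadrangles of the blocks through exactly two of the extra points. -/
def Fc (B : Set (Finset Y12)) (i : Fin 3) : Set (Finset P9) :=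
  {S | ((univ : Finset (Fin 3)).erase i).disjSum S ∈ B}

/-- The permutation of the twelve points induced by a permutation of the extra points. -/
def gp (τ : Equiv.Perm (Fin 3)) : Equiv.Perm Y12 := Equiv.sumCongr τ (Equiv.refl P9)

theorem gp_image (τ : Equiv.Perm (Fin 3)) (I : Finset (Fin 3)) (S : Finset P9) :
    (I.disjSum S).image (gp τ) = (I.image τ).disjSum S := by
  ext z
  rw [mem_img]
  rcases z with i | m
  · show (Sum.inl (τ.symm i) : Y12) ∈ _ ↔ _
    rw [Finset.inl_mem_disjSum, Finset.inl_mem_disjSum, mem_img]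
  · show (Sum.inr m : Y12) ∈ _ ↔ _
    rw [Finset.inr_mem_disjSum, Finset.inr_mem_disjSum]

theorem Ln_gp (τ : Equiv.Perm (Fin 3)) (B : Set (Finset Y12)) :
    Ln ((fun b : Finset Y12 => b.image (gp τ)) '' B) = Ln B := by
  ext ℓ
  have h : ((univ : Finset (Fin 3)).disjSum ℓ).image (gp τ) = (univ : Finset (Fin 3)).disjSum ℓ := by
    rw [gp_image, Finset.image_univ_equiv]
  constructor
  · intro hm
    have hm' : (univ : Finset (Fin 3)).disjSum ℓ ∈ (fun b : Finset Y12 => b.image (gp τ)) '' B := hm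
    rw [← h] at hm'
    exact show (univ : Finset (Fin 3)).disjSum ℓ ∈ B from (img_mem (gp τ)).1 hm'
  · intro hm
    have hm0 : (univ : Finset (Fin 3)).disjSum ℓ ∈ B := hm
    have hm' := (img_mem (gp τ)).2 hm0
    rw [h] at hm'
    exact hm'

theorem Fc_gp (τ : Equiv.Perm (Fin 3)) (B : Set (Finset Y12)) (j : Fin 3) :
    Fc ((fun b : Finset Y12 => b.image (gp τ)) '' B) (τ j) = Fc B j := by
  ext S
  have h : (((univ : Finset (Fin 3)).erase j).disjSum S).image (gp τ)
      = ((univ : Finset (Fin 3)).erase (τ j)).disjSum S := by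
    rw [gp_image, Finset.image_erase τ.injective, Finset.image_univ_equiv]
  constructor
  · intro hm
    have hm' : ((univ : Finset (Fin 3)).erase (τ j)).disjSum S
        ∈ (fun b : Finset Y12 => b.image (gp τ)) '' B := hm
    rw [← h] at hm'
    exact show ((univ : Finset (Fin 3)).erase j).disjSum S ∈ B from (img_mem (gp τ)).1 hm'
  · intro hm
    have hm0 : ((univ : Finset (Fin 3)).erase j).disjSum S ∈ B := hm
    have hm' := (img_mem (gp τ)).2 hm0
    rw [h] at hm'
    exact hm'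

theorem fc2 {B : Set (Finset Y12)} (hB : IsSteinerSystem 5 6 B) (hLn : Ln B = L9) :
    ∃ k, Fc B 2 = Cl k := by
  have h3 : IsSteinerSystem 5 6 ((fun b : Finset Y12 => b.image E0) '' B) := steiner_image E0 hB
  have hD : IsSteinerSystem 3 4 (der (der ((fun b : Finset Y12 => b.image E0) '' B))) :=
    der_steiner (der_steiner h3)
  have hder : der (der (der ((fun b : Finset Y12 => b.image E0) '' B))) = L9 := by
    rw [← hLn]
    ext ℓ
    show Finset.insertNone (Finset.insertNone (Finset.insertNone ℓ))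
      ∈ (fun b : Finset Y12 => b.image E0) '' B ↔ (univ : Finset (Fin 3)).disjSum ℓ ∈ B
    rw [ins3, img_mem]
  obtain ⟨k, hk⟩ := ext10 hD hder
  refine ⟨k, ?_⟩
  ext S
  rw [← hk S]
  show ((univ : Finset (Fin 3)).erase 2).disjSum S ∈ B ↔
    Finset.insertNone (Finset.insertNone (S.map Function.Embedding.some))
      ∈ (fun b : Finset Y12 => b.image E0) '' B
  rw [ins2, img_mem]

theorem fc_all {B : Set (Finset Y12)} (hB : IsSteinerSystem 5 6 B) (hLn : Ln B = L9)
    (i : Fin 3) : ∃ k, Fc B i = Cl k := by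
  obtain ⟨k, hk⟩ := fc2 (steiner_image (gp (Equiv.swap i 2)) hB) ((Ln_gp _ B).trans hLn)
  refine ⟨k, ?_⟩
  rw [← hk, ← Fc_gp (Equiv.swap i 2) B i, Equiv.swap_apply_left]

theorem fc_disj {B : Set (Finset Y12)} (hB : IsSteinerSystem 5 6 B) {i j : Fin 3} (hij : i ≠ j)
    {S : Finset P9} (hi : S ∈ Fc B i) (hj : S ∈ Fc B j) : False := by
  have hi' : ((univ : Finset (Fin 3)).erase i).disjSum S ∈ B := hi
  have hj' : ((univ : Finset (Fin 3)).erase j).disjSum S ∈ B := hj
  have hc := hB.1 _ hi'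
  rw [Finset.card_disjSum, Finset.card_erase_of_mem (Finset.mem_univ i), Finset.card_univ,
    Fintype.card_fin] at hc
  have hsub : (((univ : Finset (Fin 3)).erase i) ∩ ((univ : Finset (Fin 3)).erase j)).disjSum S ⊆
      ((univ : Finset (Fin 3)).erase i).disjSum S ∩ ((univ : Finset (Fin 3)).erase j).disjSum S := by
    rw [Finset.subset_inter_iff]
    exact ⟨Finset.disjSum_mono Finset.inter_subset_left (Finset.Subset.refl _),
      Finset.disjSum_mono Finset.inter_subset_right (Finset.Subset.refl _)⟩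
  have hc2 := Finset.card_le_card hsub
  rw [Finset.card_disjSum] at hc2
  have h1 := d_er1 i j
  have e := Steiner.eq_of_le_inter hB hi' hj' (by omega)
  have e2 := congrArg Finset.toLeft e
  rw [Finset.toLeft_disjSum, Finset.toLeft_disjSum] at e2
  exact hij (d_er2 i j e2)

theorem Cl_inj (k k' : Fin 3) (h : Cl k = Cl k') : k = k' := by
  have hm : Qd 0 av (bv k) ∈ Cl k' := by
    rw [← h]
    exact ⟨0, Or.inl rfl⟩
  exact d_clinj k k' hm

/-- The classes can be put in standard order by a permutation of the extra points. -/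
theorem normalize {B : Set (Finset Y12)} (hB : IsSteinerSystem 5 6 B) (hLn : Ln B = L9) :
    ∃ τ : Equiv.Perm (Fin 3), (∀ j, Fc ((fun b : Finset Y12 => b.image (gp τ)) '' B) j = Cl j) ∧
      (Fc B 0 = Cl 0 → τ 0 = 0) := by
  choose σ hσ using fc_all hB hLn
  have hinj : Function.Injective σ := by
    intro i j hij
    by_contra hne
    have h1 : Qd 0 av (bv (σ i)) ∈ Fc B i := by
      rw [hσ i]
      exact ⟨0, Or.inl rfl⟩
    have h2 : Qd 0 av (bv (σ i)) ∈ Fc B j := by
      rw [hσ j, ← hij]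
      exact ⟨0, Or.inl rfl⟩
    exact fc_disj hB hne h1 h2
  have hbij : Function.Bijective σ := Finite.injective_iff_bijective.1 hinj
  refine ⟨Equiv.ofBijective σ hbij, ?_, ?_⟩
  · intro j
    obtain ⟨i, rfl⟩ := hbij.2 j
    exact (Fc_gp (Equiv.ofBijective σ hbij) B i).trans (hσ i)
  · intro h0
    show σ 0 = 0
    exact Cl_inj _ _ ((hσ 0).symm.trans h0)

theorem card_Y12 : Fintype.card Y12 = 12 := by
  rw [Fintype.card_sum, Fintype.card_fin, Fintype.card_prod, ZMod.card]

theorem det_sub {B B' : Set (Finset Y12)} (hB : IsSteinerSystem 5 6 B)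
    (hB' : IsSteinerSystem 5 6 B') (hL : Ln B = Ln B') (hF : ∀ i, Fc B i = Fc B' i) : B ⊆ B' := by
  have big : ∀ b ∈ B, 2 ≤ b.toLeft.card → b ∈ B' := by
    intro b hb h2
    rcases d_two b.toLeft h2 with h | ⟨i, h⟩
    · have hm : b.toRight ∈ Ln B := by
        show (univ : Finset (Fin 3)).disjSum b.toRight ∈ B
        rw [← h, Finset.toLeft_disjSum_toRight]
        exact hb
      rw [hL] at hm
      have hm' : (univ : Finset (Fin 3)).disjSum b.toRight ∈ B' := hm
      rwa [← h, Finset.toLeft_disjSum_toRight] at hm'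
    · have hm : b.toRight ∈ Fc B i := by
        show ((univ : Finset (Fin 3)).erase i).disjSum b.toRight ∈ B
        rw [← h, Finset.toLeft_disjSum_toRight]
        exact hb
      rw [hF i] at hm
      have hm' : ((univ : Finset (Fin 3)).erase i).disjSum b.toRight ∈ B' := hm
      rwa [← h, Finset.toLeft_disjSum_toRight] at hm'
  intro b hb
  by_cases h2 : 2 ≤ b.toLeft.card
  · exact big b hb h2
  · have hc := Cfsg.Agent.S0357.result card_Y12 hB hb
    have hl : bᶜ.toLeft = b.toLeftᶜ := by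
      ext a
      simp
    have h2' : 2 ≤ bᶜ.toLeft.card := by
      rw [hl, Finset.card_compl, Fintype.card_fin]
      omega
    have hc' := big _ hc h2'
    have h := Cfsg.Agent.S0357.result card_Y12 hB' hc'
    rwa [compl_compl] at h

/-- Normalised systems. -/
def IsNorm (B : Set (Finset Y12)) : Prop :=
  IsSteinerSystem 5 6 B ∧ Ln B = L9 ∧ ∀ i, Fc B i = Cl i

theorem norm_unique {B B' : Set (Finset Y12)} (h : IsNorm B) (h' : IsNorm B') : B = B' :=
  Set.Subset.antisymm
    (det_sub h.1 h'.1 (h.2.1.trans h'.2.1.symm) (fun i => (h.2.2 i).trans (h'.2.2 i).symm))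
    (det_sub h'.1 h.1 (h'.2.1.trans h.2.1.symm) (fun i => (h'.2.2 i).trans (h.2.2 i).symm))

theorem Ln_E0 (B2 : Set (Finset (Option (Option (Option P9))))) :
    Ln ((fun b : Finset (Option (Option (Option P9))) => b.image E0.symm) '' B2)
      = der (der (der B2)) := by
  ext ℓ
  show (univ : Finset (Fin 3)).disjSum ℓ
      ∈ (fun b : Finset (Option (Option (Option P9))) => b.image E0.symm) '' B2 ↔
    Finset.insertNone (Finset.insertNone (Finset.insertNone ℓ)) ∈ B2
  rw [ins3]
  constructor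
  · rintro ⟨b, hb, e⟩
    have h : b = ((univ : Finset (Fin 3)).disjSum ℓ).image E0 := by
      rw [← e, img_symm]
    rw [← h]
    exact hb
  · intro h
    exact ⟨_, h, img_symm' E0 _⟩

/-- Every system with the parameters in question can be normalised. -/
theorem to_norm {α : Type*} [Fintype α] [DecidableEq α] (hα : Fintype.card α = 12)
    {B : Set (Finset α)} (hB : IsSteinerSystem 5 6 B) :
    ∃ Φ : α ≃ Y12, IsNorm ((fun b : Finset α => b.image Φ) '' B) := by
  have c9 : Fintype.card (Fin 9) = 9 := Fintype.card_fin 9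
  have c12 : Fintype.card (Option (Option (Option (Fin 9)))) = 12 := by
    simp [Fintype.card_option]
  have e0 : α ≃ Option (Option (Option (Fin 9))) := Fintype.equivOfCardEq (by rw [hα, c12])
  have hB1 := steiner_image e0 hB
  generalize hB1def : (fun b : Finset α => b.image e0) '' B = B1 at hB1
  have hL1 : IsSteinerSystem 2 3 (der (der (der B1))) :=
    der_steiner (der_steiner (der_steiner hB1))
  obtain ⟨f, hf⟩ := plane_iso c9 hL1
  have hB2 := steiner_image (Equiv.optionCongr (Equiv.optionCongr (Equiv.optionCongr f))) hB1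
  have hder2 : der (der (der ((fun b : Finset (Option (Option (Option (Fin 9)))) =>
      b.image (Equiv.optionCongr (Equiv.optionCongr (Equiv.optionCongr f)))) '' B1))) = L9 := by
    rw [der_image, der_image, der_image, hf]
  generalize hB2def : (fun b : Finset (Option (Option (Option (Fin 9)))) =>
      b.image (Equiv.optionCongr (Equiv.optionCongr (Equiv.optionCongr f)))) '' B1 = B2
    at hB2 hder2
  have hB3 := steiner_image E0.symm hB2
  have hLn3 := (Ln_E0 B2).trans hder2
  generalize hB3def : (fun b : Finset (Option (Option (Option P9))) => b.image E0.symm) '' B2 = B3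
    at hB3 hLn3
  obtain ⟨τ, hτ, -⟩ := normalize hB3 hLn3
  refine ⟨e0.trans ((Equiv.optionCongr (Equiv.optionCongr (Equiv.optionCongr f))).trans
    (E0.symm.trans (gp τ))), ?_⟩
  rw [image_trans_set, image_trans_set, image_trans_set, hB1def, hB2def, hB3def]
  exact ⟨steiner_image _ hB3, (Ln_gp τ B3).trans hLn3, hτ⟩

end Cfsg.Agent.Lib.Helper28.Aff9
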